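import Mathlib
import Cfsg.Prelude.Def_GeometricClasses
import Cfsg.Agent.Lib.Helper71.Asch0
import Cfsg.Agent.Lib.Helper71.Asch8
import Cfsg.Agent.Lib.Helper1.SP8EADefs

/-!
# SP8-EA (S5823, architect helper1), piece EA4a (helper29)

The rectangular base change to the tensor cube.
-/

set_option autoImplicit false

namespace Cfsg.Agent.Lib.Helper29.SP8EA4a

open Matrix Cfsg.Geo Cfsg.Agent.Lib.Helper71.Asch Cfsg.Agent.Lib.Helper1.SP8EADefs
open scoped Kronecker

variable {n : ℕ} {F : Type*} [Field F] [Fintype F]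

/-- `(Fin 3 → Fin 2) ≃ Fin 2 × (Fin 2 → Fin 2)`. -/
def ea4a_eqv : (Fin 3 → Fin 2) ≃ Fin 2 × (Fin 2 → Fin 2) where
  toFun x := (x 0, ![x 1, x 2])
  invFun p := ![p.1, p.2 0, p.2 1]
  left_inv x := by funext i; fin_cases i <;> rfl
  right_inv p := by
    rcases p with ⟨i, z⟩
    refine Prod.ext rfl ?_
    funext j; fin_cases j <;> rfl

theorem ea4a_eta {α : Type*} (z : Fin 2 → α) : ![z 0, z 1] = z := by
  funext j; fin_cases j <;> rfl

theorem ea4a_sum (g : (Fin 3 → Fin 2) → F) :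
    ∑ x, g x = ∑ i : Fin 2, ∑ z : Fin 2 → Fin 2, g ![i, z 0, z 1] := by
  rw [← Equiv.sum_comp ea4a_eqv.symm g, Fintype.sum_prod_type]
  rfl

theorem ea4a_T3_mul {κ : Type*} (S : Matrix (Fin 4) (Fin 2 → Fin 2) F)
    (N : Matrix (Fin 3 → Fin 2) κ F) (i : Fin 2) (j : Fin 4) (c : κ) :
    (T3 S * N) (i, j) c = ∑ z : Fin 2 → Fin 2, S j z * N ![i, z 0, z 1] c := by
  rw [Matrix.mul_apply, ea4a_sum]
  rw [Finset.sum_eq_single i]
  · refine Finset.sum_congr rfl (fun z _ => ?_)
    show (if i = i then S j ![z 0, z 1] else 0) * N ![i, z 0, z 1] c = _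
    rw [if_pos rfl, ea4a_eta]
  · intro i' _ hi'
    refine Finset.sum_eq_zero (fun z _ => ?_)
    show (if i = i' then S j ![z 0, z 1] else 0) * N ![i', z 0, z 1] c = 0
    rw [if_neg (fun h => hi' h.symm), zero_mul]
  · intro h; exact absurd (Finset.mem_univ _) h

theorem ea4a_mul_T3i {κ : Type*} (Si : Matrix (Fin 2 → Fin 2) (Fin 4) F)
    (N : Matrix κ (Fin 3 → Fin 2) F) (c : κ) (k : Fin 2) (l : Fin 4) :
    (N * T3i Si) c (k, l) = ∑ z : Fin 2 → Fin 2, N c ![k, z 0, z 1] * Si z l := by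
  rw [Matrix.mul_apply, ea4a_sum]
  rw [Finset.sum_eq_single k]
  · refine Finset.sum_congr rfl (fun z _ => ?_)
    show N c ![k, z 0, z 1] * (if k = k then Si ![z 0, z 1] l else 0) = _
    rw [if_pos rfl, ea4a_eta]
  · intro i' _ hi'
    refine Finset.sum_eq_zero (fun z _ => ?_)
    show N c ![i', z 0, z 1] * (if k = i' then Si ![z 0, z 1] l else 0) = 0
    rw [if_neg (fun h => hi' h.symm), mul_zero]
  · intro h; exact absurd (Finset.mem_univ _) h

theorem ea4a_T3_T3i (S : Matrix (Fin 4) (Fin 2 → Fin 2) F) (Si : Matrix (Fin 2 → Fin 2) (Fin 4) F)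
    (hSSi : S * Si = 1) : T3 S * T3i Si = 1 := by
  ext ⟨i, j⟩ ⟨k, l⟩
  rw [ea4a_T3_mul]
  have h1 : ∀ z : Fin 2 → Fin 2, T3i Si ![i, z 0, z 1] (k, l) = if k = i then Si z l else 0 := by
    intro z
    show (if k = i then Si ![z 0, z 1] l else 0) = _
    rw [ea4a_eta]
  rw [Finset.sum_congr rfl (fun z _ => by rw [h1 z])]
  by_cases hki : k = i
  · subst hki
    simp only [if_true]
    have h2 : ∑ z, S j z * Si z l = (S * Si) j l := (Matrix.mul_apply).symm
    rw [h2, hSSi, Matrix.one_apply, Matrix.one_apply]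
    by_cases hjl : j = l
    · subst hjl; rw [if_pos rfl, if_pos rfl]
    · rw [if_neg hjl, if_neg (fun h => hjl (Prod.mk.inj h).2)]
  · simp only [if_neg hki, mul_zero, Finset.sum_const_zero]
    rw [Matrix.one_apply, if_neg (fun h => hki (Prod.mk.inj h).1.symm)]

theorem ea4a_T3i_T3 (S : Matrix (Fin 4) (Fin 2 → Fin 2) F) (Si : Matrix (Fin 2 → Fin 2) (Fin 4) F)
    (hSiS : Si * S = 1) : T3i Si * T3 S = 1 := by
  ext x y
  rw [Matrix.mul_apply, Fintype.sum_prod_type]
  rw [Finset.sum_eq_single (x 0)]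
  · have h1 : ∀ j : Fin 4, T3i Si x (x 0, j) * T3 S (x 0, j) y =
        if x 0 = y 0 then Si ![x 1, x 2] j * S j ![y 1, y 2] else 0 := by
      intro j
      show (if x 0 = x 0 then Si ![x 1, x 2] j else 0) *
        (if x 0 = y 0 then S j ![y 1, y 2] else 0) = _
      rw [if_pos rfl]
      by_cases h : x 0 = y 0
      · rw [if_pos h, if_pos h]
      · rw [if_neg h, if_neg h, mul_zero]
    rw [Finset.sum_congr rfl (fun j _ => h1 j)]
    by_cases h0 : x 0 = y 0
    · simp only [if_pos h0]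
      have h2 : ∑ j, Si ![x 1, x 2] j * S j ![y 1, y 2] = (Si * S) ![x 1, x 2] ![y 1, y 2] :=
        (Matrix.mul_apply).symm
      rw [h2, hSiS, Matrix.one_apply, Matrix.one_apply]
      by_cases h12 : (![x 1, x 2] : Fin 2 → Fin 2) = ![y 1, y 2]
      · rw [if_pos h12, if_pos]
        funext i
        have ha : x 1 = y 1 := congrFun h12 0
        have hb : x 2 = y 2 := congrFun h12 1
        fin_cases i
        · exact h0
        · exact ha
        · exact hb
      · rw [if_neg h12, if_neg]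
        intro hxy
        apply h12
        rw [hxy]
    · simp only [if_neg h0, Finset.sum_const_zero]
      rw [Matrix.one_apply, if_neg (fun h => h0 (by rw [h]))]
  · intro i _ hi
    refine Finset.sum_eq_zero (fun j _ => ?_)
    show (if i = x 0 then Si ![x 1, x 2] j else 0) * _ = 0
    rw [if_neg hi, zero_mul]
  · intro h; exact absurd (Finset.mem_univ _) h

theorem ea4a_kron (S : Matrix (Fin 4) (Fin 2 → Fin 2) F) (Si : Matrix (Fin 2 → Fin 2) (Fin 4) F)
    (a : Matrix (Fin 2) (Fin 2) F) (M : Matrix (Fin 2 → Fin 2) (Fin 2 → Fin 2) F) :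
    T3 S * lift3 a M * T3i Si = a ⊗ₖ (S * M * Si) := by
  ext ⟨i, j⟩ ⟨k, l⟩
  rw [Matrix.mul_assoc, ea4a_T3_mul]
  have h1 : ∀ z : Fin 2 → Fin 2, (lift3 a M * T3i Si) ![i, z 0, z 1] (k, l) =
      ∑ z' : Fin 2 → Fin 2, a i k * M z z' * Si z' l := by
    intro z
    rw [ea4a_mul_T3i]
    refine Finset.sum_congr rfl (fun z' _ => ?_)
    show a i k * M ![z 0, z 1] ![z' 0, z' 1] * Si z' l = _
    rw [ea4a_eta, ea4a_eta]
  rw [Finset.sum_congr rfl (fun z _ => by rw [h1 z])]
  show _ = a i k * (S * M * Si) j l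
  simp only [Matrix.mul_apply, Finset.mul_sum, Finset.sum_mul]
  rw [Finset.sum_comm]
  refine Finset.sum_congr rfl (fun z' _ => Finset.sum_congr rfl (fun z _ => ?_))
  ring

theorem ea4a_conj (e : Fin n ≃ Fin 2 × Fin 4) (P : GL (Fin n) F)
    (N : Matrix (Fin 2 × Fin 4) (Fin 2 × Fin 4) F) :
    P.1 * Matrix.reindex e.symm e.symm N * (P⁻¹ : GL (Fin n) F).1 =
      P.1.submatrix id e.symm * N * (P⁻¹ : GL (Fin n) F).1.submatrix e.symm id := by
  have hPl : (P.1.submatrix id e.symm).submatrix id e = P.1 := by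
    ext u v; simp [Matrix.submatrix_apply]
  have hPr : ((P⁻¹ : GL (Fin n) F).1.submatrix e.symm id).submatrix e id =
      (P⁻¹ : GL (Fin n) F).1 := by
    ext u v; simp [Matrix.submatrix_apply]
  have hN : Matrix.reindex e.symm e.symm N = N.submatrix e e := by
    ext u v; simp [Matrix.reindex_apply]
  have h1 := Matrix.submatrix_mul_equiv (P.1.submatrix id e.symm) N id e e
  have h2 := Matrix.submatrix_mul_equiv (P.1.submatrix id e.symm * N)
    ((P⁻¹ : GL (Fin n) F).1.submatrix e.symm id) id e id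
  rw [hPl] at h1
  rw [hPr, Matrix.submatrix_id_id] at h2
  rw [hN, h1, h2]

/-- EA4a: the rectangular base change to the tensor cube. -/
theorem EA4a (e : Fin n ≃ Fin 2 × Fin 4) (P : GL (Fin n) F)
    (S : Matrix (Fin 4) (Fin 2 → Fin 2) F) (Si : Matrix (Fin 2 → Fin 2) (Fin 4) F)
    (hSSi : S * Si = 1) (hSiS : Si * S = 1) :
    P3 e P S * Q3 e P Si = 1 ∧ Q3 e P Si * P3 e P S = 1 ∧
    ∀ (a : Matrix (Fin 2) (Fin 2) F) (b : Matrix (Fin 4) (Fin 4) F),
      tmat e P a b = P3 e P S * lift3 a (Si * b * S) * Q3 e P Si := by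
  have hTT := ea4a_T3_T3i S Si hSSi
  have hTT' := ea4a_T3i_T3 S Si hSiS
  have hPlr : P.1.submatrix id e.symm * (P⁻¹ : GL (Fin n) F).1.submatrix e.symm id = 1 := by
    rw [Matrix.submatrix_mul_equiv, ← Units.val_mul, mul_inv_cancel, Units.val_one]
    exact Matrix.submatrix_id_id _
  have hPrl : (P⁻¹ : GL (Fin n) F).1.submatrix e.symm id * P.1.submatrix id e.symm = 1 := by
    have h := Matrix.submatrix_mul_equiv (P⁻¹ : GL (Fin n) F).1 P.1 e.symm (Equiv.refl (Fin n))
      e.symm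
    rw [← Units.val_mul, inv_mul_cancel, Units.val_one, Matrix.submatrix_one_equiv] at h
    exact h
  refine ⟨?_, ?_, ?_⟩
  · unfold P3 Q3
    calc P.1.submatrix id e.symm * T3 S * (T3i Si * (P⁻¹ : GL (Fin n) F).1.submatrix e.symm id)
        = P.1.submatrix id e.symm * (T3 S * T3i Si) *
            (P⁻¹ : GL (Fin n) F).1.submatrix e.symm id := by
          simp only [Matrix.mul_assoc]
      _ = 1 := by rw [hTT, Matrix.mul_one, hPlr]
  · unfold P3 Q3
    calc T3i Si * (P⁻¹ : GL (Fin n) F).1.submatrix e.symm id * (P.1.submatrix id e.symm * T3 S)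
        = T3i Si * ((P⁻¹ : GL (Fin n) F).1.submatrix e.symm id * P.1.submatrix id e.symm) *
            T3 S := by
          simp only [Matrix.mul_assoc]
      _ = 1 := by rw [hPrl, Matrix.mul_one, hTT']
  · intro a b
    have hk := ea4a_kron S Si a (Si * b * S)
    have hb : S * (Si * b * S) * Si = b := by
      calc S * (Si * b * S) * Si = (S * Si) * b * (S * Si) := by simp only [Matrix.mul_assoc]
        _ = b := by rw [hSSi, Matrix.one_mul, Matrix.mul_one]
    rw [hb] at hk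
    unfold tmat P3 Q3
    rw [ea4a_conj, ← hk]
    simp only [Matrix.mul_assoc]

end Cfsg.Agent.Lib.Helper29.SP8EA4a
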