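import Cfsg.Agent.Lib.Helper47.QuadDefs
import Cfsg.Agent.Lib.Helper47.GUPrime

/-!
# S2674 piece CONJ (helper29): isometries of odd order of a quadratic space with the same
characteristic polynomial are conjugate by an isometry
-/

set_option autoImplicit false

namespace Cfsg.Agent.Lib.Helper29.QuadCONJ

open Polynomial Module Cfsg.Agent.Lib.Helper47

universe u

theorem typ_sign {F : Type u} [Field F] [Fintype F] (hf : QFacts F) (k : ℕ) (V : Type u)
    [AddCommGroup V] [Module F V] [FiniteDimensional F V] (Q : V → F) (B : V → V → F)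
    (hQ : IsQuad Q B) (hnd : Nondeg B) (hdim : finrank F V = 2 * k + 2) :
    ∃ ε : ℤ, (ε = 1 ∨ ε = -1) ∧ IsTyp Q k ε := by
  rcases hf.typ_exists k V Q B hQ hnd hdim with h | h
  · exact ⟨1, Or.inl rfl, h⟩
  · exact ⟨-1, Or.inr rfl, h⟩

theorem quad_exists_conj {F : Type u} [Field F] [Fintype F] (hf : QFacts F) {V : Type u}
    [AddCommGroup V] [Module F V] [FiniteDimensional F V] {Q : V → F} {B : V → V → F}
    (hQ : IsQuad Q B) (hnd : Nondeg B) (k : ℕ) (hdim : finrank F V = 2 * k + 2)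
    (g g' : Module.End F V) (r : ℕ) (hodd : Odd r) (hrF : (r : F) ≠ 0)
    (hg : g ^ r = 1) (hg' : g' ^ r = 1) (hgQ : ∀ v, Q (g v) = Q v)
    (hgQ' : ∀ v, Q (g' v) = Q v) (hc : g.charpoly = g'.charpoly) :
    ∃ Φ : V ≃ₗ[F] V, (∀ v, Q (Φ v) = Q v) ∧ ∀ v, Φ (g v) = g' (Φ v) := by
  have hr : 0 < r := hodd.pos
  have hB := hQ.form
  have hgi : ∀ x y, B (g x) (g y) = B x y := hQ.isometry hQ g hgQ
  have hgi' : ∀ x y, B (g' x) (g' y) = B x y := hQ.isometry hQ g' hgQ'
  have hcompl := isCompl_ker_range g r hrF hg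
  have hcompl' := isCompl_ker_range g' r hrF hg'
  obtain ⟨hfin, hcR⟩ := range_charpoly_eq_of_charpoly_eq g g' r hrF hg hg' hc
  obtain ⟨φ, hφe, hφQ, hφB⟩ :=
    exists_range_qisometry hQ hQ hnd hnd g g' r hodd hrF hg hg' hgQ hgQ' hcR
  have hsum := Submodule.finrank_add_eq_of_isCompl hcompl
  have hsum' := Submodule.finrank_add_eq_of_isCompl hcompl'
  have hfix : ∀ x : LinearMap.ker (g - 1), g (x : V) = (x : V) :=
    fun x => (mem_ker_sub_one g x).mp x.2
  have hfix' : ∀ x : LinearMap.ker (g' - 1), g' (x : V) = (x : V) :=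
    fun x => (mem_ker_sub_one g' x).mp x.2
  have horth : ∀ (x : LinearMap.ker (g - 1)) (w : LinearMap.range (g - 1)),
      B (x : V) (w : V) = 0 := fun x w => fix_orth_range hB g hgi x (hfix x) w w.2
  have horth' : ∀ (x : LinearMap.ker (g' - 1)) (w : LinearMap.range (g' - 1)),
      B (x : V) (w : V) = 0 := fun x w => fix_orth_range hB g' hgi' x (hfix' x) w w.2
  -- nondegeneracy of the fixed spaces
  have hndK : ∀ (h : Module.End F V), (∀ x y, B (h x) (h y) = B x y) → h ^ r = 1 →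
      Nondeg (resForm B (LinearMap.ker (h - 1))) := by
    intro h hhi hhr x hx
    apply Subtype.ext
    apply hnd
    intro y
    obtain ⟨k₀, w, hk₀, hw, rfl⟩ := exists_fix_decomp h r hrF hhr y
    rw [hB.add_right, fix_orth_range hB h hhi x ((mem_ker_sub_one h x).mp x.2) w hw, add_zero]
    exact hx ⟨k₀, (mem_ker_sub_one h k₀).mpr hk₀⟩
  have hevenR : Even (finrank F (LinearMap.range (g - 1))) :=
    hf.alt_even (LinearMap.range (g - 1)) (resForm (dForm B g r) (LinearMap.range (g - 1)))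
      ((dForm_isSForm hB g hgi r hr hg).res _) (fun x => dForm_alt hB g hgi r hr hg x)
      (nondeg_dForm_range hB hnd g hgi r hodd hrF hg)
  -- the isometry between the fixed spaces
  have hψ : ∃ ψ : LinearMap.ker (g - 1) ≃ₗ[F] LinearMap.ker (g' - 1),
      ∀ x, Q ((ψ x : LinearMap.ker (g' - 1)) : V) = Q (x : V) := by
    rcases Nat.eq_zero_or_pos (finrank F (LinearMap.range (g - 1))) with hR0 | hRpos
    · -- `g = 1 = g'`
      have hK : LinearMap.ker (g - 1) = ⊤ := Submodule.eq_top_of_finrank_eq (by omega)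
      have hK' : LinearMap.ker (g' - 1) = ⊤ := Submodule.eq_top_of_finrank_eq (by omega)
      refine ⟨(LinearEquiv.ofTop _ hK).trans (LinearEquiv.ofTop _ hK').symm, fun x => ?_⟩
      rw [LinearEquiv.trans_apply, LinearEquiv.coe_ofTop_symm_apply, LinearEquiv.ofTop_apply]
    rcases Nat.eq_zero_or_pos (finrank F (LinearMap.ker (g - 1))) with hK0 | hKpos
    · refine ⟨LinearEquiv.ofFinrankEq _ _ hfin, fun x => ?_⟩
      have h1 : x = 0 := _root_.finrank_zero_iff_forall_zero.mp hK0 x
      rw [h1, map_zero]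
      rfl
    · obtain ⟨b, hb⟩ : ∃ b, finrank F (LinearMap.range (g - 1)) = 2 * b + 2 := by
        obtain ⟨c, hc'⟩ := hevenR
        exact ⟨c - 1, by omega⟩
      obtain ⟨a, ha⟩ : ∃ a, finrank F (LinearMap.ker (g - 1)) = 2 * a + 2 :=
        ⟨k - b - 1, by omega⟩
      have hab : a + b + 1 = k := by omega
      have hb' : finrank F (LinearMap.range (g' - 1)) = 2 * b + 2 := by omega
      have ha' : finrank F (LinearMap.ker (g' - 1)) = 2 * a + 2 := by omega
      have hQK := hQ.res (LinearMap.ker (g - 1))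
      have hQK' := hQ.res (LinearMap.ker (g' - 1))
      have hQR := hQ.res (LinearMap.range (g - 1))
      have hQR' := hQ.res (LinearMap.range (g' - 1))
      have hndR := nondeg_res_range hB hnd g hgi r hrF hg
      have hndR' := nondeg_res_range hB hnd g' hgi' r hrF hg'
      obtain ⟨εK, hεK, hTK⟩ := typ_sign hf a _ _ _ hQK (hndK g hgi hg) ha
      obtain ⟨εK', hεK', hTK'⟩ := typ_sign hf a _ _ _ hQK' (hndK g' hgi' hg') ha'
      obtain ⟨εR, hεR, hTR⟩ := typ_sign hf b _ _ _ hQR hndR hb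
      obtain ⟨εR', hεR', hTR'⟩ := typ_sign hf b _ _ _ hQR' hndR' hb'
      have hRR : εR = εR' := (IsTyp.of_equiv φ.toEquiv (fun w => hφQ w) hTR).unique hTR'
      haveI : Finite (LinearMap.ker (g - 1)) := Module.finite_of_finite F
      haveI : Finite (LinearMap.ker (g' - 1)) := Module.finite_of_finite F
      haveI : Finite (LinearMap.range (g - 1)) := Module.finite_of_finite F
      haveI : Finite (LinearMap.range (g' - 1)) := Module.finite_of_finite F
      have hT1 : IsTyp Q (a + b + 1) (εK * εR) := by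
        refine IsTyp.of_equiv (Submodule.prodEquivOfIsCompl _ _ hcompl).toEquiv (fun p => ?_)
          (hf.typ_prod _ _ hTK hTR)
        show Q (Submodule.prodEquivOfIsCompl _ _ hcompl p) = Q (p.1 : V) + Q (p.2 : V)
        rw [Submodule.coe_prodEquivOfIsCompl', hQ.polar, horth, add_zero]
      have hT2 : IsTyp Q (a + b + 1) (εK' * εR') := by
        refine IsTyp.of_equiv (Submodule.prodEquivOfIsCompl _ _ hcompl').toEquiv (fun p => ?_)
          (hf.typ_prod _ _ hTK' hTR')
        show Q (Submodule.prodEquivOfIsCompl _ _ hcompl' p) = Q (p.1 : V) + Q (p.2 : V)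
        rw [Submodule.coe_prodEquivOfIsCompl', hQ.polar, horth', add_zero]
      have hprod := hT1.unique hT2
      have hKK : εK = εK' := by
        rw [← hRR] at hprod
        rcases hεR with h | h
        · rw [h, mul_one, mul_one] at hprod
          exact hprod
        · rw [h] at hprod
          linarith
      rw [← hKK] at hTK'
      obtain ⟨ψ, hψ⟩ := hf.isometric a εK _ _ _ _ _ _ hQK (hndK g hgi hg) ha hQK'
        (hndK g' hgi' hg') ha' hTK hTK'
      exact ⟨ψ, hψ⟩
  obtain ⟨ψ, hψQ⟩ := hψ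
  -- assembly
  obtain ⟨Φ, hΦ⟩ : ∃ Φ : V ≃ₗ[F] V, ∀ (x : LinearMap.ker (g - 1)) (w : LinearMap.range (g - 1)),
      Φ ((x : V) + (w : V)) = ((ψ x : LinearMap.ker (g' - 1)) : V) +
        ((φ w : LinearMap.range (g' - 1)) : V) := by
    refine ⟨(Submodule.prodEquivOfIsCompl _ _ hcompl).symm.trans
      ((ψ.prodCongr φ).trans (Submodule.prodEquivOfIsCompl _ _ hcompl')), fun x w => ?_⟩
    have h1 : (x : V) + (w : V) = Submodule.prodEquivOfIsCompl _ _ hcompl (x, w) := rfl
    rw [h1, LinearEquiv.trans_apply, LinearEquiv.symm_apply_apply, LinearEquiv.trans_apply,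
      LinearEquiv.prodCongr_apply, Submodule.coe_prodEquivOfIsCompl']
  have hdec : ∀ v : V, ∃ (x : LinearMap.ker (g - 1)) (w : LinearMap.range (g - 1)),
      v = (x : V) + (w : V) := by
    intro v
    obtain ⟨k₀, w, hk₀, hw, rfl⟩ := exists_fix_decomp g r hrF hg v
    exact ⟨⟨k₀, (mem_ker_sub_one g k₀).mpr hk₀⟩, ⟨w, hw⟩, rfl⟩
  refine ⟨Φ, fun v => ?_, fun v => ?_⟩
  · obtain ⟨x, w, rfl⟩ := hdec v
    rw [hΦ, hQ.polar, hQ.polar, horth, horth', hψQ, hφQ]
  · obtain ⟨x, w, rfl⟩ := hdec v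
    have h1 : g ((x : V) + (w : V)) =
        (x : V) + ((resInv g (range_sub_one_invt g) w : LinearMap.range (g - 1)) : V) := by
      rw [map_add, hfix, resInv_apply]
    rw [h1, hΦ, hΦ, hφe, map_add, hfix', resInv_apply]

end Cfsg.Agent.Lib.Helper29.QuadCONJ
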