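import Cfsg.Agent.Lib.Helper47.QuadDefs
import Cfsg.Agent.Lib.Helper47.GUPrime

/-!
# S2674 piece EXIST (helper29): existence of an isometry with prescribed characteristic polynomial
-/

set_option autoImplicit false

namespace Cfsg.Agent.Lib.Helper29.QuadEXIST

open Polynomial Module Cfsg.Agent.Lib.Helper47

universe u

theorem prodMap_one_pow {F : Type*} [Field F] {C M : Type*} [AddCommGroup C] [Module F C]
    [AddCommGroup M] [Module F M] (x : Module.End F M) (n : ℕ) :
    (LinearMap.prodMap (1 : Module.End F C) x) ^ n = LinearMap.prodMap (1 : Module.End F C) (x ^ n) := by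
  induction n with
  | zero => rw [pow_zero, pow_zero]; rfl
  | succ n ih => rw [pow_succ, ih, LinearMap.prodMap_mul, mul_one, pow_succ]

theorem quad_exists_of_multiset {F : Type u} [Field F] [Fintype F] (hf : QFacts F)
    {V : Type u} [AddCommGroup V] [Module F V] [FiniteDimensional F V] {Q : V → F}
    {B : V → V → F} (hQ : IsQuad Q B) (hnd : Nondeg B) (k : ℕ)
    (hdim : finrank F V = 2 * k + 2) (ε : ℤ) (hε : ε = 1 ∨ ε = -1) (htyp : IsTyp Q k ε)
    (p : ℕ) [Fact p.Prime] [CharP F p]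
    (r : ℕ) (hr : r.Prime) (hr2 : r ≠ 2) (hrp : r ≠ p) (u : Multiset F[X])
    (hu : ∀ f ∈ u, IsCycFactor r f) (hu0 : u ≠ 0)
    (hdual : u.map (dualP (RingHom.id F)) = u) (hdeg : u.prod.natDegree ≤ 2 * k + 2)
    (htype : u.prod.natDegree = 2 * k + 2 → tauSign u = ε) :
    ∃ g : Module.End F V, (∀ v, Q (g v) = Q v) ∧ g ^ r = 1 ∧
      g.charpoly = (X - 1) ^ (2 * k + 2 - u.prod.natDegree) * u.prod := by
  have hp : p.Prime := Fact.out
  have hrF : (r : F) ≠ 0 := by
    intro h
    have h1 := (CharP.cast_eq_zero_iff F p r).mp h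
    exact hrp ((Nat.prime_dvd_prime_iff_eq hp hr).mp h1).symm
  obtain ⟨M, iM1, iM2, iM3, QM, BM, x, hQM, hndM, hxQ, hxr, hxc, j, hj, hjT⟩ :=
    hf.rmodel r u hr hr2 hrF hu hdual hu0
  have hdegM : u.prod.natDegree = 2 * j + 2 := by
    rw [← hxc, LinearMap.charpoly_natDegree, hj]
  have transport : ∀ (P : Type u) [AddCommGroup P] [Module F P] [FiniteDimensional F P]
      (QP : P → F) (BP : P → P → F) (y : Module.End F P), IsQuad QP BP → Nondeg BP →
      finrank F P = 2 * k + 2 → IsTyp QP k ε → (∀ v, QP (y v) = QP v) → y ^ r = 1 →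
      ∃ g : Module.End F V, (∀ v, Q (g v) = Q v) ∧ g ^ r = 1 ∧ g.charpoly = y.charpoly := by
    intro P _ _ _ QP BP y hQP hndP hdimP hTP hyQ hyr
    obtain ⟨φ, hφ⟩ := hf.isometric k ε P V QP BP Q B hQP hndP hdimP hQ hnd hdim hTP htyp
    refine ⟨φ.conj y, fun v => ?_, ?_, LinearEquiv.charpoly_conj φ y⟩
    · rw [LinearEquiv.conj_apply_apply, hφ, hyQ, ← hφ, LinearEquiv.apply_symm_apply]
    · have h1 : φ.conj y = φ.conjRingEquiv y := rfl
      rw [h1, ← map_pow, hyr, map_one]
  by_cases hjk : j = k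
  · subst hjk
    obtain ⟨g, h1, h2, h3⟩ := transport M QM BM x hQM hndM hj
      (by rw [← htype hdegM]; exact hjT) hxQ hxr
    refine ⟨g, h1, h2, ?_⟩
    rw [h3, hxc, hdegM, Nat.sub_self, pow_zero, one_mul]
  · have hjk' : j < k := by omega
    have hsign : ε * tauSign u = 1 ∨ ε * tauSign u = -1 := by
      rcases hε with h | h <;> rcases tauSign_sq u with h' | h' <;> rw [h, h'] <;> norm_num
    obtain ⟨C, iC1, iC2, iC3, QC, BC, hQC, hndC, hdimC, hTC⟩ :=
      hf.space (k - j - 1) (ε * tauSign u) hsign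
    haveI : Finite C := Module.finite_of_finite F
    haveI : Finite M := Module.finite_of_finite F
    have hT := hf.typ_prod QC QM hTC hjT
    have e1 : k - j - 1 + j + 1 = k := by omega
    have e2 : ε * tauSign u * tauSign u = ε := by
      rcases tauSign_sq u with h' | h' <;> rw [h'] <;> ring
    rw [e1, e2] at hT
    obtain ⟨g, h1, h2, h3⟩ := transport (C × M) (fun x => QC x.1 + QM x.2)
      (fun x y => BC x.1 y.1 + BM x.2 y.2) (LinearMap.prodMap 1 x) (hQC.prod hQM)
      (nondeg_prod hQC.form hQM.form hndC hndM)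
      (by rw [Module.finrank_prod, hdimC, hj]; omega) hT
      (fun v => by
        show QC ((LinearMap.prodMap (1 : Module.End F C) x v).1) +
          QM ((LinearMap.prodMap (1 : Module.End F C) x v).2) = QC v.1 + QM v.2
        rw [LinearMap.prodMap_apply, hxQ]
        rfl)
      (by rw [prodMap_one_pow, hxr]; rfl)
    refine ⟨g, h1, h2, ?_⟩
    rw [h3, LinearMap.charpoly_prodMap, LinearMap.charpoly_one, hxc, hdimC, hdegM]
    congr 2
    omega

end Cfsg.Agent.Lib.Helper29.QuadEXIST
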