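import Mathlib
import Cfsg.Prelude.Def_Local
import Cfsg.Agent.Lib.Helper68.PLenBlockC
import Cfsg.Agent.Lib.Helper81.PSolv2
import Cfsg.Agent.Lib.Helper40.HallHigman

/-!
# S3787, piece CRIT: a `p`-length-one criterion.
-/

set_option autoImplicit false

namespace Cfsg.Agent.Lib.Helper29

open Cfsg

universe u v

/-- **S3787, piece CRIT.** -/
theorem s3787_crit {G : Type u} [Group G] [Finite G] (p : ℕ) [Fact p.Prime] (P : Sylow p G)
    [hn : (pPrimeCore p G).Normal]
    (h : ∀ g ∈ (P : Subgroup G),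
      (QuotientGroup.mk' (pPrimeCore p G) g) ∈ pCore p (G ⧸ pPrimeCore p G)) :
    PLengthLE p 1 G := by
  classical
  have hp : p.Prime := Fact.out
  set O := pPrimeCore p G with hO
  have hOcop : (Nat.card O).Coprime p := Cfsg.Agent.Lib.Helper81.pPrimeCore_coprime p
  haveI hcn : (pCore p (G ⧸ O)).Normal := Cfsg.Agent.Lib.Helper40.pCore_normal' p
  have hcp : IsPGroup p (pCore p (G ⧸ O)) := Cfsg.Agent.Lib.Helper40.pCore_isPGroup' p
  set K : Subgroup G := (pCore p (G ⧸ O)).comap (QuotientGroup.mk' O) with hK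
  haveI hKn : K.Normal := by rw [hK]; infer_instance
  have hPK : (P : Subgroup G) ≤ K := fun g hg => h g hg
  -- the hom K → G ⧸ O
  set f : K →* G ⧸ O := (QuotientGroup.mk' O).comp K.subtype with hf
  set N : Subgroup K := O.subgroupOf K with hN
  haveI hNn : N.Normal := by rw [hN]; infer_instance
  have hker : f.ker = N := by
    ext k
    rw [MonoidHom.mem_ker, hN, Subgroup.mem_subgroupOf, hf, MonoidHom.comp_apply,
      QuotientGroup.mk'_apply, QuotientGroup.eq_one_iff]
    rfl
  have hrange : f.range ≤ pCore p (G ⧸ O) := by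
    rintro _ ⟨k, rfl⟩
    exact k.2
  obtain ⟨a, ha⟩ := IsPGroup.iff_card.mp hcp
  have hidx : ∃ j, N.index = p ^ j := by
    have h1 : N.index = Nat.card f.range := by rw [← hker, Subgroup.index_ker]
    have h2 : Nat.card f.range ∣ p ^ a := by
      rw [← ha]; exact Subgroup.card_dvd_of_le hrange
    obtain ⟨j, -, hj⟩ := (Nat.dvd_prime_pow hp).mp h2
    exact ⟨j, by rw [h1, hj]⟩
  obtain ⟨j, hj⟩ := hidx
  have hNcop : (Nat.card N).Coprime p := by
    have h1 : Nat.card N ∣ Nat.card O := by
      let g : N →* O := (K.subtype.comp N.subtype).codRestrict O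
        (fun x => Subgroup.mem_subgroupOf.mp x.2)
      apply Subgroup.card_dvd_of_injective g
      intro x y hxy
      have h2 := congrArg (fun z : O => (z : G)) hxy
      exact Subtype.ext (Subtype.ext h2)
    exact Nat.Coprime.coprime_dvd_left h1 hOcop
  have hKcard : Nat.card K = Nat.card N * p ^ j := by
    rw [← hj]; exact (Subgroup.card_mul_index N).symm
  obtain ⟨P'⟩ : Nonempty (Sylow p K) := inferInstance
  obtain ⟨m, hm⟩ := IsPGroup.iff_card.mp P'.isPGroup'
  have hmj : p ^ m = p ^ j := by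
    have h1 : p ^ m ∣ Nat.card N * p ^ j := by
      rw [← hKcard, ← hm]; exact Subgroup.card_subgroup_dvd_card _
    have h2 : p ^ m ∣ p ^ j :=
      (Nat.Coprime.dvd_mul_left (Nat.Coprime.pow_left m (Nat.Coprime.symm hNcop))).mp h1
    have h3 : p ^ j ∣ Nat.card (P' : Subgroup K) * (P' : Subgroup K).index := by
      rw [Subgroup.card_mul_index, hKcard]; exact dvd_mul_left _ _
    have h4 : p ^ j ∣ Nat.card (P' : Subgroup K) :=
      (Nat.Coprime.dvd_mul_right (Nat.Coprime.pow_left j
        ((Nat.Prime.coprime_iff_not_dvd hp).mpr P'.not_dvd_index))).mp h3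
    rw [hm] at h4
    exact Nat.dvd_antisymm h2 h4
  have hcompl : N.IsComplement' (P' : Subgroup K) := by
    apply Subgroup.isComplement'_of_coprime
    · rw [hm, hmj, hKcard]
    · rw [hm]; exact Nat.Coprime.pow_right m hNcop
  exact Cfsg.Agent.Lib.Helper68.plength_one_of_npc p P K hPK ⟨P', N, hNn, hcompl⟩

end Cfsg.Agent.Lib.Helper29
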