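import Mathlib
import Cfsg.Agent.Lib.Helper48.StB

set_option autoImplicit false

/-! # S2401 piece CONJ1 (helper29): `w_ij(t)` acting on root elements sharing at most one index
with `{i,j}`. -/

namespace Cfsg.Agent.Lib.Helper48.St

open Cfsg.Agent.Lib.Helper48 Matrix

variable {K : Type*} [Field K] {G : Type*} [Group G] {n : ℕ}
variable {X : Fin n → Fin n → K → G}

theorem h29_conj3 (a b c x : G) :
    a * b * c * x * (a * b * c)⁻¹ = a * (b * (c * x * c⁻¹) * b⁻¹) * a⁻¹ := by group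

theorem h29_conj_mul (a x y : G) : a * (x * y) * a⁻¹ = (a * x * a⁻¹) * (a * y * a⁻¹) := by group

theorem conj_W_disj (hX : StRel X) (i j : Fin n) (hij : i ≠ j) (t : K)
    (k l : Fin n) (hkl : k ≠ l) (hki : k ≠ i) (hkj : k ≠ j) (hli : l ≠ i) (hlj : l ≠ j) (u : K) :
    stW X i j t * X k l u * (stW X i j t)⁻¹ = X k l u := by
  unfold stW
  rw [h29_conj3, hX.cj0 i j k l hij hkl (Ne.symm hli) (Ne.symm hkj) t u,
    hX.cj0 j i k l hij.symm hkl (Ne.symm hlj) (Ne.symm hki) (-t⁻¹) u,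
    hX.cj0 i j k l hij hkl (Ne.symm hli) (Ne.symm hkj) t u]

theorem conj_W_il (hX : StRel X) (i j : Fin n) (hij : i ≠ j) (t : K) (ht : t ≠ 0)
    (l : Fin n) (hli : l ≠ i) (hlj : l ≠ j) (u : K) :
    stW X i j t * X i l u * (stW X i j t)⁻¹ = X j l (-t⁻¹ * u) := by
  have hs : t * (-t⁻¹ * u) + u = 0 := by field_simp; ring
  unfold stW
  rw [h29_conj3, hX.cj0 i j i l hij (Ne.symm hli) (Ne.symm hli) hij.symm t u,
    hX.cj j i l hij.symm (Ne.symm hli) (Ne.symm hlj) (-t⁻¹) u, h29_conj_mul,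
    hX.cj i j l hij (Ne.symm hlj) (Ne.symm hli) t (-t⁻¹ * u),
    hX.cj0 i j i l hij (Ne.symm hli) (Ne.symm hli) hij.symm t u,
    hX.comm i l j l (Ne.symm hli) (Ne.symm hlj) (Ne.symm hli) hlj, mul_assoc,
    hX.add i l (Ne.symm hli), hs, hX.zero i l (Ne.symm hli), mul_one]

theorem conj_W_jl (hX : StRel X) (i j : Fin n) (hij : i ≠ j) (t : K) (ht : t ≠ 0)
    (l : Fin n) (hli : l ≠ i) (hlj : l ≠ j) (u : K) :
    stW X i j t * X j l u * (stW X i j t)⁻¹ = X i l (t * u) := by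
  have hs : -t⁻¹ * (t * u) + u = 0 := by field_simp; ring
  unfold stW
  rw [h29_conj3, hX.cj i j l hij (Ne.symm hlj) (Ne.symm hli) t u,
    h29_conj_mul (X j i (-t⁻¹)) (X i l (t * u)) (X j l u),
    hX.cj j i l hij.symm (Ne.symm hli) (Ne.symm hlj) (-t⁻¹) (t * u),
    hX.cj0 j i j l hij.symm (Ne.symm hlj) (Ne.symm hlj) hij (-t⁻¹) u,
    hX.comm j l i l (Ne.symm hlj) (Ne.symm hli) (Ne.symm hlj) hli,
    mul_assoc (X i l (t * u)) (X j l (-t⁻¹ * (t * u))) (X j l u),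
    hX.add j l (Ne.symm hlj), hs, hX.zero j l (Ne.symm hlj), mul_one,
    hX.cj0 i j i l hij (Ne.symm hli) (Ne.symm hli) hij.symm t (t * u)]

theorem conj_W_ki (hX : StRel X) (i j : Fin n) (hij : i ≠ j) (t : K) (ht : t ≠ 0)
    (k : Fin n) (hki : k ≠ i) (hkj : k ≠ j) (u : K) :
    stW X i j t * X k i u * (stW X i j t)⁻¹ = X k j (-t * u) := by
  have hs : -(-(u * t) * -t⁻¹) + u = 0 := by field_simp; ring
  have he : -(u * t) = -t * u := by ring
  unfold stW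
  rw [h29_conj3, hX.cj' k i j hki hij hkj u t,
    h29_conj_mul (X j i (-t⁻¹)) (X k j (-(u * t))) (X k i u),
    hX.cj' k j i hkj hij.symm hki (-(u * t)) (-t⁻¹),
    hX.cj0 j i k i hij.symm hki hij.symm (Ne.symm hki) (-t⁻¹) u,
    hX.comm k i k j hki hkj hkj (Ne.symm hki),
    mul_assoc (X k j (-(u * t))) (X k i (-(-(u * t) * -t⁻¹))) (X k i u),
    hX.add k i hki, hs, hX.zero k i hki, mul_one,
    hX.cj0 i j k j hij hkj hij (Ne.symm hkj) t (-(u * t)), he]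

theorem conj_W_kj (hX : StRel X) (i j : Fin n) (hij : i ≠ j) (t : K) (ht : t ≠ 0)
    (k : Fin n) (hki : k ≠ i) (hkj : k ≠ j) (u : K) :
    stW X i j t * X k j u * (stW X i j t)⁻¹ = X k i (t⁻¹ * u) := by
  have hs : -(-(u * -t⁻¹) * t) + u = 0 := by field_simp; ring
  have he : -(u * -t⁻¹) = t⁻¹ * u := by ring
  unfold stW
  rw [h29_conj3, hX.cj0 i j k j hij hkj hij (Ne.symm hkj) t u,
    hX.cj' k j i hkj hij.symm hki u (-t⁻¹), h29_conj_mul,
    hX.cj' k i j hki hij hkj (-(u * -t⁻¹)) t,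
    hX.cj0 i j k j hij hkj hij (Ne.symm hkj) t u,
    hX.comm k j k i hkj hki hki (Ne.symm hkj), mul_assoc,
    hX.add k j hkj, hs, hX.zero k j hkj, mul_one, he]

end Cfsg.Agent.Lib.Helper48.St
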