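import Mathlib
import Cfsg.Agent.Lib.Helper48.StB

set_option autoImplicit false

/-! # S2401 piece CONJ2 (helper29): the rank-one relation, via a third index `m`. -/

namespace Cfsg.Agent.Lib.Helper48.St

open Cfsg.Agent.Lib.Helper48 Matrix

variable {K : Type*} [Field K] {G : Type*} [Group G] {n : ℕ}
variable {X : Fin n → Fin n → K → G}

theorem h29_conj_comm (w a b : G) :
    w * (a * b * a⁻¹ * b⁻¹) * w⁻¹ =
      (w * a * w⁻¹) * (w * b * w⁻¹) * (w * a * w⁻¹)⁻¹ * (w * b * w⁻¹)⁻¹ := by group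

theorem conj_W_ij (hX : StRel X) (i j m : Fin n) (hij : i ≠ j) (hmi : m ≠ i) (hmj : m ≠ j) (t : K)
    (ht : t ≠ 0)
    (hil : ∀ u : K, stW X i j t * X i m u * (stW X i j t)⁻¹ = X j m (-t⁻¹ * u))
    (hkj : ∀ u : K, stW X i j t * X m j u * (stW X i j t)⁻¹ = X m i (t⁻¹ * u)) (u : K) :
    stW X i j t * X i j u * (stW X i j t)⁻¹ = X j i (-(t⁻¹ ^ 2 * u)) := by
  have h1 : X i j u = X i m u * X m j 1 * (X i m u)⁻¹ * (X m j 1)⁻¹ := by
    rw [hX.comm3 i m j (Ne.symm hmi) hmj hij u 1, mul_one]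
  rw [h1, h29_conj_comm, hil, hkj, hX.comm3 j m i (Ne.symm hmj) hmi hij.symm]
  congr 1
  ring

theorem conj_W_ji (hX : StRel X) (i j m : Fin n) (hij : i ≠ j) (hmi : m ≠ i) (hmj : m ≠ j) (t : K)
    (ht : t ≠ 0)
    (hjl : ∀ u : K, stW X i j t * X j m u * (stW X i j t)⁻¹ = X i m (t * u))
    (hki : ∀ u : K, stW X i j t * X m i u * (stW X i j t)⁻¹ = X m j (-t * u)) (u : K) :
    stW X i j t * X j i u * (stW X i j t)⁻¹ = X i j (-(t ^ 2 * u)) := by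
  have h1 : X j i u = X j m u * X m i 1 * (X j m u)⁻¹ * (X m i 1)⁻¹ := by
    rw [hX.comm3 j m i (Ne.symm hmj) hmi hij.symm u 1, mul_one]
  rw [h1, h29_conj_comm, hjl, hki, hX.comm3 i m j (Ne.symm hmi) hmj hij]
  congr 1
  ring

end Cfsg.Agent.Lib.Helper48.St
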