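import Mathlib
import Cfsg.Prelude.Def_GeometricClasses
import Cfsg.Prelude.Def_LieClassical
import Cfsg.Agent.Lib.Helper71.Asch0

/-!
# Project SPP (helper71): shared lemmas on tensor form structures (helper29)

Pure tensors, the action of `tmat e P a b` on the transported vectors `P (x ∘ e)`, and the
consequence for a group of isometries inside a tensor product subgroup: the second factor of
each element is a similarity of the second form.
-/

set_option autoImplicit false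

namespace Cfsg.Agent.Lib.Helper29.SPPTens

open Matrix Cfsg.Geo Cfsg.Agent.Lib.Helper71.Asch
open scoped Kronecker

variable {n : ℕ} {F : Type*} [Field F]

/-- a bilinear form is given by its Gram matrix -/
theorem tens_gram {k : ℕ} (b : (Fin k → F) → (Fin k → F) → F) (hb : IsBilinearForm b)
    (u v : Fin k → F) : b u v = ∑ i, ∑ j, u i * gramMatrix b i j * v j := by
  let B : (Fin k → F) →ₗ[F] (Fin k → F) →ₗ[F] F :=
    LinearMap.mk₂ F b hb.add_left hb.smul_left hb.add_right hb.smul_right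
  have h1 : gramMatrix b = LinearMap.toMatrix₂' F B := by
    ext i j
    rw [LinearMap.toMatrix₂'_apply]
    rfl
  have h2 : b u v = u ⬝ᵥ (gramMatrix b *ᵥ v) := by
    rw [h1, ← Matrix.toLinearMap₂'_apply', Matrix.toLinearMap₂'_toMatrix']
    rfl
  rw [h2]
  simp only [dotProduct, Matrix.mulVec, Finset.mul_sum, mul_assoc]

/-- the pure tensor `u ⊗ v` -/
def ptens {d k : ℕ} (u : Fin d → F) (v : Fin k → F) : Fin d × Fin k → F :=
  fun p => u p.1 * v p.2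

theorem kron_mulVec_ptens {d k : ℕ} (a : Matrix (Fin d) (Fin d) F)
    (b : Matrix (Fin k) (Fin k) F) (u : Fin d → F) (v : Fin k → F) :
    (a ⊗ₖ b) *ᵥ ptens u v = ptens (a *ᵥ u) (b *ᵥ v) := by
  funext p
  obtain ⟨i, j⟩ := p
  simp only [Matrix.mulVec, dotProduct, ptens, Fintype.sum_prod_type, Matrix.kroneckerMap_apply]
  rw [Finset.sum_mul_sum]
  apply Finset.sum_congr rfl
  intro i' _
  apply Finset.sum_congr rfl
  intro j' _
  ring

theorem formOfGram_ptens {d k : ℕ} (f₁ : (Fin d → F) → (Fin d → F) → F)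
    (f₂ : (Fin k → F) → (Fin k → F) → F) (hb1 : IsBilinearForm f₁) (hb2 : IsBilinearForm f₂)
    (u u' : Fin d → F) (v v' : Fin k → F) :
    formOfGram id (gramMatrix f₁ ⊗ₖ gramMatrix f₂) (ptens u v) (ptens u' v') =
      f₁ u u' * f₂ v v' := by
  rw [tens_gram f₁ hb1, tens_gram f₂ hb2]
  unfold formOfGram
  simp only [Fintype.sum_prod_type, ptens, Matrix.kroneckerMap_apply, id]
  rw [Finset.sum_mul_sum]
  apply Finset.sum_congr rfl
  intro i _
  apply Finset.sum_congr rfl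
  intro j _
  rw [Finset.sum_mul_sum]
  apply Finset.sum_congr rfl
  intro i' _
  apply Finset.sum_congr rfl
  intro j' _
  ring

/-- the rows of `(a ⊗ b) x` -/
theorem kron_mulVec_row {d k : ℕ} (a : Matrix (Fin d) (Fin d) F)
    (b : Matrix (Fin k) (Fin k) F) (x : Fin d × Fin k → F) (i : Fin d) :
    (fun j => ((a ⊗ₖ b) *ᵥ x) (i, j)) = ∑ i', a i i' • (b *ᵥ (fun j' => x (i', j'))) := by
  funext j
  simp only [Matrix.mulVec, dotProduct, Fintype.sum_prod_type, Matrix.kroneckerMap_apply,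
    Finset.sum_apply, Pi.smul_apply, smul_eq_mul, Finset.mul_sum]
  apply Finset.sum_congr rfl
  intro i' _
  apply Finset.sum_congr rfl
  intro j' _
  ring

theorem tmat_mulVec {d k : ℕ} (e : Fin n ≃ Fin d × Fin k) (P : GL (Fin n) F)
    (a : Matrix (Fin d) (Fin d) F) (b : Matrix (Fin k) (Fin k) F) (x : Fin d × Fin k → F) :
    tmat e P a b *ᵥ (P.1 *ᵥ (x ∘ e)) = P.1 *ᵥ (((a ⊗ₖ b) *ᵥ x) ∘ e) := by
  have h1 : (P⁻¹ : GL (Fin n) F).1 *ᵥ (P.1 *ᵥ (x ∘ e)) = x ∘ e := by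
    rw [Matrix.mulVec_mulVec, ← Units.val_mul, inv_mul_cancel, Units.val_one, Matrix.one_mulVec]
  have h2 : Matrix.reindex e.symm e.symm (a ⊗ₖ b) *ᵥ (x ∘ e) = ((a ⊗ₖ b) *ᵥ x) ∘ e := by
    funext i
    simp only [Matrix.reindex_apply, Matrix.mulVec, dotProduct, Matrix.submatrix_apply,
      Equiv.symm_symm, Function.comp_apply]
    exact Equiv.sum_comp e (fun p => (a ⊗ₖ b) (e i) p * x p)
  unfold tmat
  rw [← Matrix.mulVec_mulVec, ← Matrix.mulVec_mulVec, h1, h2]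

/-- the transport map `x ↦ P (x ∘ e)` -/
def tT {d k : ℕ} (e : Fin n ≃ Fin d × Fin k) (P : GL (Fin n) F) :
    (Fin d × Fin k → F) →ₗ[F] (Fin n → F) :=
  (Matrix.toLin' P.1).comp (LinearMap.funLeft F F e)

theorem tT_apply {d k : ℕ} (e : Fin n ≃ Fin d × Fin k) (P : GL (Fin n) F)
    (x : Fin d × Fin k → F) : tT e P x = P.1 *ᵥ (x ∘ e) := rfl

theorem tT_injective {d k : ℕ} (e : Fin n ≃ Fin d × Fin k) (P : GL (Fin n) F) :
    Function.Injective (tT e P) := by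
  intro x y hxy
  rw [tT_apply, tT_apply] at hxy
  have h1 : (P⁻¹ : GL (Fin n) F).1 *ᵥ (P.1 *ᵥ (x ∘ e)) =
      (P⁻¹ : GL (Fin n) F).1 *ᵥ (P.1 *ᵥ (y ∘ e)) := by rw [hxy]
  rw [Matrix.mulVec_mulVec, Matrix.mulVec_mulVec, ← Units.val_mul, inv_mul_cancel, Units.val_one,
    Matrix.one_mulVec, Matrix.one_mulVec] at h1
  funext p
  have h2 := congrFun h1 (e.symm p)
  simpa using h2

theorem tT_surjective {d k : ℕ} (e : Fin n ≃ Fin d × Fin k) (P : GL (Fin n) F) :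
    Function.Surjective (tT e P) := by
  intro y
  refine ⟨((P⁻¹ : GL (Fin n) F).1 *ᵥ y) ∘ e.symm, ?_⟩
  rw [tT_apply]
  have h1 : (((P⁻¹ : GL (Fin n) F).1 *ᵥ y) ∘ e.symm) ∘ e = (P⁻¹ : GL (Fin n) F).1 *ᵥ y := by
    funext i
    simp
  rw [h1, Matrix.mulVec_mulVec, ← Units.val_mul, mul_inv_cancel, Units.val_one,
    Matrix.one_mulVec]

/-- An isometry inside a tensor product subgroup: the second factor is a similarity of the
second form. -/
theorem tens_factor (f : (Fin n → F) → (Fin n → F) → F) (H : Subgroup (GL (Fin n) F))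
    (hfix : FixesForm (matrixSet H) f) {d k : ℕ} (hd : 0 < d) (hk : 0 < k)
    (e : Fin n ≃ Fin d × Fin k) (P : GL (Fin n) F) (f₁ : (Fin d → F) → (Fin d → F) → F)
    (f₂ : (Fin k → F) → (Fin k → F) → F) (hb1 : IsBilinearForm f₁)
    (hn1 : IsNondegenerateForm f₁) (hb2 : IsBilinearForm f₂) (hn2 : IsNondegenerateForm f₂)
    (ht : IsTensorFormStructure id f f₁ f₂ e P) (hH : H ≤ tensorProductSubgroup d k e P)
    (h : GL (Fin n) F) (hh : h ∈ H) :
    ∃ (a : GL (Fin d) F) (b : GL (Fin k) F) (lam : F), h.1 = tmat e P a.1 b.1 ∧ lam ≠ 0 ∧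
      ∀ v v' : Fin k → F, f₂ (b.1 *ᵥ v) (b.1 *ᵥ v') = lam * f₂ v v' := by
  classical
  obtain ⟨c, hc, hform⟩ := ht
  obtain ⟨a, b, hab⟩ := (mem_tensorProductSubgroup_iff e P h).1 (hH hh)
  have hinv : ∀ (u u' : Fin d → F) (v v' : Fin k → F),
      f₁ (a.1 *ᵥ u) (a.1 *ᵥ u') * f₂ (b.1 *ᵥ v) (b.1 *ᵥ v') = f₁ u u' * f₂ v v' := by
    intro u u' v v'
    have h1 := hfix h.1 ⟨h, hh, rfl⟩ (P.1 *ᵥ (ptens u v ∘ e)) (P.1 *ᵥ (ptens u' v' ∘ e))
    rw [hab, tmat_mulVec, tmat_mulVec, hform, hform, kron_mulVec_ptens, kron_mulVec_ptens,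
      formOfGram_ptens f₁ f₂ hb1 hb2, formOfGram_ptens f₁ f₂ hb1 hb2] at h1
    exact mul_left_cancel₀ hc h1
  have hu0 : (Pi.single (⟨0, hd⟩ : Fin d) 1 : Fin d → F) ≠ 0 := by
    intro h0
    have h1 := congrFun h0 ⟨0, hd⟩
    simp at h1
  obtain ⟨u', hu'⟩ := (hn1 _ hu0).2
  have hv0 : (Pi.single (⟨0, hk⟩ : Fin k) 1 : Fin k → F) ≠ 0 := by
    intro h0
    have h1 := congrFun h0 ⟨0, hk⟩
    simp at h1
  obtain ⟨v', hv'⟩ := (hn2 _ hv0).2
  have hau : f₁ (a.1 *ᵥ (Pi.single (⟨0, hd⟩ : Fin d) 1)) (a.1 *ᵥ u') ≠ 0 := by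
    intro h0
    have h1 := hinv (Pi.single (⟨0, hd⟩ : Fin d) 1) u' (Pi.single (⟨0, hk⟩ : Fin k) 1) v'
    rw [h0, zero_mul] at h1
    exact mul_ne_zero hu' hv' h1.symm
  refine ⟨a, b, f₁ (Pi.single (⟨0, hd⟩ : Fin d) 1) u' /
    f₁ (a.1 *ᵥ (Pi.single (⟨0, hd⟩ : Fin d) 1)) (a.1 *ᵥ u'), hab, div_ne_zero hu' hau, ?_⟩
  intro v v'
  have h1 := hinv (Pi.single (⟨0, hd⟩ : Fin d) 1) u' v v'
  rw [div_mul_eq_mul_div, eq_div_iff hau, mul_comm]
  exact h1

end Cfsg.Agent.Lib.Helper29.SPPTens
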