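import Mathlib
import Cfsg.Prelude.Def_Local
import Cfsg.Agent.Lib.Helper72.Frattini

/-!
# S3787, piece REPA: the linear action of `X` on the Frattini quotient of a normal `p`-subgroup.
-/

set_option autoImplicit false

namespace Cfsg.Agent.Lib.Helper29

open Cfsg

universe u v

/-- Core construction: an `X`-equivariant surjection of `N` onto an elementary abelian group `Q`
gives a `ZMod p`-linear representation on `Additive Q`. -/
theorem repA_core {X : Type u} [Group X] (p : ℕ) [Fact p.Prime] (N : Subgroup X) [hN : N.Normal]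
    (Q : Type u) [CommGroup Q] [Finite Q] (hexp : ∀ x : Q, x ^ p = 1) (f : ↥N →* Q)
    (hf : Function.Surjective f) (β : X →* MulAut Q)
    (hβ : ∀ (g : X) (a : ↥N), f ⟨g * a * g⁻¹, hN.conj_mem a a.2 g⟩ = β g (f a)) :
    ∃ (V : Type u) (_ : AddCommGroup V) (_ : Module (ZMod p) V) (_ : Finite V)
      (ρ : X →* (V ≃ₗ[ZMod p] V)) (π : ↥N →* Multiplicative V),
      Function.Surjective π ∧
      (∀ (g : X) (a : ↥N), π ⟨g * a * g⁻¹, hN.conj_mem a a.2 g⟩
        = Multiplicative.ofAdd (ρ g (Multiplicative.toAdd (π a)))) ∧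
      (∀ a : ↥N, π a = 1 → f a = 1) := by
  haveI instM : Module (ZMod p) (Additive Q) := AddCommGroup.zmodModule (n := p) (fun x => by
    show Additive.ofMul (Additive.toMul x ^ p) = 0
    rw [hexp]; rfl)
  let L : MulAut Q → (Additive Q ≃ₗ[ZMod p] Additive Q) := fun e =>
    LinearEquiv.ofLinear
      (AddMonoidHom.toZModLinearMap p (MonoidHom.toAdditive e.toMonoidHom))
      (AddMonoidHom.toZModLinearMap p (MonoidHom.toAdditive e.symm.toMonoidHom))
      (by ext v; simp) (by ext v; simp)
  have hL1 : L 1 = 1 := by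
    apply LinearEquiv.ext
    intro v
    rfl
  have hLmul : ∀ e₁ e₂ : MulAut Q, L (e₁ * e₂) = L e₁ * L e₂ := by
    intro e₁ e₂
    apply LinearEquiv.ext
    intro v
    rw [LinearEquiv.mul_apply]
    rfl
  let toLin : MulAut Q →* (Additive Q ≃ₗ[ZMod p] Additive Q) :=
    { toFun := L
      map_one' := hL1
      map_mul' := hLmul }
  let π : ↥N →* Multiplicative (Additive Q) :=
    { toFun := fun a => Multiplicative.ofAdd (Additive.ofMul (f a))
      map_one' := by rw [map_one]; rfl
      map_mul' := fun a b => by rw [map_mul]; rfl }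
  refine ⟨Additive Q, inferInstance, instM, inferInstance, toLin.comp β, π, ?_, ?_, ?_⟩
  · intro v
    obtain ⟨a, ha⟩ := hf (Additive.toMul (Multiplicative.toAdd v))
    exact ⟨a, by show Multiplicative.ofAdd (Additive.ofMul (f a)) = v; rw [ha]; rfl⟩
  · intro g a
    show Multiplicative.ofAdd (Additive.ofMul (f ⟨g * a * g⁻¹, hN.conj_mem a a.2 g⟩)) = _
    rw [hβ]
    rfl
  · intro a h
    exact h

/-- **S3787, piece REPA.** -/
theorem s3787_repA {X : Type u} [Group X] [Finite X] (p : ℕ) [Fact p.Prime] (N : Subgroup X)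
    [hN : N.Normal] (hNp : IsPGroup p N) :
    ∃ (V : Type u) (_ : AddCommGroup V) (_ : Module (ZMod p) V) (_ : Finite V)
      (ρ : X →* (V ≃ₗ[ZMod p] V)) (π : ↥N →* Multiplicative V),
      Function.Surjective π ∧
      (∀ (g : X) (a : ↥N), π ⟨g * a * g⁻¹, hN.conj_mem a a.2 g⟩
        = Multiplicative.ofAdd (ρ g (Multiplicative.toAdd (π a)))) ∧
      (∀ a : ↥N, π a = 1 → a ∈ frattini ↥N) := by
  classical
  set Φ : Subgroup ↥N := frattini ↥N with hΦ
  haveI hΦn : Φ.Normal := by rw [hΦ]; infer_instance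
  have hchar : ∀ g : X, Φ.map ((MulAut.conjNormal g : ↥N ≃* ↥N) : ↥N →* ↥N) = Φ := fun g =>
    (Subgroup.characteristic_iff_map_eq.mp (by rw [hΦ]; infer_instance)) _
  let β : X →* MulAut (↥N ⧸ Φ) :=
    { toFun := fun g => QuotientGroup.congr Φ Φ (MulAut.conjNormal g) (hchar g)
      map_one' := by
        ext x
        induction x using QuotientGroup.induction_on with
        | H a => simp
      map_mul' := by
        intro g h
        ext x
        induction x using QuotientGroup.induction_on with
        | H a => simp [map_mul] }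
  letI instC : CommGroup (↥N ⧸ Φ) :=
    { (inferInstance : Group (↥N ⧸ Φ)) with
      mul_comm := by
        intro a b
        induction a using QuotientGroup.induction_on with
        | H a =>
        induction b using QuotientGroup.induction_on with
        | H b =>
        have h1 := Cfsg.Agent.Lib.Helper72.comm_mem_frattini hNp a b
        have h2 : ((a * b * a⁻¹ * b⁻¹ : ↥N) : ↥N ⧸ Φ) = 1 := (QuotientGroup.eq_one_iff _).mpr h1
        rw [QuotientGroup.mk_mul, QuotientGroup.mk_mul, QuotientGroup.mk_mul,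
          QuotientGroup.mk_inv, QuotientGroup.mk_inv] at h2
        rw [← QuotientGroup.mk_mul, ← QuotientGroup.mk_mul]
        rw [QuotientGroup.mk_mul, QuotientGroup.mk_mul]
        exact mul_inv_eq_iff_eq_mul.mp (mul_inv_eq_one.mp h2) }
  have hexp : ∀ x : ↥N ⧸ Φ, x ^ p = 1 := by
    intro x
    induction x using QuotientGroup.induction_on with
    | H a =>
      rw [← QuotientGroup.mk_pow]
      exact (QuotientGroup.eq_one_iff _).mpr (Cfsg.Agent.Lib.Helper72.pow_mem_frattini hNp a)
  obtain ⟨V, i1, i2, i3, ρ, π, h1, h2, h3⟩ := repA_core p N (↥N ⧸ Φ) hexp (QuotientGroup.mk' Φ)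
    (QuotientGroup.mk'_surjective Φ) β (by
      intro g a
      show _ = QuotientGroup.congr Φ Φ (MulAut.conjNormal g) (hchar g) (QuotientGroup.mk a)
      rw [QuotientGroup.congr_mk]
      rfl)
  exact ⟨V, i1, i2, i3, ρ, π, h1, h2, fun a ha => (QuotientGroup.eq_one_iff a).mp (h3 a ha)⟩

end Cfsg.Agent.Lib.Helper29
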