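import Mathlib
import Cfsg.Prelude.Def_Local
import Cfsg.Agent.Lib.Helper75.FrattiniAct
import Cfsg.Agent.Lib.Helper40.HallHigman

/-!
# S3787, piece REPB: the kernel of the action on the Frattini quotient of `O_p(X)` is `O_p(X)`.
-/

set_option autoImplicit false

namespace Cfsg.Agent.Lib.Helper29

open Cfsg

universe u v

/-- **S3787, piece REPB.** -/
theorem s3787_repB {X : Type u} [Group X] [Finite X] (p : ℕ) [Fact p.Prime]
    (hsol : IsPSolvable p X) (hpp : pPrimeCore p X = ⊥) [hN : (pCore p X).Normal]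
    {V : Type v} [AddCommGroup V] [Module (ZMod p) V]
    (ρ : X →* (V ≃ₗ[ZMod p] V)) (π : ↥(pCore p X) →* Multiplicative V)
    (hπ : Function.Surjective π)
    (heq : ∀ (g : X) (a : ↥(pCore p X)), π ⟨g * a * g⁻¹, hN.conj_mem a a.2 g⟩
        = Multiplicative.ofAdd (ρ g (Multiplicative.toAdd (π a))))
    (hfr : ∀ a : ↥(pCore p X), π a = 1 → a ∈ frattini ↥(pCore p X)) :
    ρ.ker = pCore p X := by
  classical
  have hp : p.Prime := Fact.out
  have hNp : IsPGroup p ↥(pCore p X) := Cfsg.Agent.Lib.Helper40.pCore_isPGroup' p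
  apply le_antisymm
  · -- the kernel is a normal `p`-subgroup
    have hkey : ∀ (q : ℕ) [Fact q.Prime], p ≠ q → ∀ c ∈ ρ.ker, ∀ k : ℕ, c ^ q ^ k = 1 → c = 1 := by
      intro q hq hpq c hc k hck
      have hρc : ρ c = 1 := MonoidHom.mem_ker.mp hc
      have h1 : ∀ x ∈ pCore p X,
          c * x * c⁻¹ * x⁻¹ ∈ (frattini ↥(pCore p X)).map (pCore p X).subtype := by
        intro x hx
        have h2 := heq c ⟨x, hx⟩
        rw [hρc] at h2
        have h3 : π ⟨c * x * c⁻¹, hN.conj_mem x hx c⟩ = π ⟨x, hx⟩ := by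
          rw [h2]; rfl
        have h4 : π (⟨c * x * c⁻¹, hN.conj_mem x hx c⟩ * (⟨x, hx⟩ : ↥(pCore p X))⁻¹) = 1 := by
          rw [map_mul, map_inv, h3, mul_inv_cancel]
        exact ⟨_, hfr _ h4, rfl⟩
      have h5 : c ∈ Subgroup.centralizer (pCore p X : Set X) :=
        Cfsg.Agent.Lib.Helper75.Fratt.mem_centralizer_of_frattini hpq (pCore p X) hNp c k hck h1
      have h6 : c ∈ pCore p X := Cfsg.Agent.Lib.Helper40.centralizer_pCore_le hsol hpp h5
      obtain ⟨j, hj⟩ := hNp ⟨c, h6⟩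
      have hj' : c ^ p ^ j = 1 := by
        have := congrArg Subtype.val hj
        simpa using this
      have h7 : orderOf c ∣ p ^ j := orderOf_dvd_of_pow_eq_one hj'
      have h8 : orderOf c ∣ q ^ k := orderOf_dvd_of_pow_eq_one hck
      have h9 : orderOf c ∣ Nat.gcd (p ^ j) (q ^ k) := Nat.dvd_gcd h7 h8
      have h10 : Nat.gcd (p ^ j) (q ^ k) = 1 :=
        Nat.Coprime.pow j k ((Nat.coprime_primes hp hq.out).mpr hpq)
      rw [h10, Nat.dvd_one] at h9
      exact orderOf_eq_one_iff.mp h9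
    have hall : ∀ q : ℕ, q.Prime → q ∣ Nat.card ρ.ker → q = p := by
      intro q hq hdvd
      by_contra hne
      haveI := Fact.mk hq
      obtain ⟨c, hc⟩ := exists_prime_orderOf_dvd_card' q hdvd
      have h1 : (c : X) ^ q ^ 1 = 1 := by
        rw [pow_one, ← Subgroup.orderOf_coe] at *
        rw [← hc]; exact pow_orderOf_eq_one _
      have h2 := hkey q (fun h => hne h.symm) (c : X) c.2 1 h1
      have h3 : c = 1 := Subtype.ext h2
      rw [h3, orderOf_one] at hc
      exact hq.one_lt.ne hc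
    have hpg : IsPGroup p ρ.ker :=
      IsPGroup.of_card (Nat.eq_prime_pow_of_unique_prime_dvd (Nat.card_pos.ne')
        (fun {d} hd hdvd => hall d hd hdvd))
    exact le_sSup ⟨MonoidHom.normal_ker ρ, hpg⟩
  · intro g hg
    rw [MonoidHom.mem_ker]
    apply LinearEquiv.ext
    intro v
    obtain ⟨a, ha⟩ := hπ (Multiplicative.ofAdd v)
    have h1 := heq g a
    have h2 : (⟨g * a * g⁻¹, hN.conj_mem a a.2 g⟩ : ↥(pCore p X)) = ⟨g, hg⟩ * a * ⟨g, hg⟩⁻¹ := rfl
    rw [h2, map_mul, map_mul, map_inv, mul_comm, inv_mul_cancel_left, ha] at h1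
    have h3 := congrArg Multiplicative.toAdd h1
    simp only [toAdd_ofAdd] at h3
    rw [← h3]
    rfl

end Cfsg.Agent.Lib.Helper29
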