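import Mathlib

/-! TG-MOD piece MAS: a simple `(H, O)`-direct summand of an elementary abelian `p`-group `V`
(Maschke-style averaging over `H × ℤ/m`). -/

set_option autoImplicit false

namespace Cfsg.Agent.Lib.Helper29.TGM

/-- Induction over the subring generated by one element, as a subtype. -/
theorem closure_gen_induction {R : Type*} [Ring R] (x : R)
    (P : Subring.closure ({x} : Set R) → Prop)
    (hx : P ⟨x, Subring.subset_closure rfl⟩) (h0 : P 0) (h1 : P 1)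
    (hadd : ∀ a b, P a → P b → P (a + b)) (hneg : ∀ a, P a → P (-a))
    (hmul : ∀ a b, P a → P b → P (a * b)) : ∀ a, P a := by
  rintro ⟨a, ha⟩
  refine Subring.closure_induction (p := fun y hy => P ⟨y, hy⟩) ?_ ?_ ?_ ?_ ?_ ?_ ha
  · intro y hy
    rw [Set.mem_singleton_iff] at hy
    subst hy
    exact hx
  · exact h0
  · exact h1
  · intro y z hy hz h1 h2
    exact hadd ⟨y, hy⟩ ⟨z, hz⟩ h1 h2
  · intro y hy h1
    exact hneg ⟨y, hy⟩ h1
  · intro y z hy hz h1 h2
    exact hmul ⟨y, hy⟩ ⟨z, hz⟩ h1 h2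

theorem inv_cancel_left_aux {Γ : Type*} [Group Γ] {E : Type*} [Monoid E] (R : Γ →* E) (γ' : Γ) :
    R (γ'⁻¹ * γ') = 1 := by
  rw [inv_mul_cancel, map_one]

/-- Averaging a projection over a finite group. -/
theorem avg_proj {Γ : Type*} [Group Γ] [Fintype Γ] {V : Type*} [AddCommGroup V]
    (R : Γ →* (V →ₗ[ℤ] V)) (V' : Submodule ℤ V) (hstab : ∀ γ, ∀ v ∈ V', R γ v ∈ V')
    (π₀ : V →ₗ[ℤ] V) (h0range : ∀ v, π₀ v ∈ V') (h0id : ∀ v ∈ V', π₀ v = v)
    (N : ℤ) (hN : ∀ v : V, (N * (Fintype.card Γ : ℤ)) • v = v) :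
    ∃ π : V →ₗ[ℤ] V, (∀ v, π v ∈ V') ∧ (∀ v ∈ V', π v = v) ∧ ∀ γ, π * R γ = R γ * π := by
  refine ⟨N • ∑ γ, R γ * π₀ * R γ⁻¹, ?_, ?_, ?_⟩
  · intro v
    simp only [LinearMap.smul_apply, LinearMap.sum_apply, Module.End.mul_apply]
    exact V'.smul_mem _ (V'.sum_mem fun γ _ => hstab γ _ (h0range _))
  · intro v hv
    simp only [LinearMap.smul_apply, LinearMap.sum_apply, Module.End.mul_apply]
    have key : ∀ γ, R γ (π₀ (R γ⁻¹ v)) = v := by
      intro γ
      rw [h0id _ (hstab γ⁻¹ v hv)]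
      have h1 : (R γ * R γ⁻¹) v = v := by
        rw [← map_mul, mul_inv_cancel, map_one]; rfl
      exact h1
    simp only [key, Finset.sum_const, Finset.card_univ]
    rw [← natCast_zsmul, smul_smul]
    exact hN v
  · intro γ'
    rw [smul_mul_assoc, mul_smul_comm, Finset.sum_mul, Finset.mul_sum]
    congr 1
    refine (Fintype.sum_equiv (Equiv.mulLeft γ') _ _ ?_).symm
    intro γ
    simp only [Equiv.coe_mulLeft, mul_inv_rev, map_mul, mul_assoc]
    rw [← map_mul R γ'⁻¹ γ', inv_cancel_left_aux R γ', mul_one]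

/-- `x ^ m = 1` makes `k ↦ x ^ k.val` additive on `ZMod m`. -/
theorem pow_val_add {M : Type*} [Monoid M] (m : ℕ) [NeZero m] (x : M) (hx : x ^ m = 1)
    (a b : ZMod m) : x ^ (a + b).val = x ^ a.val * x ^ b.val := by
  rw [ZMod.val_add, ← pow_add, ← pow_eq_pow_mod _ hx]

/-- The action of `H × ℤ/m` built from commuting `ρ` and `wb` with `wb ^ m = 1`. -/
def actHom {H : Type*} [Group H] {E : Type*} [Monoid E] (ρ : H →* E) (m : ℕ) [NeZero m]
    (wb : E) (hwb : wb ^ m = 1) (hc : ∀ h, wb * ρ h = ρ h * wb) :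
    H × Multiplicative (ZMod m) →* E where
  toFun γ := ρ γ.1 * wb ^ (Multiplicative.toAdd γ.2).val
  map_one' := by simp
  map_mul' γ γ' := by
    have hcp : ∀ (k : ℕ) (h : H), wb ^ k * ρ h = ρ h * wb ^ k := by
      intro k h
      exact ((Commute.pow_left (show Commute wb (ρ h) from hc h) k)).eq
    show ρ (γ.1 * γ'.1) * wb ^ (Multiplicative.toAdd (γ.2 * γ'.2)).val
      = (ρ γ.1 * wb ^ (Multiplicative.toAdd γ.2).val) *
        (ρ γ'.1 * wb ^ (Multiplicative.toAdd γ'.2).val)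
    rw [toAdd_mul, pow_val_add m wb hwb, map_mul, mul_assoc, mul_assoc,
      ← mul_assoc (wb ^ _) (ρ γ'.1), hcp, mul_assoc]

theorem actHom_apply {H : Type*} [Group H] {E : Type*} [Monoid E] (ρ : H →* E) (m : ℕ) [NeZero m]
    (wb : E) (hwb : wb ^ m = 1) (hc : ∀ h, wb * ρ h = ρ h * wb)
    (γ : H × Multiplicative (ZMod m)) :
    actHom ρ m wb hwb hc γ = ρ γ.1 * wb ^ (Multiplicative.toAdd γ.2).val := rfl

/-- A `ℤ`-linear projection onto a subgroup of a `ZMod p`-module. -/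
theorem exists_proj_onto_aux (p : ℕ) [Fact p.Prime] {V : Type*} [AddCommGroup V]
    [Module (ZMod p) V] (V' : Submodule ℤ V) :
    ∃ π₀ : V →ₗ[ℤ] V, (∀ v, π₀ v ∈ V') ∧ (∀ v ∈ V', π₀ v = v) := by
  let W : Submodule (ZMod p) V :=
    { carrier := V'
      add_mem' := fun ha hb => V'.add_mem ha hb
      zero_mem' := V'.zero_mem
      smul_mem' := fun c x hx => ZMod.smul_mem (K := V') hx c }
  obtain ⟨q, hq⟩ := Submodule.exists_isCompl W
  let P : V →ₗ[ZMod p] W := Submodule.linearProjOfIsCompl W q hq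
  refine ⟨(W.subtype ∘ₗ P).toAddMonoidHom.toIntLinearMap, ?_, ?_⟩
  · intro v
    exact (P v).2
  · intro v hv
    have h1 : P ((⟨v, hv⟩ : W) : V) = (⟨v, hv⟩ : W) :=
      Submodule.linearProjOfIsCompl_apply_left hq (⟨v, hv⟩ : W)
    show ((P v : W) : V) = v
    have h2 : P v = (⟨v, hv⟩ : W) := h1
    rw [h2]

/-- A `ℤ`-linear projection onto a subgroup of an elementary abelian `p`-group. -/
theorem exists_proj_onto (p : ℕ) [Fact p.Prime] {V : Type*} [AddCommGroup V]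
    (hV : ∀ v : V, (p : ℤ) • v = 0) (V' : Submodule ℤ V) :
    ∃ π₀ : V →ₗ[ℤ] V, (∀ v, π₀ v ∈ V') ∧ (∀ v ∈ V', π₀ v = v) := by
  have hV' : ∀ v : V, p • v = 0 := by
    intro v
    have := hV v
    rwa [natCast_zsmul] at this
  exact @exists_proj_onto_aux p _ V _ (AddCommGroup.zmodModule hV') V'

theorem mas {H : Type*} [Group H] [Fintype H] (p : ℕ) [Fact p.Prime]
    (hpH : ¬ p ∣ Nat.card H)
    {V : Type*} [AddCommGroup V] [Finite V] [Nontrivial V] (hV : ∀ v : V, (p : ℤ) • v = 0)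
    (ρ : H →* (V →ₗ[ℤ] V))
    (m : ℕ) (hm0 : 0 < m) (hpm : ¬ p ∣ m)
    (ω : ℂ) (hω : IsPrimitiveRoot ω m)
    (φ : Subring.closure ({ω} : Set ℂ) →+* (V →ₗ[ℤ] V))
    (hφρ : ∀ a h, φ a ∘ₗ ρ h = ρ h ∘ₗ φ a) :
    ∃ π : V →ₗ[ℤ] V, π ∘ₗ π = π ∧ π ≠ 0 ∧
      (∀ h, π ∘ₗ ρ h = ρ h ∘ₗ π) ∧ (∀ a, π ∘ₗ φ a = φ a ∘ₗ π) ∧
      ∀ U : Submodule ℤ V, U ≤ LinearMap.range π → (∀ h, ∀ u ∈ U, ρ h u ∈ U) →
        (∀ a, ∀ u ∈ U, φ a u ∈ U) → U = ⊥ ∨ U = LinearMap.range π := by
  classical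
  haveI : NeZero m := ⟨hm0.ne'⟩
  have hp : p.Prime := Fact.out
  -- the generator
  set ωO : Subring.closure ({ω} : Set ℂ) := ⟨ω, Subring.subset_closure rfl⟩ with hωO
  set wb : V →ₗ[ℤ] V := φ ωO with hwbdef
  have hωm : ωO ^ m = 1 := by
    apply Subtype.ext
    show (ω : ℂ) ^ m = 1
    exact hω.pow_eq_one
  have hwb : wb ^ m = 1 := by
    rw [hwbdef, ← map_pow, hωm, map_one]
  have hc : ∀ h, wb * ρ h = ρ h * wb := fun h => hφρ ωO h
  set R := actHom ρ m wb hwb hc with hRdef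
  have hRρ : ∀ h, R (h, 1) = ρ h := by
    intro h
    rw [hRdef, actHom_apply]
    simp
  have hRw : R (1, Multiplicative.ofAdd 1) = wb := by
    rw [hRdef, actHom_apply]
    simp only [map_one, one_mul, toAdd_ofAdd]
    rw [ZMod.val_one_eq_one_mod, ← pow_eq_pow_mod _ hwb, pow_one]
  -- stability transfer
  have hstabR : ∀ U : Submodule ℤ V, (∀ h, ∀ u ∈ U, ρ h u ∈ U) → (∀ u ∈ U, wb u ∈ U) →
      ∀ γ, ∀ u ∈ U, R γ u ∈ U := by
    intro U hρ hw γ u hu
    rw [hRdef, actHom_apply]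
    have hk : ∀ k : ℕ, ∀ u ∈ U, (wb ^ k) u ∈ U := by
      intro k
      induction k with
      | zero => intro u hu; simpa using hu
      | succ k ih =>
        intro u hu
        rw [pow_succ]
        exact ih _ (hw u hu)
    exact hρ _ _ (hk _ u hu)
  -- a minimal stable nonzero submodule
  let S : Set (Submodule ℤ V) := {U | (∀ γ, ∀ u ∈ U, R γ u ∈ U) ∧ U ≠ ⊥}
  have hSne : S.Nonempty := ⟨⊤, fun _ _ _ => Submodule.mem_top, top_ne_bot⟩
  obtain ⟨V', hV'S, hV'min⟩ :=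
    (InvImage.wf (fun U : Submodule ℤ V => Nat.card U) Nat.lt_wfRel.wf).has_min S hSne
  obtain ⟨hV'stab, hV'ne⟩ := hV'S
  have hmin : ∀ U : Submodule ℤ V, U ≤ V' → (∀ γ, ∀ u ∈ U, R γ u ∈ U) → U = ⊥ ∨ U = V' := by
    intro U hU hUs
    by_cases hU0 : U = ⊥
    · exact Or.inl hU0
    · right
      have h1 : ¬ Nat.card U < Nat.card V' := hV'min U ⟨hUs, hU0⟩
      have h2 : Nat.card V' ≤ Nat.card U := not_lt.mp h1
      apply SetLike.coe_injective
      apply Set.eq_of_subset_of_ncard_le hU _ (Set.toFinite _)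
      rw [← Nat.card_coe_set_eq, ← Nat.card_coe_set_eq]
      exact h2
  -- the projection
  obtain ⟨π₀, h0range, h0id⟩ := exists_proj_onto p hV V'
  -- the averaging constant
  have hcard : Fintype.card (H × Multiplicative (ZMod m)) = Fintype.card H * m := by
    rw [Fintype.card_prod, Fintype.card_multiplicative, ZMod.card]
  have hcop : IsCoprime ((Fintype.card (H × Multiplicative (ZMod m)) : ℕ) : ℤ) (p : ℤ) := by
    rw [Nat.isCoprime_iff_coprime, hcard]
    apply Nat.Coprime.symm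
    rw [Nat.Prime.coprime_iff_not_dvd hp]
    intro hdvd
    rcases (Nat.Prime.dvd_mul hp).mp hdvd with h | h
    · rw [Nat.card_eq_fintype_card] at hpH
      exact hpH h
    · exact hpm h
  obtain ⟨a, b, hab⟩ := hcop
  have hN : ∀ v : V, (a * (Fintype.card (H × Multiplicative (ZMod m)) : ℤ)) • v = v := by
    intro v
    have h1 : a * (Fintype.card (H × Multiplicative (ZMod m)) : ℤ) = 1 - b * p := by
      linarith
    rw [h1, sub_smul, one_smul, mul_smul, hV v, smul_zero, sub_zero]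
  obtain ⟨π, hπrange, hπid, hπcomm⟩ := avg_proj R V' hV'stab π₀ h0range h0id a hN
  have hrange : LinearMap.range π = V' := by
    apply le_antisymm
    · rintro _ ⟨v, rfl⟩
      exact hπrange v
    · intro v hv
      exact ⟨v, hπid v hv⟩
  have hπw : π * wb = wb * π := by
    have := hπcomm (1, Multiplicative.ofAdd 1)
    rwa [hRw] at this
  refine ⟨π, ?_, ?_, ?_, ?_, ?_⟩
  · ext v
    exact hπid _ (hπrange v)
  · intro h0
    obtain ⟨v, hv, hv0⟩ := (Submodule.ne_bot_iff _).mp hV'ne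
    have := hπid v hv
    rw [h0] at this
    exact hv0 this.symm
  · intro h
    have := hπcomm (h, 1)
    rwa [hRρ] at this
  · refine closure_gen_induction ω (fun a => π ∘ₗ φ a = φ a ∘ₗ π) hπw ?_ ?_ ?_ ?_ ?_
    · show π * φ 0 = φ 0 * π
      rw [map_zero, mul_zero, zero_mul]
    · show π * φ 1 = φ 1 * π
      rw [map_one, mul_one, one_mul]
    · intro x y hx hy
      show π * φ (x + y) = φ (x + y) * π
      rw [map_add, mul_add, add_mul]
      have hx' : π * φ x = φ x * π := hx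
      have hy' : π * φ y = φ y * π := hy
      rw [hx', hy']
    · intro x hx
      show π * φ (-x) = φ (-x) * π
      have hx' : π * φ x = φ x * π := hx
      rw [map_neg, mul_neg, neg_mul, hx']
    · intro x y hx hy
      show π * φ (x * y) = φ (x * y) * π
      have hx' : π * φ x = φ x * π := hx
      have hy' : π * φ y = φ y * π := hy
      rw [map_mul, ← mul_assoc, hx', mul_assoc, hy', mul_assoc]
  · intro U hU hUρ hUφ
    rw [hrange] at hU ⊢
    exact hmin U hU (hstabR U hUρ (fun u hu => hUφ ωO u hu))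

end Cfsg.Agent.Lib.Helper29.TGM
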