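import Mathlib
import Cfsg.Agent.Lib.Helper92.DOCL5

/-!
DG project (helper79) piece FUS: for a Sylow `p`-subgroup `P` of order `p` generated by `z` and
a subgroup `T` with `C_G(P) ≤ T ≤ N_G(P)`, the number of units `s` with `z ^ s` conjugate to `z`
under `T` is `[T : C_G(P)]`.
-/

set_option autoImplicit false

namespace Cfsg.Agent.Lib.Helper29.DG

open Cfsg.Agent.Lib.Helper92.DO

section Loc

variable {G : Type*} [Group G] [Fintype G]

/-- PIECE FUS -/
theorem card_fusion_T (p : ℕ) [Fact p.Prime] (P : Sylow p G) (hP : Nat.card P = p)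
    (z : G) (hz : z ∈ (P : Subgroup G)) (hz1 : z ≠ 1) (T : Subgroup G)
    (hCT : Subgroup.centralizer ((P : Subgroup G) : Set G) ≤ T)
    (hTN : T ≤ Subgroup.normalizer ((P : Subgroup G) : Set G)) :
    Nat.card {s : (ZMod p)ˣ // ∃ g ∈ T, g * z * g⁻¹ = z ^ (s : ZMod p).val} =
      (Subgroup.centralizer ((P : Subgroup G) : Set G)).relIndex T := by
  classical
  have hzo := cf_order p P hP z hz hz1
  have hPz := cf_zpowers p P hP z hz hz1
  -- the exponent of an element of `T`
  have hex : ∀ n : ↥T, ∃ s : (ZMod p)ˣ, (n : G) * z * (n : G)⁻¹ = z ^ (s : ZMod p).val := by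
    intro n
    have h1 : (n : G) * z * (n : G)⁻¹ ∈ (P : Subgroup G) :=
      (Subgroup.mem_normalizer_iff.mp (hTN n.2) z).mp hz
    exact cf_exists p z hzo _ (hPz.le h1) (fun h => hz1 (conj_eq_one_iff.mp h))
  choose f hf using hex
  have hmul : ∀ a b : ↥T, f (a * b) = f a * f b := by
    intro a b
    apply cf_unique p z hzo
    rw [← hf (a * b), cf_pow_mul p z hzo, ← hf a, conj_pow, ← hf b]
    simp only [Subgroup.coe_mul, mul_inv_rev]
    group
  let φ : ↥T →* (ZMod p)ˣ := MonoidHom.mk' f hmul
  have hφ : ∀ n, φ n = f n := fun n => rfl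
  have hp1 : (1 : ZMod p).val = 1 := by
    have : Fact (1 < p) := ⟨(Fact.out : p.Prime).one_lt⟩
    exact ZMod.val_one p
  -- the kernel is the centraliser
  have hker : φ.ker = (Subgroup.centralizer ((P : Subgroup G) : Set G)).subgroupOf T := by
    ext n
    rw [MonoidHom.mem_ker, Subgroup.mem_subgroupOf, hφ]
    constructor
    · intro h1
      have h2 := hf n
      rw [h1, Units.val_one, hp1, pow_one] at h2
      have h3 : (n : G) * z = z * (n : G) := by
        calc (n : G) * z = (n : G) * z * (n : G)⁻¹ * (n : G) := by group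
          _ = z * (n : G) := by rw [h2]
      rw [Subgroup.mem_centralizer_iff]
      intro x hx
      have hx' : x ∈ Subgroup.zpowers z := hPz.le hx
      obtain ⟨k, rfl⟩ := Subgroup.mem_zpowers_iff.mp hx'
      exact ((Commute.zpow_left (show Commute z (n : G) from h3.symm) k)).eq
    · intro h1
      rw [Subgroup.mem_centralizer_iff] at h1
      have h2 : z * (n : G) = (n : G) * z := h1 z hz
      apply cf_unique p z hzo
      rw [← hf n, Units.val_one, hp1, pow_one, ← h2]
      group
  -- the range is the fusion set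
  have hrange : ∀ s : (ZMod p)ˣ, s ∈ φ.range ↔
      ∃ g ∈ T, g * z * g⁻¹ = z ^ (s : ZMod p).val := by
    intro s
    constructor
    · rintro ⟨n, rfl⟩
      exact ⟨(n : G), n.2, hf n⟩
    · rintro ⟨g, hgT, hg⟩
      refine ⟨⟨g, hgT⟩, ?_⟩
      apply cf_unique p z hzo
      rw [hφ, ← hf ⟨g, hgT⟩, ← hg]
  rw [Subgroup.relIndex, ← hker, Subgroup.index_ker]
  exact Nat.card_congr (Equiv.subtypeEquivRight (fun s => (hrange s).symm))

end Loc

end Cfsg.Agent.Lib.Helper29.DG
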