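import Cfsg.Agent.Lib.Helper22.TGDefs
import Cfsg.Agent.Lib.Helper81.BrConj
import Cfsg.Prelude.Def_Blocks
import Cfsg.Agent.Lib.Helper92.DOCL5
import Cfsg.Agent.Lib.Helper83.IrrBasic

/-! PIECE TGC-HSMT (character side of the general defect-one theorem, lead helper33):
the values of `χ ∈ B` on `z ^ t * K`. -/

set_option autoImplicit false

namespace Cfsg.Agent.Lib.Helper29.TGC

open Cfsg Cfsg.Agent.Lib.Helper22.TG Cfsg.Agent.Lib.Helper81
open scoped ComplexConjugate

variable {G : Type*} [Group G] [Fintype G] (p : ℕ) [Fact p.Prime] (M : Ideal AlgInt)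

/-- PIECE TGC-HSMT : the values of `χ ∈ B` on `z ^ t * K`. -/
theorem hsmt_of (P : Sylow p G) (hP : Nat.card P = p)
    (B : Set (IrrCharacter G))
    (θ : IrrCharacter (Subgroup.centralizer ((P : Subgroup G) : Set G)))
    (z : G) (hz : z ∈ (P : Subgroup G)) (hz1 : z ≠ 1)
    (K : Subgroup G) (θK : IrrCharacter K)
    (hK : ∀ y : G, y ∈ K ↔ (y * z = z * y ∧ ¬ p ∣ orderOf y))
    (hres : ∀ (y : K) (c : Subgroup.centralizer ((P : Subgroup G) : Set G)), (c : G) = (y : G) →
      (θK : K → ℂ) y = (θ : Subgroup.centralizer ((P : Subgroup G) : Set G) → ℂ) c)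
    (D : ZMod p → IrrCharacter G → ℂ)
    (S : Set (Set (IrrCharacter (Subgroup.centralizer ((P : Subgroup G) : Set G)))))
    (hsmt : ∀ χ ∈ B, ∀ t : ℕ, ¬ p ∣ t →
      ∀ s : Subgroup.centralizer ((P : Subgroup G) : Set G), ¬ p ∣ orderOf s →
        (χ : G → ℂ) (z ^ t * (s : G)) = ∑ᶠ c ∈ S,
          blockPart c (fun x : Subgroup.centralizer ((P : Subgroup G) : Set G) =>
            (χ : G → ℂ) (z ^ t * (x : G))) s)
    (htrans : ∀ c ∈ S, ∃ g ∈ Subgroup.normalizer ((P : Subgroup G) : Set G),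
      ∃ k : (ZMod p)ˣ, ∀ χ ∈ B, ∀ (t : ZMod p)
        (s s' : Subgroup.centralizer ((P : Subgroup G) : Set G)), ¬ p ∣ orderOf s →
          (s' : G) = g⁻¹ * (s : G) * g →
          blockPart c (fun x : Subgroup.centralizer ((P : Subgroup G) : Set G) =>
            (χ : G → ℂ) (z ^ ((k : ZMod p) * t).val * (x : G))) s =
            D t χ * (θ : Subgroup.centralizer ((P : Subgroup G) : Set G) → ℂ) s') :
    ∀ χ ∈ B, ∀ t ∈ Finset.Ico 1 p, ∃ a : G → ℂ,
      (∀ n, n ∉ Subgroup.normalizer ((Subgroup.zpowers z : Subgroup G) : Set G) → a n = 0) ∧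
      ∀ y : K, (χ : G → ℂ) (z ^ t * (y : G)) = ∑ n : G, a n * cj K (θK : K → ℂ) n y := by
  classical
  intro χ hχ t ht
  have hp : p.Prime := Fact.out
  have hPz : (P : Subgroup G) = Subgroup.zpowers z :=
    Cfsg.Agent.Lib.Helper92.DO.cf_zpowers p P hP z hz hz1
  have hNeq : Subgroup.normalizer ((Subgroup.zpowers z : Subgroup G) : Set G) =
      Subgroup.normalizer ((P : Subgroup G) : Set G) := by rw [hPz]
  obtain ⟨ht1, htp⟩ := Finset.mem_Ico.mp ht
  have hpt : ¬ p ∣ t := fun h => by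
    have := Nat.le_of_dvd (by omega) h
    omega
  haveI : Finite (IrrCharacter (Subgroup.centralizer ((P : Subgroup G) : Set G))) :=
    Cfsg.Agent.Lib.Helper83.irr_finite
  have hSfin : S.Finite := Set.toFinite S
  choose! gc hgc using htrans
  have hgcN : ∀ c ∈ S, gc c ∈ Subgroup.normalizer ((P : Subgroup G) : Set G) :=
    fun c hc => (hgc c hc).1
  have hk : ∀ c, c ∈ S → ∃ k : (ZMod p)ˣ, ∀ χ ∈ B, ∀ (t : ZMod p)
        (s s' : Subgroup.centralizer ((P : Subgroup G) : Set G)), ¬ p ∣ orderOf s →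
          (s' : G) = (gc c)⁻¹ * (s : G) * gc c →
          blockPart c (fun x : Subgroup.centralizer ((P : Subgroup G) : Set G) =>
            (χ : G → ℂ) (z ^ ((k : ZMod p) * t).val * (x : G))) s =
            D t χ * (θ : Subgroup.centralizer ((P : Subgroup G) : Set G) → ℂ) s' :=
    fun c hc => (hgc c hc).2
  choose! kc hkc using hk
  -- membership facts
  have hcomm_pow : ∀ y : G, y * z = z * y → ∀ x ∈ (P : Subgroup G), x * y = y * x := by
    intro y hy x hx
    rw [hPz] at hx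
    obtain ⟨k, rfl⟩ := Subgroup.mem_zpowers_iff.mp hx
    exact ((Commute.zpow_left (show Commute z y from hy.symm) k)).eq
  have hKC : ∀ y : G, y ∈ K → y ∈ Subgroup.centralizer ((P : Subgroup G) : Set G) := by
    intro y hy
    rw [Subgroup.mem_centralizer_iff]
    exact fun x hx => hcomm_pow y ((hK y).mp hy).1 x hx
  have hconjK : ∀ g ∈ Subgroup.normalizer ((P : Subgroup G) : Set G), ∀ y : G, y ∈ K →
      g⁻¹ * y * g ∈ K := by
    intro g hg y hy
    obtain ⟨hy1, hy2⟩ := (hK y).mp hy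
    rw [hK]
    constructor
    · have h1 : g * z * g⁻¹ ∈ (P : Subgroup G) := (Subgroup.mem_normalizer_iff.mp hg z).mp hz
      have h2 : (g * z * g⁻¹) * y = y * (g * z * g⁻¹) := hcomm_pow y hy1 _ h1
      calc g⁻¹ * y * g * z = g⁻¹ * (y * (g * z * g⁻¹)) * g := by group
        _ = g⁻¹ * ((g * z * g⁻¹) * y) * g := by rw [h2]
        _ = z * (g⁻¹ * y * g) := by group
    · have h3 : orderOf (g⁻¹ * y * g) = orderOf y := by
        have := MulEquiv.orderOf_eq (MulAut.conj g⁻¹) y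
        rwa [MulAut.conj_apply, inv_inv] at this
      rw [h3]
      exact hy2
  -- the coefficients
  set τ : Set (IrrCharacter (Subgroup.centralizer ((P : Subgroup G) : Set G))) → ZMod p :=
    fun c => (((kc c)⁻¹ : (ZMod p)ˣ) : ZMod p) * (t : ZMod p) with hτ
  have hτval : ∀ c, ((kc c : ZMod p) * τ c).val = t := by
    intro c
    rw [hτ]
    simp only
    rw [Units.mul_inv_cancel_left, ZMod.val_natCast_of_lt htp]
  refine ⟨fun n => ∑ c ∈ hSfin.toFinset, if gc c = n then D (τ c) χ else 0, ?_, ?_⟩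
  · intro n hn
    apply Finset.sum_eq_zero
    intro c hc
    rw [if_neg]
    intro h
    apply hn
    rw [hNeq, ← h]
    exact hgcN c (hSfin.mem_toFinset.mp hc)
  · intro y
    have hyC := hKC (y : G) y.2
    have hs : ¬ p ∣ orderOf (⟨(y : G), hyC⟩ : Subgroup.centralizer ((P : Subgroup G) : Set G)) := by
      rw [Subgroup.orderOf_mk]
      exact ((hK (y : G)).mp y.2).2
    have h1 := hsmt χ hχ t hpt ⟨(y : G), hyC⟩ hs
    have h2 : ∀ c ∈ S,
        blockPart c (fun x : Subgroup.centralizer ((P : Subgroup G) : Set G) =>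
            (χ : G → ℂ) (z ^ t * (x : G))) ⟨(y : G), hyC⟩ =
          D (τ c) χ * cj K (θK : K → ℂ) (gc c) y := by
      intro c hc
      have hcK := hconjK (gc c) (hgcN c hc) (y : G) y.2
      have hcC := hKC _ hcK
      have h3 := hkc c hc χ hχ (τ c) ⟨(y : G), hyC⟩ ⟨(gc c)⁻¹ * (y : G) * gc c, hcC⟩ hs rfl
      rw [hτval c] at h3
      rw [h3, cj_apply K (θK : K → ℂ) (gc c) y hcK]
      congr 1
      exact (hres ⟨(gc c)⁻¹ * (y : G) * gc c, hcK⟩ ⟨(gc c)⁻¹ * (y : G) * gc c, hcC⟩ rfl).symm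
    have h4 : (χ : G → ℂ) (z ^ t * (y : G)) =
        ∑ c ∈ hSfin.toFinset, D (τ c) χ * cj K (θK : K → ℂ) (gc c) y := by
      rw [← finsum_mem_eq_finite_toFinset_sum _ hSfin]
      rw [← finsum_mem_congr rfl h2]
      exact h1
    rw [h4]
    simp only [Finset.sum_mul]
    rw [Finset.sum_comm]
    apply Finset.sum_congr rfl
    intro c _
    simp only [ite_mul, zero_mul]
    rw [Finset.sum_ite_eq Finset.univ (gc c), if_pos (Finset.mem_univ _)]

end Cfsg.Agent.Lib.Helper29.TGC
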