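import Cfsg.Agent.Lib.Helper22.TH1
import Cfsg.Agent.Lib.Helper22.TGDefs

/-!
# TG project, piece CYC0 (helper29): the cyclotomic polynomial kills `lrep c w` on `latt c`
-/

set_option autoImplicit false

namespace Cfsg.Agent.Lib.Helper29.TG

open Cfsg Cfsg.Agent.Lib.Helper22.TA Cfsg.Agent.Lib.Helper22.TB Cfsg.Agent.Lib.Helper22.TG
open scoped ComplexConjugate

theorem latt_cyclotomic {Γ : Type*} [Group Γ] [Fintype Γ] (S : Finset (IrrCharacter Γ))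
    (c : Γ → ℤ) (hc : ∀ g, (c g : ℂ) = ∑ ψ ∈ S, (ψ : Γ → ℂ) 1 * (ψ : Γ → ℂ) g⁻¹)
    (m : ℕ) (hm : 0 < m) (w : Γ) (hw : ∀ g, w * g = g * w)
    (hS : ∀ ψ ∈ S, ∃ η : ℂ, IsPrimitiveRoot η m ∧
      ∀ g, (ψ : Γ → ℂ) (g * w) = η * (ψ : Γ → ℂ) g) :
    Polynomial.eval₂ (Int.castRingHom (↥(latt c) →ₗ[ℤ] ↥(latt c))) (lrep c w)
      (Polynomial.cyclotomic m ℤ) = 0 := by
  obtain ⟨Φ, hΦ⟩ : ∃ Φ : Polynomial ℤ, Φ = Polynomial.cyclotomic m ℤ := ⟨_, rfl⟩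
  rw [← hΦ]
  -- the action of the polynomial
  have key1 : ∀ (u : ↥(latt c)) (x : Γ),
      (((Polynomial.eval₂ (Int.castRingHom (↥(latt c) →ₗ[ℤ] ↥(latt c))) (lrep c w) Φ) u :
        ↥(latt c)) : Γ → ℤ) x =
      ∑ j ∈ Finset.range (Φ.natDegree + 1), Φ.coeff j * (u : Γ → ℤ) ((w ^ j)⁻¹ * x) := by
    intro u x
    rw [Polynomial.eval₂_eq_sum_range, LinearMap.sum_apply, AddSubmonoidClass.coe_finset_sum,
      Finset.sum_apply]
    apply Finset.sum_congr rfl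
    intro j _
    have h1 : (Int.castRingHom (↥(latt c) →ₗ[ℤ] ↥(latt c))) (Φ.coeff j) * lrep c w ^ j =
        Φ.coeff j • lrep c (w ^ j) := by
      rw [eq_intCast, ← zsmul_one, smul_mul_assoc, one_mul, ← map_pow]
    rw [h1, LinearMap.smul_apply, Submodule.coe_smul, Pi.smul_apply, lrep_apply, smul_eq_mul]
  -- powers of `w` on the characters
  have hpow : ∀ ψ ∈ S, ∀ η : ℂ, (∀ g, (ψ : Γ → ℂ) (g * w) = η * (ψ : Γ → ℂ) g) →
      ∀ (j : ℕ) (g : Γ), (ψ : Γ → ℂ) (g * w ^ j) = η ^ j * (ψ : Γ → ℂ) g := by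
    intro ψ _ η hη j
    induction j with
    | zero => intro g; rw [pow_zero, mul_one, pow_zero, one_mul]
    | succ j ih =>
      intro g
      rw [pow_succ, ← mul_assoc, hη, ih, pow_succ]
      ring
  -- the polynomial kills `c`
  have key2 : ∀ y : Γ,
      ∑ j ∈ Finset.range (Φ.natDegree + 1), Φ.coeff j * c ((w ^ j)⁻¹ * y) = 0 := by
    intro y
    apply Int.cast_injective (α := ℂ)
    rw [Int.cast_sum, Int.cast_zero]
    have h1 : ∀ j ∈ Finset.range (Φ.natDegree + 1),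
        ((Φ.coeff j * c ((w ^ j)⁻¹ * y) : ℤ) : ℂ) =
        ∑ ψ ∈ S, (Φ.coeff j : ℂ) * ((ψ : Γ → ℂ) 1 * (ψ : Γ → ℂ) (y⁻¹ * w ^ j)) := by
      intro j _
      rw [Int.cast_mul, hc, Finset.mul_sum]
      apply Finset.sum_congr rfl
      intro ψ _
      rw [mul_inv_rev, inv_inv]
    rw [Finset.sum_congr rfl h1, Finset.sum_comm]
    apply Finset.sum_eq_zero
    intro ψ hψ
    obtain ⟨η, hηp, hη⟩ := hS ψ hψ
    have h2 : ∀ j ∈ Finset.range (Φ.natDegree + 1),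
        (Φ.coeff j : ℂ) * ((ψ : Γ → ℂ) 1 * (ψ : Γ → ℂ) (y⁻¹ * w ^ j)) =
        ((ψ : Γ → ℂ) 1 * (ψ : Γ → ℂ) y⁻¹) * ((Φ.coeff j : ℂ) * η ^ j) := by
      intro j _
      rw [hpow ψ hψ η hη j y⁻¹]
      ring
    rw [Finset.sum_congr rfl h2, ← Finset.mul_sum]
    have h3 : ∑ j ∈ Finset.range (Φ.natDegree + 1), (Φ.coeff j : ℂ) * η ^ j = 0 := by
      have h4 := Polynomial.eval₂_eq_sum_range (Int.castRingHom ℂ) η (p := Φ)
      simp only [eq_intCast] at h4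
      rw [← h4, ← Polynomial.eval_map, hΦ, Polynomial.map_cyclotomic]
      exact hηp.isRoot_cyclotomic hm
    rw [h3, mul_zero]
  -- conclusion
  apply LinearMap.ext
  intro u
  apply Subtype.ext
  funext x
  rw [key1]
  have hu : ∀ z : Γ, ∑ h : Γ, (u : Γ → ℤ) h * c (h⁻¹ * z) = (Nat.card Γ : ℤ) * (u : Γ → ℤ) z := by
    intro z
    have h1 := congrFun (mem_latt.mp u.2) z
    rw [convZ_apply] at h1
    rw [h1]
    rfl
  have hcard : (Nat.card Γ : ℤ) ≠ 0 := by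
    have : 0 < Nat.card Γ := Nat.card_pos
    exact_mod_cast this.ne'
  have hcomm : ∀ (j : ℕ) (g : Γ), g * (w ^ j)⁻¹ = (w ^ j)⁻¹ * g := by
    intro j g
    have h1 : Commute (w ^ j) g := (show Commute w g from hw g).pow_left j
    exact (h1.inv_left.eq).symm
  have h5 : (Nat.card Γ : ℤ) *
      ∑ j ∈ Finset.range (Φ.natDegree + 1), Φ.coeff j * (u : Γ → ℤ) ((w ^ j)⁻¹ * x) = 0 := by
    rw [Finset.mul_sum]
    have h6 : ∀ j ∈ Finset.range (Φ.natDegree + 1),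
        (Nat.card Γ : ℤ) * (Φ.coeff j * (u : Γ → ℤ) ((w ^ j)⁻¹ * x)) =
        ∑ h : Γ, (u : Γ → ℤ) h * (Φ.coeff j * c ((w ^ j)⁻¹ * (h⁻¹ * x))) := by
      intro j _
      rw [mul_left_comm, ← hu, Finset.mul_sum]
      apply Finset.sum_congr rfl
      intro h _
      rw [← mul_assoc h⁻¹, hcomm j h⁻¹, mul_assoc]
      ring
    rw [Finset.sum_congr rfl h6, Finset.sum_comm]
    apply Finset.sum_eq_zero
    intro h _
    rw [← Finset.mul_sum, key2, mul_zero]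
  exact (mul_eq_zero.mp h5).resolve_left hcard

end Cfsg.Agent.Lib.Helper29.TG
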