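import Cfsg.Agent.Lib.Helper22.TH1
import Cfsg.Agent.Lib.Helper22.TGDefs
import Cfsg.Agent.Lib.Helper84.CliffInd
import Cfsg.Agent.Lib.Helper20.Clifford
import Cfsg.Agent.Lib.Helper83.Linear

/-!
# TG project, piece PROD (helper29): `χ × λ` is irreducible on `G × Multiplicative (ZMod m)`
-/

set_option autoImplicit false

namespace Cfsg.Agent.Lib.Helper29.TG

open Cfsg Cfsg.Agent.Lib.Helper22.TG

theorem pow_val_eq {m : ℕ} [NeZero m] {M : Type*} [Monoid M] {ω : M} (hω : ω ^ m = 1)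
    (a : ZMod m) (n : ℕ) (h : (n : ZMod m) = a) : ω ^ a.val = ω ^ n := by
  subst h
  rw [ZMod.val_natCast, ← pow_eq_pow_mod n hω]

/-- the linear character `u ↦ ω ^ u` of `Multiplicative (ZMod m)` -/
noncomputable def linZ (m : ℕ) [NeZero m] (ω : ℂˣ) (hω : ω ^ m = 1) :
    Multiplicative (ZMod m) →* ℂˣ where
  toFun u := ω ^ (Multiplicative.toAdd u).val
  map_one' := by
    rw [toAdd_one, ZMod.val_zero, pow_zero]
  map_mul' a b := by
    rw [toAdd_mul, ← pow_add]
    apply pow_val_eq hω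
    rw [Nat.cast_add, ZMod.natCast_zmod_val, ZMod.natCast_zmod_val]

theorem chiT_irr {G : Type*} [Group G] [Finite G] (m : ℕ) [NeZero m] (ω : ℂ) (hω : ω ^ m = 1)
    (χ : IrrCharacter G) :
    IsIrrCharacter (G × Multiplicative (ZMod m)) (chiT m ω (χ : G → ℂ)) := by
  haveI : Fintype G := Fintype.ofFinite G
  have hω0 : ω ≠ 0 := by
    intro h
    rw [h, zero_pow (NeZero.ne m)] at hω
    exact zero_ne_one hω
  have hωu : (Units.mk0 ω hω0) ^ m = 1 := by
    apply Units.ext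
    rw [Units.val_pow_eq_pow_val, Units.val_mk0, hω, Units.val_one]
  have hθ : IsIrrCharacter (G × Multiplicative (ZMod m)) (fun q => (χ : G → ℂ) q.1) :=
    Helper20.irr_comp_surjective (MonoidHom.fst G (Multiplicative (ZMod m))) Prod.fst_surjective
      χ.2
  have hl : IsIrrCharacter (G × Multiplicative (ZMod m))
      (fun q => ((((linZ m (Units.mk0 ω hω0) hωu).comp
        (MonoidHom.snd G (Multiplicative (ZMod m)))) q : ℂˣ) : ℂ)) := Helper83.isIrr_of_hom _
  have h := Helper84.irr_mul_linear hθ hl (by simp)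
  have e : chiT m ω (χ : G → ℂ) = (fun q : G × Multiplicative (ZMod m) => (χ : G → ℂ) q.1) *
      (fun q => ((((linZ m (Units.mk0 ω hω0) hωu).comp
        (MonoidHom.snd G (Multiplicative (ZMod m)))) q : ℂˣ) : ℂ)) := by
    funext q
    show (χ : G → ℂ) q.1 * ω ^ (Multiplicative.toAdd q.2).val =
      (χ : G → ℂ) q.1 * (((Units.mk0 ω hω0) ^ (Multiplicative.toAdd q.2).val : ℂˣ) : ℂ)
    rw [Units.val_pow_eq_pow_val, Units.val_mk0]
  rw [e]
  exact h

theorem chiT_pow {G : Type*} [Group G] (m : ℕ) [NeZero m] (ω : ℂ) (hω : ω ^ m = 1)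
    (χ : G → ℂ) (g : G × Multiplicative (ZMod m)) (k : ℕ) :
    chiT m ω χ (g ^ k) = χ (g.1 ^ k) * (ω ^ (Multiplicative.toAdd g.2).val) ^ k := by
  show χ (g ^ k).1 * ω ^ (Multiplicative.toAdd (g ^ k).2).val = _
  rw [Prod.pow_fst, Prod.pow_snd, toAdd_pow, ← pow_mul]
  congr 1
  apply pow_val_eq hω
  rw [Nat.cast_mul, ZMod.natCast_zmod_val, nsmul_eq_mul, mul_comm]

end Cfsg.Agent.Lib.Helper29.TG
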