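import Mathlib
import Cfsg.Agent.Lib.Helper25.StDefs
import Cfsg.Agent.Lib.Helper48.GLnG
import Cfsg.Agent.Lib.Helper79.DefZero

/-! Steinberg project (helper25) piece P9 "StIrr": irreducibility of `stSum` from norm one and
positive degree; vanishing of an irreducible character of `p`-defect zero on `p`-singular
elements. -/

set_option autoImplicit false

namespace Cfsg.Agent.Lib.Helper25

open Cfsg Cfsg.Agent.Lib.Helper8

theorem stSum_irr {G : Type*} [Group G] [Fintype G] (P : BNPair G) (σ : ℕ → G) (r : ℕ)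
    (hnorm : classInner (stSum P σ r) (stSum P σ r) = 1) (d : ℕ) (hd : 0 < d)
    (hdeg : stSum P σ r 1 = (d : ℂ)) : IsIrrCharacter G (stSum P σ r) := by
  classical
  set φ : G → ℂ := ∑ J ∈ (Finset.range r).powerset.filter (fun J => Even J.card),
      fixedPointCharacter (P.parabolic (σ '' (↑J : Set ℕ))) with hφdef
  set ψ : G → ℂ := ∑ J ∈ (Finset.range r).powerset.filter (fun J => ¬ Even J.card),
      fixedPointCharacter (P.parabolic (σ '' (↑J : Set ℕ))) with hψdef
  have hφ : IsCharacter G φ :=
    Helper46.isCharacter_sum _ _ (fun J _ => Helper48.isCharacter_fixedPointCharacter _)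
  have hψ : IsCharacter G ψ :=
    Helper46.isCharacter_sum _ _ (fun J _ => Helper48.isCharacter_fixedPointCharacter _)
  have hU : stSum P σ r = φ - ψ := by
    funext g
    unfold stSum
    simp only [Pi.sub_apply, hφdef, hψdef, Finset.sum_apply]
    rw [Finset.sum_filter, Finset.sum_filter, ← Finset.sum_sub_distrib]
    apply Finset.sum_congr rfl
    intro J _
    by_cases hJ : Even J.card
    · simp [hJ, Even.neg_one_pow hJ]
    · have hodd : Odd J.card := Nat.not_even_iff_odd.mp hJ
      simp [hJ, Odd.neg_one_pow hodd]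
  rw [hU]
  apply Helper48.virt_irr φ ψ hφ hψ _ d hd
  · rw [← hU]
    exact hdeg
  · rw [← hU]
    exact hnorm

theorem irr_vanish_of_degree {G : Type*} [Group G] [Finite G] (p : ℕ) [Fact p.Prime] (χ : G → ℂ)
    (hχ : IsIrrCharacter G χ) (d : ℕ) (hdeg : χ 1 = (d : ℂ))
    (hdvd : p ^ (Nat.card G).factorization p ∣ d) (y : G) (hy : p ∣ orderOf y) : χ y = 0 := by
  have h1 : charDegree χ = d := by
    have h2 := (Cfsg.Agent.Lib.Helper83.irr_degree hχ).2
    rw [hdeg] at h2
    exact (Nat.cast_injective h2).symm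
  have h3 : p ^ (Nat.card G).factorization p ∣
      charDegree ((⟨χ, hχ⟩ : IrrCharacter G) : G → ℂ) := by
    show p ^ (Nat.card G).factorization p ∣ charDegree χ
    rw [h1]
    exact hdvd
  exact Helper79.irr_eq_zero_of_defect_zero p ⟨χ, hχ⟩ h3 y hy

end Cfsg.Agent.Lib.Helper25
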