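import Mathlib
import Cfsg.Agent.Lib.Helper26.Gross2DefsB

/-!
# S3795, piece STRUCT: the structure of a minimal tower `Q ← S ← φ` (abstract group theory)

`Q` has class two, `Q / Z(Q)` has exponent `q`, some `δ(x)` is not central, `Q = [Q, S]` and `S`
centralises `Z(Q)`.
-/

set_option autoImplicit false
open scoped commutatorElement

namespace Cfsg.Agent.Lib.Helper29.Gross2STRUCT

open Cfsg.Agent.Lib.Helper26 Cfsg.Agent.Lib.Helper26.Gross2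

universe u

section aux

variable {Γ : Type u} [Group Γ]

/-- conjugation by `g` as a homomorphism -/
def cjh (g : Γ) : Γ →* Γ where
  toFun x := g * x * g⁻¹
  map_one' := by simp
  map_mul' := by intro a b; group

theorem cjh_apply (g x : Γ) : cjh g x = g * x * g⁻¹ := rfl

theorem closure_conj (g : Γ) (X : Set Γ) (K : Subgroup Γ) (h : ∀ x ∈ X, g * x * g⁻¹ ∈ K) :
    ∀ x ∈ Subgroup.closure X, g * x * g⁻¹ ∈ K := by
  intro x hx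
  have hle : Subgroup.closure X ≤ K.comap (cjh g) := by
    rw [Subgroup.closure_le]
    intro x hx
    exact h x hx
  exact hle hx

theorem sup_conj (g : Γ) (A B K : Subgroup Γ) (hA : ∀ x ∈ A, g * x * g⁻¹ ∈ K)
    (hB : ∀ x ∈ B, g * x * g⁻¹ ∈ K) : ∀ x ∈ A ⊔ B, g * x * g⁻¹ ∈ K := by
  intro x hx
  have hle : A ⊔ B ≤ K.comap (cjh g) := sup_le (fun x hx => hA x hx) (fun x hx => hB x hx)
  exact hle hx

theorem comm_conj (Q : Subgroup Γ) (g : Γ) (hg : ∀ x ∈ Q, g * x * g⁻¹ ∈ Q) :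
    ∀ x ∈ ⁅Q, Q⁆, g * x * g⁻¹ ∈ ⁅Q, Q⁆ := by
  intro x hx
  have h1 : (⁅Q, Q⁆).map (cjh g) ≤ ⁅Q, Q⁆ := by
    rw [Subgroup.map_commutator]
    apply Subgroup.commutator_mono <;>
    · rintro _ ⟨y, hy, rfl⟩
      exact hg y hy
  exact h1 (Subgroup.mem_map_of_mem _ hx)

theorem comm_le_self (Q : Subgroup Γ) : ⁅Q, Q⁆ ≤ Q :=
  Subgroup.commutator_le.mpr fun x hx y hy =>
    Q.mul_mem (Q.mul_mem (Q.mul_mem hx hy) (Q.inv_mem hx)) (Q.inv_mem hy)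

theorem center_conj (Q : Subgroup Γ) (g : Γ) (h1 : ∀ x ∈ Q, g * x * g⁻¹ ∈ Q)
    (h2 : ∀ x ∈ Q, g⁻¹ * x * g ∈ Q) :
    ∀ z ∈ Q ⊓ Subgroup.centralizer (Q : Set Γ),
      g * z * g⁻¹ ∈ Q ⊓ Subgroup.centralizer (Q : Set Γ) := by
  intro z hz
  rw [Subgroup.mem_inf] at hz ⊢
  obtain ⟨hzQ, hzc⟩ := hz
  refine ⟨h1 z hzQ, ?_⟩
  rw [Subgroup.mem_centralizer_iff] at hzc ⊢
  intro w hw
  have h3 := hzc (g⁻¹ * w * g) (h2 w hw)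
  calc w * (g * z * g⁻¹) = g * ((g⁻¹ * w * g) * z) * g⁻¹ := by group
    _ = g * (z * (g⁻¹ * w * g)) * g⁻¹ := by rw [h3]
    _ = g * z * g⁻¹ * w := by group

theorem commute_of_sq_commute {c x : Γ} {m : ℕ} (hm : c ^ (2 * m + 1) = 1)
    (h : Commute (c * c) x) : Commute c x := by
  have h1 : Commute ((c * c) ^ (m + 1)) x := h.pow_left (m + 1)
  have e : (c * c) ^ (m + 1) = c := by
    rw [← pow_two, ← pow_mul]
    have e2 : 2 * (m + 1) = (2 * m + 1) + 1 := by ring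
    rw [e2, pow_succ, hm, one_mul]
  rwa [e] at h1

theorem comm_of_inv_sq {c x : Γ} {m : ℕ} (hm : c ^ (2 * m + 1) = 1)
    (h : (c⁻¹ * c⁻¹) * x = x * (c⁻¹ * c⁻¹)) : c * x = x * c := by
  have hm' : c⁻¹ ^ (2 * m + 1) = 1 := by rw [inv_pow, hm, inv_one]
  have h1 : Commute (c⁻¹) x := commute_of_sq_commute hm' h
  exact (Commute.inv_left_iff.mp h1).eq

theorem pgroup_pow {p : ℕ} (K : Subgroup Γ) (hK : IsPGroup p K) {c : Γ} (hc : c ∈ K) :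
    ∃ k : ℕ, c ^ (p ^ k) = 1 := by
  obtain ⟨k, hk⟩ := hK ⟨c, hc⟩
  refine ⟨k, ?_⟩
  have h := congrArg Subtype.val hk
  simpa using h

theorem odd_pow_eq_one {p : ℕ} (hp : p.Prime) (hp2 : p ≠ 2) (K : Subgroup Γ)
    (hK : IsPGroup p K) {c : Γ} (hc : c ∈ K) : ∃ m : ℕ, c ^ (2 * m + 1) = 1 := by
  obtain ⟨k, hk⟩ := pgroup_pow K hK hc
  have hodd : Odd (p ^ k) := (hp.odd_of_ne_two hp2).pow
  obtain ⟨m, hm⟩ := hodd
  exact ⟨m, by rw [← hm]; exact hk⟩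

theorem eq_one_of_sq_of_odd {c : Γ} {m : ℕ} (hm : c ^ (2 * m + 1) = 1) (h2 : c * c = 1) :
    c = 1 := by
  have e : c ^ (2 * m + 1) = c := by
    rw [pow_succ, pow_mul, pow_two, h2, one_pow, one_mul]
  rw [← e, hm]

/-- the Frattini-type subgroup of a nontrivial finite `q`-group is proper -/
theorem frat_ne (q : ℕ) (hq : q.Prime) (Q : Subgroup Γ) (hfin : Finite Q) (hQ : IsPGroup q Q)
    (hne : Q ≠ ⊥) : Subgroup.closure {c | ∃ x ∈ Q, x ^ q = c} ⊔ ⁅Q, Q⁆ ≠ Q := by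
  haveI : Fact q.Prime := ⟨hq⟩
  haveI := hfin
  obtain ⟨k, hk⟩ := IsPGroup.iff_card.mp hQ
  have hk0 : k ≠ 0 := by
    rintro rfl
    rw [pow_zero] at hk
    exact hne (Subgroup.card_eq_one.mp hk)
  obtain ⟨k', rfl⟩ := Nat.exists_eq_succ_of_ne_zero hk0
  obtain ⟨M, hM⟩ := Sylow.exists_subgroup_card_pow_prime (G := ↥Q) q (n := k')
    (by rw [hk]; exact pow_dvd_pow q (Nat.le_succ k'))
  have hidx : M.index = q := by
    have h1 := Subgroup.card_mul_index M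
    rw [hM, hk, pow_succ] at h1
    exact Nat.eq_of_mul_eq_mul_left (pow_pos hq.pos k') h1
  haveI hMn : M.Normal := by
    apply Subgroup.normal_of_index_eq_minFac_card
    rw [hidx, hk, hq.pow_minFac (Nat.succ_ne_zero k')]
  have hcomm : commutator ↥Q ≤ M := by
    have hcard : Nat.card (↥Q ⧸ M) = q := by rw [← Subgroup.index_eq_card]; exact hidx
    haveI : IsCyclic (↥Q ⧸ M) := isCyclic_of_prime_card hcard
    letI : CommGroup (↥Q ⧸ M) := IsCyclic.commGroup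
    have h := Abelianization.commutator_subset_ker (QuotientGroup.mk' M)
    rwa [QuotientGroup.ker_mk'] at h
  have hle : Subgroup.closure {c | ∃ x ∈ Q, x ^ q = c} ⊔ ⁅Q, Q⁆ ≤ M.map Q.subtype := by
    apply sup_le
    · rw [Subgroup.closure_le]
      rintro _ ⟨x, hx, rfl⟩
      have h1 : (⟨x, hx⟩ : ↥Q) ^ M.index ∈ M := Subgroup.pow_index_mem M _
      rw [hidx] at h1
      exact ⟨_, h1, rfl⟩
    · rw [Subgroup.commutator_le]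
      intro x hx y hy
      have h1 : ⁅(⟨x, hx⟩ : ↥Q), (⟨y, hy⟩ : ↥Q)⁆ ∈ commutator ↥Q :=
        Subgroup.commutator_mem_commutator (Subgroup.mem_top _) (Subgroup.mem_top _)
      exact ⟨_, hcomm h1, rfl⟩
  intro heq
  rw [heq] at hle
  have htop : M = ⊤ := by
    rw [eq_top_iff]
    intro x _
    obtain ⟨m, hm, hmx⟩ := hle x.2
    have : m = x := Subtype.ext hmx
    rw [← this]
    exact hm
  rw [htop, Subgroup.index_top] at hidx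
  exact hq.one_lt.ne hidx

theorem pow_conj_of_comm {y u c : Γ} (hc : y * u * y⁻¹ = u * c) (hyc : y * c = c * y) (i : ℕ) :
    y ^ i * u * (y ^ i)⁻¹ = u * c ^ i := by
  induction i with
  | zero => simp
  | succ i ih =>
    have hyci : y * c ^ i = c ^ i * y := (Commute.pow_right hyc i).eq
    have e1 : y ^ (i + 1) * u * (y ^ (i + 1))⁻¹ = y * (y ^ i * u * (y ^ i)⁻¹) * y⁻¹ := by
      rw [pow_succ', mul_inv_rev]; simp only [mul_assoc]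
    rw [e1, ih]
    calc y * (u * c ^ i) * y⁻¹ = (y * u * y⁻¹) * (y * c ^ i) * y⁻¹ := by
          simp only [mul_assoc, inv_mul_cancel_left]
      _ = (u * c) * (c ^ i * y) * y⁻¹ := by rw [hc, hyci]
      _ = u * c ^ (i + 1) := by
          rw [pow_succ']; simp only [mul_assoc, mul_inv_cancel, mul_one]

/-- the structure theorem with `ψ` abstract: `ψ² = 1`, `ψ` commutes with `φ` and normalises
`Q` and `S` -/
theorem struct_core (q s : ℕ) (Q S : Subgroup Γ) (φ ψ : Γ)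
    (hq : q.Prime) (hs : s.Prime) (hq2 : q ≠ 2) (hs2 : s ≠ 2) (hqs : q ≠ s)
    (hfinQ : Finite Q) (hQ : IsPGroup q Q) (hS : IsPGroup s S)
    (hψ2 : ψ * ψ = 1) (hψφ : ψ * φ = φ * ψ)
    (hnormQ : ∀ x ∈ Q, φ * x * φ⁻¹ ∈ Q) (hnormQ' : ∀ x ∈ Q, φ⁻¹ * x * φ ∈ Q)
    (hnormS : ∀ y ∈ S, φ * y * φ⁻¹ ∈ S)
    (hψQ : ∀ x ∈ Q, ψ * x * ψ⁻¹ ∈ Q) (hψS : ∀ y ∈ S, ψ * y * ψ⁻¹ ∈ S)
    (hSQ : ∀ y ∈ S, ∀ x ∈ Q, y * x * y⁻¹ ∈ Q)
    (hsubS : ∀ S₀ : Subgroup Γ, S₀ ≤ S → S₀ ≠ S → (∀ y ∈ S₀, φ * y * φ⁻¹ ∈ S₀) →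
      ∀ y ∈ S₀, ∀ x ∈ Q, (y⁻¹ * (ψ * y * ψ⁻¹)) * x = x * (y⁻¹ * (ψ * y * ψ⁻¹)))
    (hsubQ : ∀ Q₀ : Subgroup Γ, Q₀ ≤ Q → Q₀ ≠ Q → (∀ x ∈ Q₀, φ * x * φ⁻¹ ∈ Q₀) →
      (∀ y ∈ S, ∀ x ∈ Q₀, y * x * y⁻¹ ∈ Q₀) →
      ∀ y ∈ S, ∀ x ∈ Q₀, (y⁻¹ * (ψ * y * ψ⁻¹)) * x = x * (y⁻¹ * (ψ * y * ψ⁻¹)))
    (hnot : ¬ ∀ y ∈ S, ∀ x ∈ Q, (y⁻¹ * (ψ * y * ψ⁻¹)) * x = x * (y⁻¹ * (ψ * y * ψ⁻¹)))
    (hab : ∀ B : Subgroup Γ, B ≤ Q → (∀ x ∈ B, ∀ y ∈ B, x * y = y * x) →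
      (∀ x ∈ B, φ * x * φ⁻¹ ∈ B) → ∀ x ∈ B, ψ * x = x * ψ) :
    (∀ x ∈ Q, ∀ y ∈ Q, ∀ w ∈ Q, ⁅x, y⁆ * w = w * ⁅x, y⁆) ∧
    (∀ x ∈ Q, ∀ w ∈ Q, x ^ q * w = w * x ^ q) ∧
    (∃ x ∈ Q, ∃ w ∈ Q, (x⁻¹ * (ψ * x * ψ⁻¹)) * w ≠ w * (x⁻¹ * (ψ * x * ψ⁻¹))) ∧
    (∀ x ∈ Q, x ∈ Subgroup.closure {c | ∃ u ∈ Q, ∃ y ∈ S, u⁻¹ * (y * u * y⁻¹) = c}) ∧
    (∀ y ∈ S, ∀ z ∈ Q, (∀ w ∈ Q, z * w = w * z) → y * z = z * y) := by
  classical
  have hψi : ψ⁻¹ = ψ := inv_eq_of_mul_eq_one_right hψ2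
  have hδS : ∀ y ∈ S, y⁻¹ * (ψ * y * ψ⁻¹) ∈ S :=
    fun y hy => S.mul_mem (S.inv_mem hy) (hψS y hy)
  have hδQ : ∀ x ∈ Q, x⁻¹ * (ψ * x * ψ⁻¹) ∈ Q :=
    fun x hx => Q.mul_mem (Q.inv_mem hx) (hψQ x hx)
  have hδφ : ∀ y : Γ, φ * (y⁻¹ * (ψ * y * ψ⁻¹)) * φ⁻¹ =
      (φ * y * φ⁻¹)⁻¹ * (ψ * (φ * y * φ⁻¹) * ψ⁻¹) := by
    intro y
    have h2 : φ⁻¹ * ψ⁻¹ = ψ⁻¹ * φ⁻¹ := by rw [← mul_inv_rev, ← mul_inv_rev, hψφ]
    have e1 : ψ * (φ * y * φ⁻¹) * ψ⁻¹ = φ * (ψ * y * ψ⁻¹) * φ⁻¹ := by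
      calc ψ * (φ * y * φ⁻¹) * ψ⁻¹ = (ψ * φ) * y * (φ⁻¹ * ψ⁻¹) := by group
        _ = (φ * ψ) * y * (ψ⁻¹ * φ⁻¹) := by rw [hψφ, h2]
        _ = φ * (ψ * y * ψ⁻¹) * φ⁻¹ := by group
    rw [e1]
    group
  have hδψ : ∀ y : Γ, ψ * (y⁻¹ * (ψ * y * ψ⁻¹)) * ψ⁻¹ = (y⁻¹ * (ψ * y * ψ⁻¹))⁻¹ := by
    intro y
    have e : (y⁻¹ * (ψ * y * ψ⁻¹))⁻¹ = ψ * y⁻¹ * ψ⁻¹ * y := by group
    rw [e]
    calc ψ * (y⁻¹ * (ψ * y * ψ⁻¹)) * ψ⁻¹ = ψ * y⁻¹ * ψ * y * (ψ⁻¹ * ψ⁻¹) := by group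
      _ = ψ * y⁻¹ * ψ⁻¹ * y := by rw [hψi, hψ2, mul_one]
  -- if `ψ` centralises `Q` then all `δ(y)` do
  have L0 : (∀ x ∈ Q, ψ * x = x * ψ) → False := by
    intro hc
    apply hnot
    intro y hy x hx
    have h1 : ψ * (y * x * y⁻¹) = (y * x * y⁻¹) * ψ := hc _ (hSQ y hy x hx)
    have h3 : ψ⁻¹ * x = x * ψ⁻¹ := by rw [hψi]; exact hc x hx
    calc y⁻¹ * (ψ * y * ψ⁻¹) * x = y⁻¹ * ψ * y * (ψ⁻¹ * x) := by group
      _ = y⁻¹ * ψ * y * (x * ψ⁻¹) := by rw [h3]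
      _ = y⁻¹ * (ψ * (y * x * y⁻¹)) * y * ψ⁻¹ := by group
      _ = y⁻¹ * ((y * x * y⁻¹) * ψ) * y * ψ⁻¹ := by rw [h1]
      _ = x * (y⁻¹ * (ψ * y * ψ⁻¹)) := by group
  have hnab : ¬ ∀ x ∈ Q, ∀ y ∈ Q, x * y = y * x := fun h => L0 (hab Q le_rfl h hnormQ)
  have hQbot : Q ≠ ⊥ := by
    intro h
    apply hnab
    intro x hx y hy
    rw [h, Subgroup.mem_bot] at hx hy
    rw [hx, hy]
  have hSQ' : ∀ y ∈ S, ∀ x ∈ Q, y⁻¹ * x * y ∈ Q := by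
    intro y hy x hx
    have h := hSQ y⁻¹ (S.inv_mem hy) x hx
    rwa [inv_inv] at h
  -- the centre of `Q`
  have hZmem : ∀ z : Γ, z ∈ Q ⊓ Subgroup.centralizer (Q : Set Γ) ↔
      z ∈ Q ∧ ∀ w ∈ Q, z * w = w * z := by
    intro z
    rw [Subgroup.mem_inf, Subgroup.mem_centralizer_iff]
    constructor
    · rintro ⟨h1, h2⟩; exact ⟨h1, fun w hw => (h2 w hw).symm⟩
    · rintro ⟨h1, h2⟩; exact ⟨h1, fun w hw => (h2 w hw).symm⟩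
  have hZQ : Q ⊓ Subgroup.centralizer (Q : Set Γ) ≤ Q := inf_le_left
  have hZne : Q ⊓ Subgroup.centralizer (Q : Set Γ) ≠ Q := by
    intro h
    apply hnab
    intro x hx y hy
    rw [← h] at hx
    exact ((hZmem x).mp hx).2 y hy
  have hZφ := center_conj Q φ hnormQ hnormQ'
  have hZS : ∀ y ∈ S, ∀ z ∈ Q ⊓ Subgroup.centralizer (Q : Set Γ),
      y * z * y⁻¹ ∈ Q ⊓ Subgroup.centralizer (Q : Set Γ) :=
    fun y hy => center_conj Q y (hSQ y hy) (hSQ' y hy)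
  -- (a) `S` is generated by the `δ(y)` and `C_S(Q)`
  have hTS : Subgroup.closure {c | ∃ y ∈ S, y⁻¹ * (ψ * y * ψ⁻¹) = c} ⊔
      (S ⊓ Subgroup.centralizer (Q : Set Γ)) = S := by
    by_contra hne
    have hle : Subgroup.closure {c | ∃ y ∈ S, y⁻¹ * (ψ * y * ψ⁻¹) = c} ⊔
        (S ⊓ Subgroup.centralizer (Q : Set Γ)) ≤ S := by
      apply sup_le
      · rw [Subgroup.closure_le]
        rintro _ ⟨y, hy, rfl⟩
        exact hδS y hy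
      · exact inf_le_left
    have hinv : ∀ t ∈ Subgroup.closure {c | ∃ y ∈ S, y⁻¹ * (ψ * y * ψ⁻¹) = c} ⊔
        (S ⊓ Subgroup.centralizer (Q : Set Γ)),
        φ * t * φ⁻¹ ∈ Subgroup.closure {c | ∃ y ∈ S, y⁻¹ * (ψ * y * ψ⁻¹) = c} ⊔
          (S ⊓ Subgroup.centralizer (Q : Set Γ)) := by
      apply sup_conj
      · apply closure_conj
        rintro _ ⟨y, hy, rfl⟩
        apply (le_sup_left : Subgroup.closure {c | ∃ y ∈ S, y⁻¹ * (ψ * y * ψ⁻¹) = c} ≤ _)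
        apply Subgroup.subset_closure
        exact ⟨φ * y * φ⁻¹, hnormS y hy, (hδφ y).symm⟩
      · intro c hc
        apply (le_sup_right : S ⊓ Subgroup.centralizer (Q : Set Γ) ≤ _)
        rw [Subgroup.mem_inf] at hc ⊢
        obtain ⟨hcS, hcc⟩ := hc
        refine ⟨hnormS c hcS, ?_⟩
        rw [Subgroup.mem_centralizer_iff] at hcc ⊢
        intro w hw
        have h3 := hcc (φ⁻¹ * w * φ) (hnormQ' w hw)
        calc w * (φ * c * φ⁻¹) = φ * ((φ⁻¹ * w * φ) * c) * φ⁻¹ := by group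
          _ = φ * (c * (φ⁻¹ * w * φ)) * φ⁻¹ := by rw [h3]
          _ = φ * c * φ⁻¹ * w := by group
    have hcen := hsubS _ hle hne hinv
    apply hnot
    intro y hy x hx
    have hcT : y⁻¹ * (ψ * y * ψ⁻¹) ∈ Subgroup.closure {c | ∃ y ∈ S, y⁻¹ * (ψ * y * ψ⁻¹) = c} ⊔
        (S ⊓ Subgroup.centralizer (Q : Set Γ)) :=
      (le_sup_left : Subgroup.closure {c | ∃ y ∈ S, y⁻¹ * (ψ * y * ψ⁻¹) = c} ≤ _)
        (Subgroup.subset_closure ⟨y, hy, rfl⟩)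
    have h1 := hcen _ hcT x hx
    rw [hδψ y] at h1
    obtain ⟨m, hm⟩ := odd_pow_eq_one hs hs2 S hS (hδS y hy)
    exact comm_of_inv_sq hm h1
  -- (b) `S` centralises the proper invariant subgroups of `Q`
  have hb : ∀ Q₀ : Subgroup Γ, Q₀ ≤ Q → Q₀ ≠ Q → (∀ x ∈ Q₀, φ * x * φ⁻¹ ∈ Q₀) →
      (∀ y ∈ S, ∀ x ∈ Q₀, y * x * y⁻¹ ∈ Q₀) → ∀ y ∈ S, ∀ x ∈ Q₀, y * x = x * y := by
    intro Q₀ h1 h2 h3 h4 y hy x hx
    have hcen := hsubQ Q₀ h1 h2 h3 h4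
    have hle : Subgroup.closure {c | ∃ y ∈ S, y⁻¹ * (ψ * y * ψ⁻¹) = c} ⊔
        (S ⊓ Subgroup.centralizer (Q : Set Γ)) ≤ Subgroup.centralizer (Q₀ : Set Γ) := by
      apply sup_le
      · rw [Subgroup.closure_le]
        rintro _ ⟨y', hy', rfl⟩
        rw [SetLike.mem_coe, Subgroup.mem_centralizer_iff]
        intro w hw
        exact (hcen y' hy' w hw).symm
      · exact inf_le_right.trans (Subgroup.centralizer_le (SetLike.coe_subset_coe.mpr h1))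
    rw [hTS] at hle
    have h5 := hle hy
    rw [Subgroup.mem_centralizer_iff] at h5
    exact (h5 x hx).symm
  -- (c) `Q = [Q, S]`
  have hQ₂ : Subgroup.closure {c | ∃ u ∈ Q, ∃ y ∈ S, u⁻¹ * (y * u * y⁻¹) = c} = Q := by
    by_contra hne
    have hle : Subgroup.closure {c | ∃ u ∈ Q, ∃ y ∈ S, u⁻¹ * (y * u * y⁻¹) = c} ≤ Q := by
      rw [Subgroup.closure_le]
      rintro _ ⟨u, hu, y, hy, rfl⟩
      exact Q.mul_mem (Q.inv_mem hu) (hSQ y hy u hu)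
    have hφi : ∀ x ∈ Subgroup.closure {c | ∃ u ∈ Q, ∃ y ∈ S, u⁻¹ * (y * u * y⁻¹) = c},
        φ * x * φ⁻¹ ∈ Subgroup.closure {c | ∃ u ∈ Q, ∃ y ∈ S, u⁻¹ * (y * u * y⁻¹) = c} := by
      apply closure_conj
      rintro _ ⟨u, hu, y, hy, rfl⟩
      apply Subgroup.subset_closure
      refine ⟨φ * u * φ⁻¹, hnormQ u hu, φ * y * φ⁻¹, hnormS y hy, ?_⟩
      group
    have hSi : ∀ y' ∈ S, ∀ x ∈ Subgroup.closure {c | ∃ u ∈ Q, ∃ y ∈ S, u⁻¹ * (y * u * y⁻¹) = c},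
        y' * x * y'⁻¹ ∈ Subgroup.closure {c | ∃ u ∈ Q, ∃ y ∈ S, u⁻¹ * (y * u * y⁻¹) = c} := by
      intro y' hy'
      apply closure_conj
      rintro _ ⟨u, hu, y, hy, rfl⟩
      apply Subgroup.subset_closure
      refine ⟨y' * u * y'⁻¹, hSQ y' hy' u hu, y' * y * y'⁻¹,
        S.mul_mem (S.mul_mem hy' hy) (S.inv_mem hy'), ?_⟩
      group
    have hcen := hb _ hle hne hφi hSi
    have hSc : ∀ y ∈ S, ∀ u ∈ Q, y * u = u * y := by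
      intro y hy u hu
      have hcm : u⁻¹ * (y * u * y⁻¹) ∈
          Subgroup.closure {c | ∃ u ∈ Q, ∃ y ∈ S, u⁻¹ * (y * u * y⁻¹) = c} :=
        Subgroup.subset_closure ⟨u, hu, y, hy, rfl⟩
      have hyc : y * (u⁻¹ * (y * u * y⁻¹)) = (u⁻¹ * (y * u * y⁻¹)) * y := hcen y hy _ hcm
      have hc : y * u * y⁻¹ = u * (u⁻¹ * (y * u * y⁻¹)) := by rw [mul_inv_cancel_left]
      obtain ⟨k, hk⟩ := pgroup_pow S hS hy
      obtain ⟨j, hj⟩ := pgroup_pow Q hQ (hle hcm)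
      have h1 := pow_conj_of_comm hc hyc (s ^ k)
      rw [hk, one_mul, inv_one, mul_one] at h1
      have h2 : (u⁻¹ * (y * u * y⁻¹)) ^ (s ^ k) = 1 := by
        have h := mul_left_cancel (a := u) (b := 1) (c := (u⁻¹ * (y * u * y⁻¹)) ^ (s ^ k))
          (by rw [mul_one]; exact h1)
        exact h.symm
      have hcop : Nat.Coprime (s ^ k) (q ^ j) :=
        Nat.Coprime.pow _ _ ((Nat.coprime_primes hs hq).mpr (Ne.symm hqs))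
      have h3 : (u⁻¹ * (y * u * y⁻¹)) ^ (Nat.gcd (s ^ k) (q ^ j)) = 1 :=
        pow_gcd_eq_one.mpr ⟨h2, hj⟩
      rw [hcop, pow_one] at h3
      have h4 : y * u * y⁻¹ = u := by
        rw [hc, h3, mul_one]
      calc y * u = (y * u * y⁻¹) * y := by group
        _ = u * y := by rw [h4]
    apply hnot
    intro y hy x hx
    exact hSc _ (hδS y hy) x hx
  -- (d) `S` centralises the centre of `Q`
  have c5 : ∀ y ∈ S, ∀ z ∈ Q, (∀ w ∈ Q, z * w = w * z) → y * z = z * y := by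
    intro y hy z hz hzc
    exact hb _ hZQ hZne hZφ hZS y hy z ((hZmem z).mpr ⟨hz, hzc⟩)
  -- (e) proper normal invariant subgroups of `Q` are central
  have he : ∀ Q₁ : Subgroup Γ, Q₁ ≤ Q → Q₁ ≠ Q → (∀ u ∈ Q, ∀ x ∈ Q₁, u * x * u⁻¹ ∈ Q₁) →
      (∀ x ∈ Q₁, φ * x * φ⁻¹ ∈ Q₁) → (∀ y ∈ S, ∀ x ∈ Q₁, y * x * y⁻¹ ∈ Q₁) →
      ∀ x₁ ∈ Q₁, ∀ w ∈ Q, x₁ * w = w * x₁ := by
    intro Q₁ h1 h2 hn h3 h4 x₁ hx₁ w hw
    have hcen := hb Q₁ h1 h2 h3 h4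
    have hle : Subgroup.closure {c | ∃ u ∈ Q, ∃ y ∈ S, u⁻¹ * (y * u * y⁻¹) = c} ≤
        Subgroup.centralizer (Q₁ : Set Γ) := by
      rw [Subgroup.closure_le]
      rintro _ ⟨u, hu, y, hy, rfl⟩
      rw [SetLike.mem_coe, Subgroup.mem_centralizer_iff]
      intro x hx
      have e1 : y * x = x * y := hcen y hy x hx
      have e2 : y * (u * x * u⁻¹) = (u * x * u⁻¹) * y := hcen y hy _ (hn u hu x hx)
      have e3 : y⁻¹ * x = x * y⁻¹ := by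
        calc y⁻¹ * x = y⁻¹ * (x * y) * y⁻¹ := by group
          _ = y⁻¹ * (y * x) * y⁻¹ := by rw [e1]
          _ = x * y⁻¹ := by group
      calc x * (u⁻¹ * (y * u * y⁻¹)) = u⁻¹ * ((u * x * u⁻¹) * y) * u * y⁻¹ := by group
        _ = u⁻¹ * (y * (u * x * u⁻¹)) * u * y⁻¹ := by rw [e2]
        _ = u⁻¹ * y * u * (x * y⁻¹) := by group
        _ = u⁻¹ * y * u * (y⁻¹ * x) := by rw [e3]
        _ = u⁻¹ * (y * u * y⁻¹) * x := by group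
    rw [hQ₂] at hle
    have h5 := hle hw
    rw [Subgroup.mem_centralizer_iff] at h5
    exact h5 x₁ hx₁
  -- (f) class two
  have c1 : ∀ x ∈ Q, ∀ y ∈ Q, ∀ w ∈ Q, ⁅x, y⁆ * w = w * ⁅x, y⁆ := by
    intro x hx y hy w hw
    have hne : ⁅Q, Q⁆ ≠ Q := by
      haveI := hfinQ
      haveI : Fact q.Prime := ⟨hq⟩
      haveI : Group.IsNilpotent Q := hQ.isNilpotent
      exact (Cfsg.Agent.Lib.Helper1.commutator_lt_of_solvable hQbot).ne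
    exact he ⁅Q, Q⁆ (comm_le_self Q) hne
      (fun u hu => comm_conj Q u (fun v hv => Q.mul_mem (Q.mul_mem hu hv) (Q.inv_mem hu)))
      (comm_conj Q φ hnormQ) (fun y' hy' => comm_conj Q y' (hSQ y' hy'))
      _ (Subgroup.commutator_mem_commutator hx hy) w hw
  -- (g) `q`-th powers are central
  have c2 : ∀ x ∈ Q, ∀ w ∈ Q, x ^ q * w = w * x ^ q := by
    intro x hx w hw
    have hQ1le : Subgroup.closure {c | ∃ x ∈ Q, x ^ q = c} ⊔ ⁅Q, Q⁆ ≤ Q := by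
      apply sup_le
      · rw [Subgroup.closure_le]
        rintro _ ⟨x, hx, rfl⟩
        exact Q.pow_mem hx q
      · exact comm_le_self Q
    have hconj : ∀ g : Γ, (∀ x ∈ Q, g * x * g⁻¹ ∈ Q) →
        ∀ x ∈ Subgroup.closure {c | ∃ x ∈ Q, x ^ q = c} ⊔ ⁅Q, Q⁆,
        g * x * g⁻¹ ∈ Subgroup.closure {c | ∃ x ∈ Q, x ^ q = c} ⊔ ⁅Q, Q⁆ := by
      intro g hg
      apply sup_conj
      · apply closure_conj
        rintro _ ⟨x, hx, rfl⟩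
        apply (le_sup_left : Subgroup.closure {c | ∃ x ∈ Q, x ^ q = c} ≤ _)
        apply Subgroup.subset_closure
        exact ⟨g * x * g⁻¹, hg x hx, conj_pow⟩
      · intro x hx
        exact (le_sup_right : ⁅Q, Q⁆ ≤ _) (comm_conj Q g hg x hx)
    exact he _ hQ1le (frat_ne q hq Q hfinQ hQ hQbot)
      (fun u hu => hconj u (fun v hv => Q.mul_mem (Q.mul_mem hu hv) (Q.inv_mem hu)))
      (hconj φ hnormQ) (fun y' hy' => hconj y' (hSQ y' hy'))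
      _ ((le_sup_left : Subgroup.closure {c | ∃ x ∈ Q, x ^ q = c} ≤ _)
        (Subgroup.subset_closure ⟨x, hx, rfl⟩)) w hw
  -- (h) some `δ(x)` is not central
  have c3 : ∃ x ∈ Q, ∃ w ∈ Q,
      (x⁻¹ * (ψ * x * ψ⁻¹)) * w ≠ w * (x⁻¹ * (ψ * x * ψ⁻¹)) := by
    by_contra hcon
    push Not at hcon
    apply L0
    intro x hx
    have hδZ : x⁻¹ * (ψ * x * ψ⁻¹) ∈ Q ⊓ Subgroup.centralizer (Q : Set Γ) :=
      (hZmem _).mpr ⟨hδQ x hx, hcon x hx⟩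
    have hZab : ∀ a ∈ Q ⊓ Subgroup.centralizer (Q : Set Γ),
        ∀ b ∈ Q ⊓ Subgroup.centralizer (Q : Set Γ), a * b = b * a :=
      fun a ha b hb => ((hZmem a).mp ha).2 b ((hZmem b).mp hb).1
    have h1 := hab _ hZQ hZab hZφ _ hδZ
    have h2 := hδψ x
    rw [h1, mul_inv_cancel_right] at h2
    have h3 : (x⁻¹ * (ψ * x * ψ⁻¹)) * (x⁻¹ * (ψ * x * ψ⁻¹)) = 1 := by
      calc (x⁻¹ * (ψ * x * ψ⁻¹)) * (x⁻¹ * (ψ * x * ψ⁻¹))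
          = (x⁻¹ * (ψ * x * ψ⁻¹)) * (x⁻¹ * (ψ * x * ψ⁻¹))⁻¹ := by rw [← h2]
        _ = 1 := mul_inv_cancel _
    obtain ⟨m, hm⟩ := odd_pow_eq_one hq hq2 Q hQ (hδQ x hx)
    have h4 := eq_one_of_sq_of_odd hm h3
    have h5 : x = ψ * x * ψ⁻¹ := inv_mul_eq_one.mp h4
    calc ψ * x = (ψ * x * ψ⁻¹) * ψ := by group
      _ = x * ψ := by rw [← h5]
  exact ⟨c1, c2, c3, fun x hx => by rw [hQ₂]; exact hx, c5⟩

end aux

theorem gross2_struct : StructStmt.{u} := by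
  intro Γ _ q s n Q S φ hT hab
  have tow := hT.tow
  have hψ2 : φ ^ 2 ^ n * φ ^ 2 ^ n = 1 := by
    rw [← pow_add, ← two_mul, ← pow_succ', tow.hφ]
  have hψφ : φ ^ 2 ^ n * φ = φ * φ ^ 2 ^ n := (Commute.pow_self φ (2 ^ n)).eq
  exact struct_core q s Q S φ (φ ^ 2 ^ n) tow.hq tow.hs tow.hq2 tow.hs2 tow.hqs tow.hfinQ
    tow.hQ tow.hS hψ2 hψφ tow.hnormQ
    (gross_inv_conj_mem Q (pow_pos two_pos _) tow.hφ tow.hnormQ) tow.hnormS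
    (gross_pow_conj_mem Q tow.hnormQ (2 ^ n)) (gross_pow_conj_mem S tow.hnormS (2 ^ n))
    tow.hSQ hT.hsubS hT.hsubQ hT.hnot hab

end Cfsg.Agent.Lib.Helper29.Gross2STRUCT
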