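import Mathlib
import Cfsg.Prelude.Def_GeometricClasses
import Cfsg.Prelude.Def_LieClassical
import Cfsg.Agent.Lib.Helper71.Asch5
import Cfsg.Agent.Lib.Helper82.ASB8UNITS
import Cfsg.Agent.Lib.Helper97.U9NF3U
import Cfsg.Agent.Lib.Helper46.U9TSQU
import Cfsg.Agent.Lib.Helper44.BADDefs

/-! Project BAD (helper44; sub-project of helper49's SUG = S5663), piece NORM (helper29):
new coordinates in which both hermitian Gram matrices are the identity. -/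

set_option autoImplicit false

namespace Cfsg.Agent.Lib.Helper44.BAD

open Matrix Cfsg.Geo Cfsg.Agent.Lib.Helper71.Asch
open scoped Kronecker

variable {n : ℕ} {F : Type*} [Field F] [Fintype F] {q : ℕ}

theorem NORM_one_herm (hF : Fintype.card F = q ^ 2) (a b : Fin 3) :
    (1 : Matrix (Fin 3) (Fin 3) F) a b = ((1 : Matrix (Fin 3) (Fin 3) F) b a) ^ q := by
  have hq := (Cfsg.Agent.Lib.Helper50.SUQTFS.suqtfs_q_pos hF).ne'
  by_cases h : a = b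
  · subst h
    rw [Matrix.one_apply_eq, one_pow]
  · rw [Matrix.one_apply_ne h, Matrix.one_apply_ne (fun h' => h h'.symm), zero_pow hq]

/-- NORM: new coordinates in which both Gram matrices are the identity. -/
theorem NORM (hF : Fintype.card F = q ^ 2) (e : Fin n ≃ Fin 3 × Fin 3) (P : GL (Fin n) F)
    (G₁ G₂ : Matrix (Fin 3) (Fin 3) F) (hd1 : G₁.det ≠ 0) (hd2 : G₂.det ≠ 0)
    (hh1 : ∀ a b, G₁ a b = (G₁ b a) ^ q) (hh2 : ∀ a b, G₂ a b = (G₂ b a) ^ q)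
    (hid : ∀ x y : Fin 3 × Fin 3 → F,
      Cfsg.hermForm n F q (P.1 *ᵥ (x ∘ e)) (P.1 *ᵥ (y ∘ e)) =
        formOfGram (fun c : F => c ^ q) (G₁ ⊗ₖ G₂) x y) :
    ∃ (P' : GL (Fin n) F) (c : F), c ≠ 0 ∧ StdF q e P' c ∧
      tensorProductSubgroup 3 3 e P' = tensorProductSubgroup 3 3 e P := by
  classical
  have hdet1 : (1 : Matrix (Fin 3) (Fin 3) F).det ≠ 0 := by
    rw [Matrix.det_one]; exact one_ne_zero
  obtain ⟨A₁, c₁, hc₁, hA₁⟩ := Cfsg.Agent.Lib.Helper44.U9.NF3U hF 1 G₁ (NORM_one_herm hF) hh1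
    hdet1 hd1
  obtain ⟨A₂, c₂, hc₂, hA₂⟩ := Cfsg.Agent.Lib.Helper44.U9.NF3U hF 1 G₂ (NORM_one_herm hF) hh2
    hdet1 hd2
  obtain ⟨K, hK⟩ : ∃ K : GL (Fin 3 × Fin 3) F, K.1 = A₁.1 ⊗ₖ A₂.1 := by
    refine ⟨⟨A₁.1 ⊗ₖ A₂.1, (A₁⁻¹ : GL (Fin 3) F).1 ⊗ₖ (A₂⁻¹ : GL (Fin 3) F).1, ?_, ?_⟩, rfl⟩
    · rw [← Matrix.mul_kronecker_mul, ← Units.val_mul, ← Units.val_mul, mul_inv_cancel,
        mul_inv_cancel, Units.val_one, Matrix.one_kronecker_one]
    · rw [← Matrix.mul_kronecker_mul, ← Units.val_mul, ← Units.val_mul, inv_mul_cancel,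
        inv_mul_cancel, Units.val_one, Matrix.one_kronecker_one]
  have hKmem : K ∈ kroneckerSubgroup 3 3 F := ⟨A₁, A₂, hK⟩
  refine ⟨P * glReindex e.symm K, c₁ * c₂, mul_ne_zero hc₁ hc₂, ?_, ?_⟩
  · intro x y
    have hval : ((glReindex e.symm K : GL (Fin n) F) : Matrix (Fin n) (Fin n) F) =
        (A₁.1 ⊗ₖ A₂.1).submatrix e e := by
      rw [← hK]
      ext i j
      simp [glReindex, Matrix.reindex_apply]
    have hmv : ∀ z : Fin 3 × Fin 3 → F,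
        ((P * glReindex e.symm K : GL (Fin n) F) : Matrix (Fin n) (Fin n) F) *ᵥ (z ∘ e) =
          P.1 *ᵥ (((A₁.1 ⊗ₖ A₂.1) *ᵥ z) ∘ e) := by
      intro z
      rw [Units.val_mul, ← Matrix.mulVec_mulVec, hval]
      congr 1
      rw [Matrix.submatrix_mulVec_equiv]
      congr 2
      ext u
      simp
    have hKK : (A₁.1 ⊗ₖ A₂.1)ᵀ * (G₁ ⊗ₖ G₂) * (A₁.1 ⊗ₖ A₂.1).map (fun c : F => c ^ q) =
        (c₁ * c₂) • (1 : Matrix (Fin 3 × Fin 3) (Fin 3 × Fin 3) F) := by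
      have h1 : (A₁.1 ⊗ₖ A₂.1)ᵀ = A₁.1ᵀ ⊗ₖ A₂.1ᵀ := by
        ext ⟨i, j⟩ ⟨k, l⟩
        rfl
      have h2 : (A₁.1 ⊗ₖ A₂.1).map (fun c : F => c ^ q) =
          (A₁.1.map (fun c : F => c ^ q)) ⊗ₖ (A₂.1.map (fun c : F => c ^ q)) := by
        ext ⟨i, j⟩ ⟨k, l⟩
        simp only [Matrix.map_apply, Matrix.kroneckerMap_apply, mul_pow]
      rw [h1, h2, ← Matrix.mul_kronecker_mul, ← Matrix.mul_kronecker_mul, hA₁, hA₂,
        Matrix.smul_kronecker, Matrix.kronecker_smul, Matrix.one_kronecker_one, smul_smul]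
    rw [hmv x, hmv y, hid, Cfsg.Agent.Lib.Helper44.U9.TSQU_conj hF, hKK]
    unfold formOfGram
    rw [Finset.mul_sum]
    refine Finset.sum_congr rfl (fun a _ => ?_)
    rw [Finset.sum_eq_single a]
    · rw [Matrix.smul_apply, Matrix.one_apply_eq, smul_eq_mul, mul_one]
      beta_reduce
      ring
    · intro b _ hb
      rw [Matrix.smul_apply, Matrix.one_apply_ne hb.symm, smul_zero, mul_zero, zero_mul]
    · intro h; exact absurd (Finset.mem_univ _) h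
  · unfold tensorProductSubgroup
    exact Cfsg.Agent.Lib.Helper44.O9.TSQ_map_conj _ P _ (Subgroup.mem_map_of_mem _ hKmem)

end Cfsg.Agent.Lib.Helper44.BAD
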