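import Cfsg.Agent.Lib.Helper29.Bender2

set_option autoImplicit false
open scoped commutatorElement Pointwise
open Cfsg
open Cfsg.Agent.Lib

namespace Cfsg.Agent.Lib.Helper29

universe u

section Prim

variable {G : Type u} [Group G]

/-- one half of the primitive-pair condition: a nontrivial subgroup of `A ⊓ B` normalized by `A`
has its normalizer in `B` contained in `A` -/
def PrimTo (A B : Subgroup G) : Prop :=
  ∀ X : Subgroup G, X ≠ ⊥ → X ≤ A ⊓ B → A ≤ Subgroup.normalizer (X : Set G) →
    B ⊓ Subgroup.normalizer (X : Set G) ≤ A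

/-- Bender's lemma for a pair `A`, `B` with the one-sided primitivity condition `PrimTo A B`:
`S ≤ F*(A)` subnormal in `F*(A)` with `C_{F*(A)}(S) ≤ S`, and `S ≤ B`. -/
theorem bender_prim [Finite G] (A : Subgroup G)
    (S : Subgroup G) (hSF : S ≤ (generalizedFittingSubgroup ↥A).map A.subtype)
    (hSsn : (S.subgroupOf ((generalizedFittingSubgroup ↥A).map A.subtype)).IsSubnormal)
    (hSC : (generalizedFittingSubgroup ↥A).map A.subtype ⊓ Subgroup.centralizer (S : Set G) ≤ S)
    (B : Subgroup G) (hSB : S ≤ B) (hprim : PrimTo A B) :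
    (∀ q : ℕ, q.Prime → ¬ q ∣ Nat.card (fittingSubgroup ↥A) →
      (pCore q ↥B).map B.subtype ⊓ A = ⊥) ∧
    (∀ p : ℕ, p.Prime → p ∣ Nat.card (fittingSubgroup ↥A) →
      ∀ x ∈ (pCore p ↥B).map B.subtype,
        ∀ y ∈ (pResidual p ↥(generalizedFittingSubgroup ↥A)).map
          ((generalizedFittingSubgroup ↥A).subtype), x * (A.subtype y) = (A.subtype y) * x) := by
  have hFn : (generalizedFittingSubgroup ↥A).Normal := Helper30.genFitting_normal
  have hFA : (generalizedFittingSubgroup ↥A).map A.subtype ≤ A := Subgroup.map_subtype_le _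
  have hSA : S ≤ A := hSF.trans hFA
  obtain ⟨S₀, hS₀⟩ : ∃ S₀ : Subgroup ↥A, S₀ = S.subgroupOf A := ⟨_, rfl⟩
  have hS₀map : S₀.map A.subtype = S := by
    rw [hS₀]; exact Subgroup.map_subgroupOf_eq_of_le hSA
  have hsn : S₀.IsSubnormal := by
    rw [hS₀]; exact isSubnormal_subgroupOf_of_map hFn hSF hSsn
  have hle : S₀ ≤ generalizedFittingSubgroup ↥A := by
    rw [← Subgroup.map_le_map_iff_of_injective A.subtype_injective, hS₀map]; exact hSF
  have hC : generalizedFittingSubgroup ↥A ⊓ Subgroup.centralizer (S₀ : Set ↥A) ≤ S₀ := by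
    intro x hx
    obtain ⟨hx1, hx2⟩ := Subgroup.mem_inf.mp hx
    rw [hS₀, Subgroup.mem_subgroupOf]
    apply hSC
    refine Subgroup.mem_inf.mpr ⟨Subgroup.mem_map_of_mem _ hx1, ?_⟩
    rw [Subgroup.mem_centralizer_iff]
    intro s hs
    have hs0 : (⟨s, hSA hs⟩ : ↥A) ∈ S₀ := by rw [hS₀]; exact Subgroup.mem_subgroupOf.mpr hs
    exact congrArg Subtype.val (Subgroup.mem_centralizer_iff.mp hx2 _ hs0)
  have hBn : ∀ r : ℕ,
      B ≤ Subgroup.normalizer (((pCore r ↥B).map B.subtype : Subgroup G) : Set G) := by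
    intro r
    have := Helper30.pCore_normal r ↥B
    exact le_normalizer_map_subtype _
  have hAA : A ≤ Subgroup.normalizer (A : Set G) := Subgroup.le_normalizer
  constructor
  · intro q hq hqF
    have : Fact q.Prime := ⟨hq⟩
    obtain ⟨Q, hQ⟩ : ∃ Q : Subgroup G, Q = (pCore q ↥B).map B.subtype ⊓ A := ⟨_, rfl⟩
    rw [← hQ]
    have hQA : Q ≤ A := by rw [hQ]; exact inf_le_right
    have hQp : IsPGroup q Q := by
      rw [hQ]; exact ((Helper30.pCore_isPGroup q).map B.subtype).to_le inf_le_left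
    have hSQ : S ≤ Subgroup.normalizer (Q : Set G) := by
      rw [hQ]; exact le_normalizer_inf' (hSB.trans (hBn q)) (hSA.trans hAA)
    have hQ₀ : Q.subgroupOf A = ⊥ := by
      apply qgroup_eq_bot_of_normalized hsn hle hC q hqF hQp.comap_subtype
      rw [hS₀]
      exact subgroupOf_le_normalizer_subgroupOf hQA hSQ
    exact (Subgroup.subgroupOf_eq_bot.mp hQ₀).eq_bot_of_le hQA
  · intro p hp hpF
    have : Fact p.Prime := ⟨hp⟩
    obtain ⟨P, hPdef⟩ : ∃ P : Subgroup G, P = (pCore p ↥B).map B.subtype := ⟨_, rfl⟩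
    obtain ⟨D, hDdef⟩ : ∃ D : Subgroup G, D = (pCore p ↥A).map A.subtype := ⟨_, rfl⟩
    obtain ⟨K₀, hK₀⟩ : ∃ K₀ : Subgroup ↥A, K₀ =
      (pResidual p ↥(generalizedFittingSubgroup ↥A)).map
        (generalizedFittingSubgroup ↥A).subtype := ⟨_, rfl⟩
    rw [← hPdef, ← hK₀]
    suffices hmain : P ≤ Subgroup.centralizer ((K₀.map A.subtype : Subgroup G) : Set G) by
      intro x hx y hy
      exact (Subgroup.mem_centralizer_iff.mp (hmain hx) _ (Subgroup.mem_map_of_mem _ hy)).symm
    have hPp : IsPGroup p P := by rw [hPdef]; exact (Helper30.pCore_isPGroup p).map B.subtype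
    have hDp : IsPGroup p D := by rw [hDdef]; exact (Helper30.pCore_isPGroup p).map A.subtype
    have hDA : D ≤ A := by rw [hDdef]; exact Subgroup.map_subtype_le _
    have hSP : S ≤ Subgroup.normalizer (P : Set G) := by rw [hPdef]; exact hSB.trans (hBn p)
    have hAD : A ≤ Subgroup.normalizer (D : Set G) := by
      have := Helper30.pCore_normal p ↥A
      rw [hDdef]; exact le_normalizer_map_subtype _
    -- the `p`-core of `A` centralizes `K`
    have hDK : D ≤ Subgroup.centralizer ((K₀.map A.subtype : Subgroup G) : Set G) := by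
      apply le_centralizer_map_of_subgroupOf hDA
      have e : D.subgroupOf A = pCore p ↥A := by
        rw [hDdef]; exact Subgroup.comap_map_eq_self_of_injective A.subtype_injective _
      rw [e, hK₀]
      apply pgroup_centralizes_pResidual hsn hle hC p (Helper30.pCore_isPGroup p)
      have := Helper30.pCore_normal p ↥A
      rw [Subgroup.normalizer_eq_top]; exact le_top
    -- `p'`-elements of `S` lie in `K`
    have hSK : ∀ w ∈ S, (orderOf w).Coprime p → w ∈ K₀.map A.subtype := by
      intro w hw hwo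
      obtain ⟨w₀, hw₀, rfl⟩ := hSF hw
      refine Subgroup.mem_map_of_mem _ ?_
      rw [hK₀]
      refine ⟨⟨w₀, hw₀⟩, ?_, rfl⟩
      apply Subgroup.subset_closure
      show (orderOf (⟨w₀, hw₀⟩ : ↥(generalizedFittingSubgroup ↥A))).Coprime p
      have h1 : orderOf (A.subtype w₀) = orderOf w₀ := Subgroup.orderOf_coe w₀
      rw [Subgroup.orderOf_mk, ← h1]
      exact hwo
    -- the subgroup `Z`
    have hpcore_ne : pCore p ↥A ≠ ⊥ := by
      obtain ⟨x, hx⟩ := exists_prime_orderOf_dvd_card' (G := ↥(fittingSubgroup ↥A)) p hpF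
      have hxo : orderOf (x : ↥A) = p ^ 1 := by rw [Subgroup.orderOf_coe, hx, pow_one]
      have hmem := mem_pCore_of_mem_fitting p x.2 hxo
      intro h
      rw [h, Subgroup.mem_bot] at hmem
      rw [hmem, orderOf_one, pow_one] at hxo
      exact (Fact.out : p.Prime).one_lt.ne hxo
    obtain ⟨Z₀, hZ₀⟩ : ∃ Z₀ : Subgroup ↥A, Z₀ = pCore p ↥A ⊓
      Subgroup.centralizer (generalizedFittingSubgroup ↥A : Set ↥A) := ⟨_, rfl⟩
    have hZ₀ne : Z₀ ≠ ⊥ := by
      rw [hZ₀]
      exact inf_centralizer_genFitting_ne_bot (Helper30.pCore_normal p ↥A)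
        (Helper30.pCore_le_fitting p) hpcore_ne
    have hZ₀n : Z₀.Normal := by
      have := Helper30.pCore_normal p ↥A
      rw [hZ₀]; infer_instance
    have hZ₀S : Z₀ ≤ S₀ := by
      intro z hz
      rw [hZ₀] at hz
      obtain ⟨hz1, hz2⟩ := Subgroup.mem_inf.mp hz
      apply hC
      exact Subgroup.mem_inf.mpr ⟨Helper30.fitting_le_genFitting
        (Helper30.pCore_le_fitting p hz1), Subgroup.centralizer_le hle hz2⟩
    obtain ⟨Z, hZ⟩ : ∃ Z : Subgroup G, Z = Z₀.map A.subtype := ⟨_, rfl⟩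
    have hZne : Z ≠ ⊥ := by
      rw [hZ, Ne, Subgroup.map_eq_bot_iff_of_injective _ A.subtype_injective]; exact hZ₀ne
    have hZA : Z ≤ A := by rw [hZ]; exact Subgroup.map_subtype_le _
    have hAZ : A ≤ Subgroup.normalizer (Z : Set G) := by
      rw [hZ]; exact le_normalizer_map_subtype _
    have hZS : Z ≤ S ⊓ D := by
      rw [hZ]
      apply le_inf
      · rw [← hS₀map]; exact Subgroup.map_mono hZ₀S
      · rw [hDdef]; apply Subgroup.map_mono; rw [hZ₀]; exact inf_le_left
    have hPB : P ≤ B := by rw [hPdef]; exact Subgroup.map_subtype_le _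
    have hNZ : B ⊓ Subgroup.normalizer (Z : Set G) ≤ A :=
      hprim Z hZne (le_inf hZA ((hZS.trans inf_le_left).trans hSB)) hAZ
    -- the subgroup `P₁ = C_P(S ∩ D)`
    obtain ⟨P₁, hP₁⟩ : ∃ P₁ : Subgroup G, P₁ = P ⊓
      Subgroup.centralizer ((S ⊓ D : Subgroup G) : Set G) := ⟨_, rfl⟩
    have hP₁A : P₁ ≤ A := by
      rw [hP₁]
      exact (le_inf (inf_le_left.trans hPB) (inf_le_right.trans ((Subgroup.centralizer_le hZS).trans
        (Subgroup.centralizer_le_normalizer _)))).trans hNZ
    have hSP₁ : S ≤ Subgroup.normalizer (P₁ : Set G) := by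
      rw [hP₁]
      apply le_normalizer_inf' hSP
      exact (le_normalizer_inf' Subgroup.le_normalizer (hSA.trans hAD)).trans
        (normalizer_le_normalizer_centralizer _)
    have hP₁p : IsPGroup p P₁ := by rw [hP₁]; exact hPp.to_le inf_le_left
    have hP₁K : P₁ ≤ Subgroup.centralizer ((K₀.map A.subtype : Subgroup G) : Set G) := by
      apply le_centralizer_map_of_subgroupOf hP₁A
      rw [hK₀]
      apply pgroup_centralizes_pResidual hsn hle hC p hP₁p.comap_subtype
      rw [hS₀]; exact subgroupOf_le_normalizer_subgroupOf hP₁A hSP₁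
    -- `p'`-elements of `S` centralize `P`
    have hSp' : ∀ w ∈ S, (orderOf w).Coprime p → w ∈ Subgroup.centralizer (P : Set G) := by
      intro w hw hwo
      have hwK := hSK w hw hwo
      have h1 : ∀ q ∈ P, Commute w q := by
        apply Helper30.thompson_AxB p hPp (hDp.to_le inf_le_right) (inf_le_left.trans hSP)
          (hSP hw) hwo
        · intro b hb
          exact Subgroup.mem_centralizer_iff.mp (hDK (Subgroup.mem_inf.mp hb).2) w hwK
        · intro q hq
          rw [← hP₁] at hq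
          exact Subgroup.mem_centralizer_iff.mp (hP₁K hq) w hwK
      rw [Subgroup.mem_centralizer_iff]
      intro q hq
      exact ((h1 q hq).eq).symm
    -- a normal subgroup of `A` centralized by `P`
    obtain ⟨Φ', hΦ'⟩ : ∃ Φ' : Subgroup ↥A, Φ' = pPrimeCore p ↥A ⊓ fittingSubgroup ↥A :=
      ⟨_, rfl⟩
    have hΦ'n : Φ'.Normal := by
      have h1 := Helper30.pPrimeCore_normal p ↥A
      have h2 : (fittingSubgroup ↥A).Normal := Helper30.fitting_normal
      rw [hΦ']; infer_instance
    have hΦ'F : Φ' ≤ fittingSubgroup ↥A := by rw [hΦ']; exact inf_le_right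
    obtain ⟨X₀, hX₀⟩ : ∃ X₀ : Subgroup ↥A, X₀ = layer ↥A ⊔
      (Φ' ⊓ Subgroup.centralizer (generalizedFittingSubgroup ↥A : Set ↥A)) := ⟨_, rfl⟩
    have hX₀n : X₀.Normal := by
      have h1 : (layer ↥A).Normal := Helper30.layer_normal
      rw [hX₀]; infer_instance
    have hXP : X₀.map A.subtype ≤ Subgroup.centralizer (P : Set G) := by
      rw [hX₀, Subgroup.map_sup]
      apply sup_le
      · have hperf : ⁅(layer ↥A).map A.subtype, (layer ↥A).map A.subtype⁆ =
            (layer ↥A).map A.subtype := by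
          rw [← Subgroup.map_commutator, Helper30.layer_perfect]
        have hES : (layer ↥A).map A.subtype ≤ S := by
          rw [← hS₀map]; exact Subgroup.map_mono (layer_le_of_selfcentralizing hsn hC)
        refine (le_closure_pPrimeElts p hperf).trans ((Subgroup.closure_le _).mpr ?_)
        rintro g ⟨hgE, hgo⟩
        exact hSp' g (hES hgE) hgo
      · rintro _ ⟨z, hz, rfl⟩
        obtain ⟨hz1, hz2⟩ := Subgroup.mem_inf.mp hz
        rw [hΦ'] at hz1
        obtain ⟨hz3, hz4⟩ := Subgroup.mem_inf.mp hz1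
        apply hSp'
        · rw [← hS₀map]
          apply Subgroup.mem_map_of_mem
          apply hC
          exact Subgroup.mem_inf.mpr ⟨Helper30.fitting_le_genFitting hz4,
            Subgroup.centralizer_le hle hz2⟩
        · have h1 : orderOf z ∣ Nat.card (pPrimeCore p ↥A) := by
            have := orderOf_dvd_natCard (⟨z, hz3⟩ : ↥(pPrimeCore p ↥A))
            rwa [Subgroup.orderOf_mk] at this
          have h2 : orderOf (A.subtype z) = orderOf z := Subgroup.orderOf_coe z
          rw [h2]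
          exact Nat.Coprime.coprime_dvd_left h1 (Helper30.pPrimeCore_coprime p)
    by_cases hX : X₀ = ⊥
    · have hX' := hX
      rw [hX₀, sup_eq_bot_iff] at hX'
      have hE0 : layer ↥A = ⊥ := hX'.1
      have hΦ0 : Φ' = ⊥ := by
        by_contra hne
        exact inf_centralizer_genFitting_ne_bot hΦ'n hΦ'F hne hX'.2
      have hK0 : K₀ = ⊥ := by
        rw [hK₀, Subgroup.map_eq_bot_iff_of_injective _ (Subgroup.subtype_injective _)]
        unfold pResidual
        rw [Subgroup.closure_eq_bot_iff]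
        intro g hg
        rw [Set.mem_singleton_iff]
        have hg' : (orderOf g).Coprime p := hg
        have hgF : (g : ↥A) ∈ layer ↥A ⊔ fittingSubgroup ↥A := g.2
        rw [hE0, bot_sup_eq] at hgF
        have hgD := fitting_le_pCore_sup p hgF
        rw [← hΦ', hΦ0, sup_bot_eq] at hgD
        obtain ⟨k, hk⟩ := (Helper30.pCore_isPGroup p) ⟨(g : ↥A), hgD⟩
        have hgk : (g : ↥A) ^ p ^ k = 1 := by
          have h4 := congrArg Subtype.val hk
          rw [Subgroup.coe_pow, Subgroup.coe_one] at h4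
          exact h4
        have hgk' : g ^ p ^ k = 1 := by
          apply Subtype.ext
          rw [Subgroup.coe_pow, Subgroup.coe_one]; exact hgk
        have h5 : orderOf g ∣ p ^ k := orderOf_dvd_of_pow_eq_one hgk'
        exact orderOf_eq_one_iff.mp
          (Nat.Coprime.eq_one_of_dvd (Nat.Coprime.pow_right k hg') h5)
      rw [hK0, Subgroup.map_bot]
      intro x _
      rw [Subgroup.mem_centralizer_iff]
      intro h hh
      have hh1 : h = 1 := Subgroup.mem_bot.mp hh
      rw [hh1, one_mul, mul_one]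
    · have hXne : X₀.map A.subtype ≠ ⊥ := by
        rw [Ne, Subgroup.map_eq_bot_iff_of_injective _ A.subtype_injective]; exact hX
      have hX₀S : X₀ ≤ S₀ := by
        rw [hX₀]
        refine sup_le (layer_le_of_selfcentralizing hsn hC) ?_
        intro z hz
        obtain ⟨hz1, hz2⟩ := Subgroup.mem_inf.mp hz
        exact hC (Subgroup.mem_inf.mpr ⟨Helper30.fitting_le_genFitting (hΦ'F hz1),
          Subgroup.centralizer_le hle hz2⟩)
      have hXB : X₀.map A.subtype ≤ B := by
        refine (Subgroup.map_mono hX₀S).trans ?_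
        rw [hS₀map]; exact hSB
      have hNX : B ⊓ Subgroup.normalizer ((X₀.map A.subtype : Subgroup G) : Set G) ≤ A :=
        hprim _ hXne (le_inf (Subgroup.map_subtype_le _) hXB) (le_normalizer_map_subtype _)
      have hPA : P ≤ A :=
        (le_inf hPB ((Subgroup.le_centralizer_iff.mp hXP).trans
          (Subgroup.centralizer_le_normalizer _))).trans hNX
      apply le_centralizer_map_of_subgroupOf hPA
      rw [hK₀]
      apply pgroup_centralizes_pResidual hsn hle hC p hPp.comap_subtype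
      rw [hS₀]; exact subgroupOf_le_normalizer_subgroupOf hPA hSP


end Prim

section Main3

variable {G : Type u} [Group G] [Finite G]

/-- `bender_prim` for `S = F*(A)` -/
theorem bender_full' (A : Subgroup G) (B : Subgroup G) (hA : PrimTo A B)
    (hB : (generalizedFittingSubgroup ↥A).map A.subtype ≤ B) :
    (∀ q : ℕ, q.Prime → ¬ q ∣ Nat.card (fittingSubgroup ↥A) →
      (pCore q ↥B).map B.subtype ⊓ A = ⊥) ∧
    (∀ p : ℕ, p.Prime → p ∣ Nat.card (fittingSubgroup ↥A) →
      ∀ x ∈ (pCore p ↥B).map B.subtype,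
      ∀ y ∈ (pResidual p ↥(generalizedFittingSubgroup ↥A)).map
          ((generalizedFittingSubgroup ↥A).subtype),
        x * (A.subtype y) = (A.subtype y) * x) := by
  refine bender_prim A _ le_rfl ?_ inf_le_left B hB hA
  rw [Subgroup.subgroupOf_self]
  exact Subgroup.IsSubnormal.top

theorem pCore_le_centralizer_pNilCore' (A : Subgroup G) (B : Subgroup G) (hA : PrimTo A B)
    (hB : (generalizedFittingSubgroup ↥A).map A.subtype ≤ B) (p : ℕ) [hp : Fact p.Prime]
    (hpA : p ∣ Nat.card (fittingSubgroup ↥A)) :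
    (pCore p ↥B).map B.subtype ≤ Subgroup.centralizer ((pNilCore p A : Subgroup G) : Set G) := by
  intro x hx
  rw [Subgroup.mem_centralizer_iff]
  rintro _ ⟨v₀, hv₀, rfl⟩
  obtain ⟨hv1, hv2⟩ := Subgroup.mem_inf.mp hv₀
  have hvF : v₀ ∈ generalizedFittingSubgroup ↥A :=
    (le_sup_right : fittingSubgroup ↥A ≤ generalizedFittingSubgroup ↥A) hv2
  have ho : (orderOf v₀).Coprime p :=
    Nat.Coprime.coprime_dvd_left (Subgroup.orderOf_dvd_natCard _ hv1)
      (Helper30.pPrimeCore_coprime p)
  have hy : v₀ ∈ (pResidual p ↥(generalizedFittingSubgroup ↥A)).map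
      ((generalizedFittingSubgroup ↥A).subtype) := by
    refine ⟨⟨v₀, hvF⟩, Subgroup.subset_closure ?_, rfl⟩
    show (orderOf (⟨v₀, hvF⟩ : ↥(generalizedFittingSubgroup ↥A))).Coprime p
    rw [Subgroup.orderOf_mk]; exact ho
  exact ((bender_full' A B hA hB).2 p hp.out hpA x hx v₀ hy).symm

theorem exists_component_map_eq' (M N : Subgroup G) (hM : PrimTo M N)
    (h1 : (generalizedFittingSubgroup ↥M).map M.subtype ≤ N)
    (h2 : (generalizedFittingSubgroup ↥N).map N.subtype ≤ M)
    {L₀ : Subgroup ↥M} (hL₀ : IsComponent L₀) :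
    ∃ L₀' : Subgroup ↥N, IsComponent L₀' ∧ L₀'.map N.subtype = L₀.map M.subtype := by
  by_contra hcon
  push Not at hcon
  obtain ⟨L, hL⟩ : ∃ L : Subgroup G, L = L₀.map M.subtype := ⟨_, rfl⟩
  rw [← hL] at hcon
  have hLM : L ≤ M := by rw [hL]; exact Subgroup.map_subtype_le _
  have hLF : L ≤ (generalizedFittingSubgroup ↥M).map M.subtype := by
    rw [hL]; exact Subgroup.map_mono ((Helper30.comp_le_layer hL₀).trans le_sup_left)
  have hLN : L ≤ N := hLF.trans h1
  have hLperf : ⁅L, L⁆ = L := by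
    rw [hL, ← Subgroup.map_commutator, Helper30.comp_perfect hL₀]
  have hLne : L ≠ ⊥ := by
    rw [hL]
    intro h
    exact Helper30.comp_ne_bot hL₀
      ((Subgroup.map_eq_bot_iff_of_injective _ M.subtype_injective).mp h)
  have hLqs : IsQuasisimple ↥L := by
    rw [hL]
    exact Helper30.isQuasisimple_of_mulEquiv
      (L₀.equivMapOfInjective M.subtype M.subtype_injective) hL₀.2
  have hLsn : Helper66.SN L M := by
    unfold Helper66.SN
    rw [hL]
    have h3 : (L₀.map M.subtype).subgroupOf M = L₀ :=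
      Subgroup.comap_map_eq_self_of_injective M.subtype_injective L₀
    rw [h3]; exact hL₀.1
  -- every `O_r(N)` centralizes `L`
  have hcore : ∀ r : ℕ, r.Prime →
      (pCore r ↥N).map N.subtype ≤ Subgroup.centralizer (L : Set G) := by
    intro r hr
    have : Fact r.Prime := ⟨hr⟩
    have hQM : (pCore r ↥N).map N.subtype ≤ M :=
      (Subgroup.map_mono ((Helper30.pCore_le_fitting r).trans le_sup_right)).trans h2
    by_cases hdvd : r ∣ Nat.card (fittingSubgroup ↥M)
    · rw [Subgroup.le_centralizer_iff]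
      refine (le_closure_pPrimeElts r hLperf).trans ((Subgroup.closure_le _).mpr ?_)
      rintro g ⟨hgL, hgo⟩
      rw [hL] at hgL
      obtain ⟨g₀, hg₀, rfl⟩ := hgL
      have hgF : g₀ ∈ generalizedFittingSubgroup ↥M :=
        ((Helper30.comp_le_layer hL₀).trans le_sup_left) hg₀
      have hgo' : (orderOf g₀).Coprime r := by
        have h3 : orderOf (M.subtype g₀) = orderOf g₀ := Subgroup.orderOf_coe g₀
        rw [← h3]; exact hgo
      have hy : g₀ ∈ (pResidual r ↥(generalizedFittingSubgroup ↥M)).map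
          ((generalizedFittingSubgroup ↥M).subtype) := by
        refine ⟨⟨g₀, hgF⟩, Subgroup.subset_closure ?_, rfl⟩
        show (orderOf (⟨g₀, hgF⟩ : ↥(generalizedFittingSubgroup ↥M))).Coprime r
        rw [Subgroup.orderOf_mk]; exact hgo'
      rw [SetLike.mem_coe, Subgroup.mem_centralizer_iff]
      intro x hx
      exact (bender_full' M N hM h1).2 r hr hdvd x hx g₀ hy
    · have h3 := (bender_full' M N hM h1).1 r hr hdvd
      have h4 : (pCore r ↥N).map N.subtype = ⊥ := by
        rw [← h3]; exact (inf_eq_left.mpr hQM).symm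
      rw [h4]; exact bot_le
  have hFit : fittingSubgroup ↥N ≤
      Subgroup.centralizer ((L.subgroupOf N : Subgroup ↥N) : Set ↥N) := by
    apply fitting_le_centralizer_of_pCore
    intro r hr a ha
    rw [Subgroup.mem_centralizer_iff]
    intro w hw
    have h3 := Subgroup.mem_centralizer_iff.mp
      (hcore r hr (Subgroup.mem_map_of_mem N.subtype ha)) (w : G) (Subgroup.mem_subgroupOf.mp hw)
    exact Subtype.ext h3
  have hLay : layer ↥N ≤ Subgroup.centralizer ((L.subgroupOf N : Subgroup ↥N) : Set ↥N) := by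
    apply sSup_le
    intro L₀' hL₀'
    obtain ⟨L', hL'⟩ : ∃ L' : Subgroup G, L' = L₀'.map N.subtype := ⟨_, rfl⟩
    have hL'N : L' ≤ N := by rw [hL']; exact Subgroup.map_subtype_le _
    have hL'M : L' ≤ M := by
      rw [hL']
      exact (Subgroup.map_mono ((Helper30.comp_le_layer hL₀').trans le_sup_left)).trans h2
    have hL'qs : IsQuasisimple ↥L' := by
      rw [hL']
      exact Helper30.isQuasisimple_of_mulEquiv
        (L₀'.equivMapOfInjective N.subtype N.subtype_injective) hL₀'.2
    have hL'sn : Helper66.SN L' N := by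
      unfold Helper66.SN
      rw [hL']
      have h3 : (L₀'.map N.subtype).subgroupOf N = L₀' :=
        Subgroup.comap_map_eq_self_of_injective N.subtype_injective L₀'
      rw [h3]; exact hL₀'.1
    have hne : L' ≠ L := by rw [hL']; exact hcon L₀' hL₀'
    have hA := Helper66.comp_lemma_aux (Nat.card ↥(M ⊓ N)) (M ⊓ N) L L' le_rfl
      (le_inf hLM hLN) (le_inf hL'M hL'N) (Helper66.SN.of_le hLsn inf_le_left)
      (Helper66.SN.of_le hL'sn inf_le_right) (Helper66.qs_of_isQuasisimple hLqs)
    have hB := Helper66.comp_lemma_aux (Nat.card ↥(M ⊓ N)) (M ⊓ N) L' L le_rfl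
      (le_inf hL'M hL'N) (le_inf hLM hLN) (Helper66.SN.of_le hL'sn inf_le_right)
      (Helper66.SN.of_le hLsn inf_le_left) (Helper66.qs_of_isQuasisimple hL'qs)
    have hcomm : L' ≤ Subgroup.centralizer (L : Set G) := by
      rcases hA with hA | hA
      · rcases hB with hB | hB
        · exact absurd (le_antisymm hB hA) hne
        · exact Subgroup.commutator_eq_bot_iff_le_centralizer.mp hB
      · exact Subgroup.le_centralizer_iff.mp (Subgroup.commutator_eq_bot_iff_le_centralizer.mp hA)
    intro a ha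
    rw [Subgroup.mem_centralizer_iff]
    intro w hw
    have ha' : (a : G) ∈ L' := by rw [hL']; exact Subgroup.mem_map_of_mem N.subtype ha
    have h3 := Subgroup.mem_centralizer_iff.mp (hcomm ha') (w : G) (Subgroup.mem_subgroupOf.mp hw)
    exact Subtype.ext h3
  have hGF : generalizedFittingSubgroup ↥N ≤
      Subgroup.centralizer ((L.subgroupOf N : Subgroup ↥N) : Set ↥N) := sup_le hLay hFit
  have hLc : L.subgroupOf N ≤ generalizedFittingSubgroup ↥N :=
    (Subgroup.le_centralizer_iff.mp hGF).trans Helper30.centralizer_genFitting_le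
  have hab : ⁅L, L⁆ = ⊥ := by
    rw [Subgroup.commutator_eq_bot_iff_le_centralizer]
    intro a ha
    rw [Subgroup.mem_centralizer_iff]
    intro b hb
    have ha' : (⟨a, hLN ha⟩ : ↥N) ∈ L.subgroupOf N := Subgroup.mem_subgroupOf.mpr ha
    have hb' : (⟨b, hLN hb⟩ : ↥N) ∈ L.subgroupOf N := Subgroup.mem_subgroupOf.mpr hb
    have h3 := Subgroup.mem_centralizer_iff.mp (hGF (hLc ha')) _ hb'
    exact congrArg Subtype.val h3
  rw [hLperf] at hab
  exact hLne hab

theorem layer_map_le_layer_map' (M N : Subgroup G) (hM : PrimTo M N)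
    (h1 : (generalizedFittingSubgroup ↥M).map M.subtype ≤ N)
    (h2 : (generalizedFittingSubgroup ↥N).map N.subtype ≤ M) :
    (layer ↥M).map M.subtype ≤ (layer ↥N).map N.subtype := by
  rw [Subgroup.map_le_iff_le_comap]
  apply sSup_le
  intro L₀ hL₀
  obtain ⟨L₀', hL₀', he⟩ := exists_component_map_eq' M N hM h1 h2 hL₀
  rw [← Subgroup.map_le_iff_le_comap, ← he]
  exact Subgroup.map_mono (Helper30.comp_le_layer hL₀')

theorem layer_eq_bot_of_bender' (M N : Subgroup G) (hM : PrimTo M N) (hN : PrimTo N M)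
    (hMN : M ≠ N)
    (h1 : (generalizedFittingSubgroup ↥M).map M.subtype ≤ N)
    (h2 : (generalizedFittingSubgroup ↥N).map N.subtype ≤ M) : layer ↥M = ⊥ := by
  by_contra hne
  have he : (layer ↥M).map M.subtype = (layer ↥N).map N.subtype :=
    le_antisymm (layer_map_le_layer_map' M N hM h1 h2) (layer_map_le_layer_map' N M hN h2 h1)
  have hE : (layer ↥M).map M.subtype ≠ ⊥ := by
    intro h
    exact hne ((Subgroup.map_eq_bot_iff_of_injective _ M.subtype_injective).mp h)
  have hnM : (layer ↥M).Normal := Helper30.layer_normal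
  have hnN : (layer ↥N).Normal := Helper30.layer_normal
  have hEM : (layer ↥M).map M.subtype ≤ M := Subgroup.map_subtype_le _
  have hEN : (layer ↥M).map M.subtype ≤ N := by rw [he]; exact Subgroup.map_subtype_le _
  have hMn : M ≤ Subgroup.normalizer (((layer ↥M).map M.subtype : Subgroup G) : Set G) :=
    le_normalizer_map_subtype _
  have hNn : N ≤ Subgroup.normalizer (((layer ↥M).map M.subtype : Subgroup G) : Set G) := by
    rw [he]; exact le_normalizer_map_subtype _
  have h3 : N ≤ M := (le_inf le_rfl hNn).trans (hM _ hE (le_inf hEM hEN) hMn)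
  have h4 : M ≤ N := (le_inf le_rfl hMn).trans (hN _ hE (le_inf hEN hEM) hNn)
  exact hMN (le_antisymm h4 h3)

theorem dvd_card_fitting_of_bender' (M N : Subgroup G) (hM : PrimTo M N)
    (h1 : (generalizedFittingSubgroup ↥M).map M.subtype ≤ N)
    (h2 : (generalizedFittingSubgroup ↥N).map N.subtype ≤ M)
    {q : ℕ} (hq : q.Prime) (hqN : q ∣ Nat.card (fittingSubgroup ↥N)) :
    q ∣ Nat.card (fittingSubgroup ↥M) := by
  by_contra hdvd
  have : Fact q.Prime := ⟨hq⟩
  have h3 := (bender_full' M N hM h1).1 q hq hdvd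
  have hQM : (pCore q ↥N).map N.subtype ≤ M :=
    (Subgroup.map_mono ((Helper30.pCore_le_fitting q).trans le_sup_right)).trans h2
  have h4 : (pCore q ↥N).map N.subtype = ⊥ := by
    rw [← h3]; exact (inf_eq_left.mpr hQM).symm
  exact pCore_ne_bot_of_dvd q hqN
    ((Subgroup.map_eq_bot_iff_of_injective _ N.subtype_injective).mp h4)

theorem bender_T_argument' (M N : Subgroup G) (hM : PrimTo M N) (hN : PrimTo N M) (hMN : M ≠ N)
    (h1 : (generalizedFittingSubgroup ↥M).map M.subtype ≤ N)
    (h2 : (generalizedFittingSubgroup ↥N).map N.subtype ≤ M)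
    (hEM : layer ↥M = ⊥) (hEN : layer ↥N = ⊥) (p : ℕ) [hp : Fact p.Prime]
    (hpM : p ∣ Nat.card (fittingSubgroup ↥M)) (hpN : p ∣ Nat.card (fittingSubgroup ↥N))
    (hYM : pNilCore p M ≠ ⊥) (hYN : pNilCore p N ≠ ⊥) : False := by
  obtain ⟨P, hPdef⟩ : ∃ P : Subgroup G, P = (pCore p ↥M).map M.subtype := ⟨_, rfl⟩
  obtain ⟨Q, hQdef⟩ : ∃ Q : Subgroup G, Q = (pCore p ↥N).map N.subtype := ⟨_, rfl⟩
  obtain ⟨Y, hYdef⟩ : ∃ Y : Subgroup G, Y = pNilCore p M := ⟨_, rfl⟩
  obtain ⟨Y', hY'def⟩ : ∃ Y' : Subgroup G, Y' = pNilCore p N := ⟨_, rfl⟩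
  rw [← hYdef] at hYM
  rw [← hY'def] at hYN
  have hPM : P ≤ M := by rw [hPdef]; exact Subgroup.map_subtype_le _
  have hQN : Q ≤ N := by rw [hQdef]; exact Subgroup.map_subtype_le _
  have hQM : Q ≤ M := by
    rw [hQdef]
    exact (Subgroup.map_mono ((Helper30.pCore_le_fitting p).trans le_sup_right)).trans h2
  have hPN : P ≤ N := by
    rw [hPdef]
    exact (Subgroup.map_mono ((Helper30.pCore_le_fitting p).trans le_sup_right)).trans h1
  have hYM' : Y ≤ M := by rw [hYdef]; exact pNilCore_le p M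
  have hY'N : Y' ≤ N := by rw [hY'def]; exact pNilCore_le p N
  have hYN' : Y ≤ N := by
    rw [hYdef]; exact (Subgroup.map_mono (inf_le_right.trans le_sup_right)).trans h1
  have hY'M : Y' ≤ M := by
    rw [hY'def]; exact (Subgroup.map_mono (inf_le_right.trans le_sup_right)).trans h2
  have hPne : P ≠ ⊥ := by
    rw [hPdef]; intro h
    exact pCore_ne_bot_of_dvd p hpM
      ((Subgroup.map_eq_bot_iff_of_injective _ M.subtype_injective).mp h)
  have hQne : Q ≠ ⊥ := by
    rw [hQdef]; intro h
    exact pCore_ne_bot_of_dvd p hpN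
      ((Subgroup.map_eq_bot_iff_of_injective _ N.subtype_injective).mp h)
  have hnP : (pCore p ↥M).Normal := Helper30.pCore_normal p ↥M
  have hnQ : (pCore p ↥N).Normal := Helper30.pCore_normal p ↥N
  have hMP : M ≤ Subgroup.normalizer (P : Set G) := by
    rw [hPdef]; exact le_normalizer_map_subtype _
  have hNQ : N ≤ Subgroup.normalizer (Q : Set G) := by
    rw [hQdef]; exact le_normalizer_map_subtype _
  have hMY : M ≤ Subgroup.normalizer (Y : Set G) := by
    rw [hYdef]; exact Subgroup.le_normalizer.trans (normalizer_le_normalizer_pNilCore p M)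
  have hNY' : N ≤ Subgroup.normalizer (Y' : Set G) := by
    rw [hY'def]; exact Subgroup.le_normalizer.trans (normalizer_le_normalizer_pNilCore p N)
  have hNP : N ⊓ Subgroup.normalizer (P : Set G) ≤ M := hM P hPne (le_inf hPM hPN) hMP
  have hNQ' : M ⊓ Subgroup.normalizer (Q : Set G) ≤ N := hN Q hQne (le_inf hQN hQM) hNQ
  have hNYM : N ⊓ Subgroup.normalizer (Y : Set G) ≤ M := hM Y hYM (le_inf hYM' hYN') hMY
  have hNY'N : M ⊓ Subgroup.normalizer (Y' : Set G) ≤ N :=
    hN Y' hYN (le_inf hY'N hY'M) hNY'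
  obtain ⟨C, hCdef⟩ : ∃ C : Subgroup G, C = M ⊓ Subgroup.centralizer (Y : Set G) := ⟨_, rfl⟩
  obtain ⟨C', hC'def⟩ : ∃ C' : Subgroup G, C' = N ⊓ Subgroup.centralizer (Y' : Set G) :=
    ⟨_, rfl⟩
  have hCM : C ≤ M := by rw [hCdef]; exact inf_le_left
  have hC'N : C' ≤ N := by rw [hC'def]; exact inf_le_left
  have hCY : C ≤ Subgroup.centralizer (Y : Set G) := by rw [hCdef]; exact inf_le_right
  have hC'Y' : C' ≤ Subgroup.centralizer (Y' : Set G) := by rw [hC'def]; exact inf_le_right
  have hPY : P ≤ Subgroup.centralizer (Y : Set G) := by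
    rw [hPdef, hYdef]
    rintro _ ⟨a, ha, rfl⟩
    rw [Subgroup.mem_centralizer_iff]
    rintro _ ⟨y, hy, rfl⟩
    have h3 := Helper30.pPrimeCore_commute_pCore p y (Subgroup.mem_inf.mp hy).1 a ha
    exact congrArg Subtype.val h3.eq
  have hQY' : Q ≤ Subgroup.centralizer (Y' : Set G) := by
    rw [hQdef, hY'def]
    rintro _ ⟨a, ha, rfl⟩
    rw [Subgroup.mem_centralizer_iff]
    rintro _ ⟨y, hy, rfl⟩
    have h3 := Helper30.pPrimeCore_commute_pCore p y (Subgroup.mem_inf.mp hy).1 a ha
    exact congrArg Subtype.val h3.eq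
  have hQY : Q ≤ Subgroup.centralizer (Y : Set G) := by
    rw [hQdef, hYdef]; exact pCore_le_centralizer_pNilCore' M N hM h1 p hpM
  have hPY' : P ≤ Subgroup.centralizer (Y' : Set G) := by
    rw [hPdef, hY'def]; exact pCore_le_centralizer_pNilCore' N M hN h2 p hpN
  have hPC : P ≤ C := by rw [hCdef]; exact le_inf hPM hPY
  have hQC : Q ≤ C := by rw [hCdef]; exact le_inf hQM hQY
  have hPp : IsPGroup p P := by rw [hPdef]; exact (Helper30.pCore_isPGroup p).map _
  have hQp : IsPGroup p Q := by rw [hQdef]; exact (Helper30.pCore_isPGroup p).map _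
  have hQPp : IsPGroup p ↥(Q ⊔ P) := IsPGroup.to_sup_of_normal_right' hQp hPp (hQM.trans hMP)
  obtain ⟨T, hT, hQPT⟩ := Helper32.exists_sylSet_ge hQPp (sup_le hQC hPC)
  have hTC : T ≤ C := hT.1
  have hTp : IsPGroup p T := Helper32.isPGroup_of_mem_sylSet hT
  have hPT : P ≤ T := le_sup_right.trans hQPT
  have hQT : Q ≤ T := le_sup_left.trans hQPT
  have hYc : (Nat.card Y).Coprime p := by rw [hYdef]; exact pNilCore_card_coprime p M
  have hY'c : (Nat.card Y').Coprime p := by rw [hY'def]; exact pNilCore_card_coprime p N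
  have hTY' : T ≤ Subgroup.centralizer (Y' : Set G) := by
    refine pSubgroup_le_centralizer p hEM hY'M hY'c ?_ hTp (hTC.trans hCM) ?_ ?_
    · rw [← hPdef, Subgroup.le_centralizer_iff]; exact hPY'
    · rw [← hPdef]; exact hPT
    · rw [← hYdef]; exact hTC.trans hCY
  have hTN : T ≤ N :=
    (le_inf (hTC.trans hCM) (hTY'.trans (Subgroup.centralizer_le_normalizer _))).trans hNY'N
  have hTC' : T ≤ C' := by rw [hC'def]; exact le_inf hTN hTY'
  obtain ⟨T', hT', hTT'⟩ := Helper32.exists_sylSet_ge hTp hTC'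
  have hT'p : IsPGroup p T' := Helper32.isPGroup_of_mem_sylSet hT'
  have hT'Y : T' ≤ Subgroup.centralizer (Y : Set G) := by
    refine pSubgroup_le_centralizer p hEN hYN' hYc ?_ hT'p (hT'.1.trans hC'N) ?_ ?_
    · rw [← hQdef, Subgroup.le_centralizer_iff]; exact hQY
    · rw [← hQdef]; exact hQT.trans hTT'
    · rw [← hY'def]; exact hT'.1.trans hC'Y'
  have hT'M : T' ≤ M :=
    (le_inf (hT'.1.trans hC'N) (hT'Y.trans (Subgroup.centralizer_le_normalizer _))).trans hNYM
  have hT'C : T' ≤ C := by rw [hCdef]; exact le_inf hT'M hT'Y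
  have hTeq : T' = T := Helper32.sylSet_eq_of_le hT hT'p hT'C hTT'
  rw [hTeq] at hT'
  obtain ⟨K, hKdef⟩ : ∃ K : Subgroup G, K = M ⊓ Subgroup.centralizer (T : Set G) := ⟨_, rfl⟩
  have hKM : K ≤ M := by rw [hKdef]; exact inf_le_left
  have hKT : K ≤ Subgroup.centralizer (T : Set G) := by rw [hKdef]; exact inf_le_right
  have hKP : K ≤ Subgroup.centralizer (P : Set G) := hKT.trans (Subgroup.centralizer_le hPT)
  have hKQ : K ≤ Subgroup.centralizer (Q : Set G) := hKT.trans (Subgroup.centralizer_le hQT)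
  have hKN : K ≤ N :=
    (le_inf hKM (hKQ.trans (Subgroup.centralizer_le_normalizer _))).trans hNQ'
  have hKeq : K = N ⊓ Subgroup.centralizer (T : Set G) := by
    apply le_antisymm
    · exact le_inf hKN hKT
    · rw [hKdef]
      refine le_inf ?_ inf_le_right
      exact (le_inf inf_le_left (inf_le_right.trans ((Subgroup.centralizer_le hPT).trans
        (Subgroup.centralizer_le_normalizer _)))).trans hNP
  obtain ⟨R, hRdef⟩ : ∃ R : Subgroup G, R = pNilCore p K := ⟨_, rfl⟩
  have hYnil : Group.IsNilpotent ↥Y := by rw [hYdef]; exact pNilCore_isNilpotent p M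
  have hY'nil : Group.IsNilpotent ↥Y' := by rw [hY'def]; exact pNilCore_isNilpotent p N
  have hYK : Y ≤ K := by
    rw [hKdef]; exact le_inf hYM' (Subgroup.le_centralizer_iff.mp (hTC.trans hCY))
  have hY'K : Y' ≤ K := by
    rw [hKdef]; exact le_inf hY'M (Subgroup.le_centralizer_iff.mp hTY')
  have hYR : Y ≤ R := by rw [hRdef]; exact le_pNilCore p hYK (hKM.trans hMY) hYnil hYc
  have hY'R : Y' ≤ R := by rw [hRdef]; exact le_pNilCore p hY'K (hKN.trans hNY') hY'nil hY'c
  have hRK : R ≤ K := by rw [hRdef]; exact pNilCore_le p K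
  have hRne : R ≠ ⊥ := by
    intro h; rw [h, le_bot_iff] at hYR; exact hYM hYR
  have hRnil : Group.IsNilpotent ↥R := by rw [hRdef]; exact pNilCore_isNilpotent p K
  have hRc : (Nat.card R).Coprime p := by rw [hRdef]; exact pNilCore_card_coprime p K
  obtain ⟨V, hVdef⟩ : ∃ V : Subgroup G, V = R ⊓ Subgroup.centralizer (R : Set G) := ⟨_, rfl⟩
  have hVne : V ≠ ⊥ := by rw [hVdef]; exact inf_centralizer_ne_bot_of_isNilpotent hRnil hRne
  have hVR : V ≤ R := by rw [hVdef]; exact inf_le_left
  have hVcR : V ≤ Subgroup.centralizer (R : Set G) := by rw [hVdef]; exact inf_le_right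
  have hVY : V ≤ Y := by
    intro z hz
    rw [hYdef]
    refine mem_pNilCore_of_centralizes p hEM (hKM (hRK (hVR hz))) ?_ ?_ ?_
    · rw [← hPdef]; exact hKP (hRK (hVR hz))
    · rw [← hYdef]; exact Subgroup.centralizer_le hYR (hVcR hz)
    · exact Nat.Coprime.coprime_dvd_left (Subgroup.orderOf_dvd_natCard _ (hVR hz)) hRc
  have hVY' : V ≤ Y' := by
    intro z hz
    rw [hY'def]
    refine mem_pNilCore_of_centralizes p hEN (hKN (hRK (hVR hz))) ?_ ?_ ?_
    · rw [← hQdef]; exact hKQ (hRK (hVR hz))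
    · rw [← hY'def]; exact Subgroup.centralizer_le hY'R (hVcR hz)
    · exact Nat.Coprime.coprime_dvd_left (Subgroup.orderOf_dvd_natCard _ (hVR hz)) hRc
  have hKV : Subgroup.normalizer (K : Set G) ≤ Subgroup.normalizer (V : Set G) := by
    have h4 : Subgroup.normalizer (K : Set G) ≤ Subgroup.normalizer (R : Set G) := by
      rw [hRdef]; exact normalizer_le_normalizer_pNilCore p K
    have h5 : Subgroup.normalizer (R : Set G) ≤ Subgroup.normalizer (V : Set G) := by
      rw [hVdef]; exact le_normalizer_inf' le_rfl (normalizer_le_normalizer_centralizer R)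
    exact h4.trans h5
  have hMTV : M ⊓ Subgroup.normalizer (T : Set G) ≤ Subgroup.normalizer (V : Set G) := by
    refine le_trans ?_ hKV
    rw [hKdef]
    exact le_normalizer_inf' (inf_le_left.trans Subgroup.le_normalizer)
      (inf_le_right.trans (normalizer_le_normalizer_centralizer T))
  have hNTV : N ⊓ Subgroup.normalizer (T : Set G) ≤ Subgroup.normalizer (V : Set G) := by
    refine le_trans ?_ hKV
    rw [hKeq]
    exact le_normalizer_inf' (inf_le_left.trans Subgroup.le_normalizer)
      (inf_le_right.trans (normalizer_le_normalizer_centralizer T))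
  have hCV : C ≤ Subgroup.normalizer (V : Set G) :=
    hCY.trans ((Subgroup.centralizer_le hVY).trans (Subgroup.centralizer_le_normalizer _))
  have hC'V : C' ≤ Subgroup.normalizer (V : Set G) :=
    hC'Y'.trans ((Subgroup.centralizer_le hVY').trans (Subgroup.centralizer_le_normalizer _))
  have frat : ∀ (X D : Subgroup G), X ≤ Subgroup.normalizer (D : Set G) →
      T ∈ Helper32.sylSet p D → D ≤ X → D ≤ Subgroup.normalizer (V : Set G) →
      X ⊓ Subgroup.normalizer (T : Set G) ≤ Subgroup.normalizer (V : Set G) →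
      X ≤ Subgroup.normalizer (V : Set G) := by
    intro X D hXD hTD hDX hDV hXT g hg
    have h3 := Helper32.cj_mem_sylSet (hXD hg) hTD
    obtain ⟨n, hn, hn2⟩ := Helper32.sylSet_conj h3 hTD
    rw [← Helper32.cj_mul] at hn2
    have h4 : n * g ∈ Subgroup.normalizer (V : Set G) :=
      hXT (Subgroup.mem_inf.mpr ⟨mul_mem (hDX hn) hg, Helper32.cj_eq_self_iff.mp hn2⟩)
    have h5 : g = n⁻¹ * (n * g) := by group
    rw [h5]; exact mul_mem (inv_mem (hDV hn)) h4
  have hMV : M ≤ Subgroup.normalizer (V : Set G) := by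
    refine frat M C ?_ hT hCM hCV hMTV
    rw [hCdef]
    exact le_normalizer_inf' Subgroup.le_normalizer
      (hMY.trans (normalizer_le_normalizer_centralizer Y))
  have hNV : N ≤ Subgroup.normalizer (V : Set G) := by
    refine frat N C' ?_ hT' hC'N hC'V hNTV
    rw [hC'def]
    exact le_normalizer_inf' Subgroup.le_normalizer
      (hNY'.trans (normalizer_le_normalizer_centralizer Y'))
  have hVM : V ≤ M := hVY.trans hYM'
  have hVN : V ≤ N := hVY'.trans hY'N
  have h3 : N ≤ M := (le_inf le_rfl hNV).trans (hM V hVne (le_inf hVM hVN) hMV)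
  have h4 : M ≤ N := (le_inf le_rfl hMV).trans (hN V hVne (le_inf hVN hVM) hNV)
  exact hMN (le_antisymm h4 h3)

/-- **Bender's theorem on primitive pairs**: if `M ≠ N` satisfy both one-sided primitivity
conditions, `F*(M) ≤ N` and `F*(N) ≤ M`, then `F*(M)`, `F*(N)` are `p`-groups for one prime. -/
theorem bender_prim_pair (M N : Subgroup G) (hM : PrimTo M N) (hN : PrimTo N M)
    (hMN : M ≠ N)
    (h1 : (generalizedFittingSubgroup ↥M).map M.subtype ≤ N)
    (h2 : (generalizedFittingSubgroup ↥N).map N.subtype ≤ M) :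
    ∃ p : ℕ, p.Prime ∧ IsPGroup p ↥(generalizedFittingSubgroup ↥M) ∧
      IsPGroup p ↥(generalizedFittingSubgroup ↥N) := by
  have hEM : layer ↥M = ⊥ := layer_eq_bot_of_bender' M N hM hN hMN h1 h2
  have hEN : layer ↥N = ⊥ := layer_eq_bot_of_bender' N M hN hM (Ne.symm hMN) h2 h1
  have key : ∀ p : ℕ, p.Prime →
      (∀ r : ℕ, r.Prime → r ∣ Nat.card (fittingSubgroup ↥M) → r = p) →
      IsPGroup p ↥(generalizedFittingSubgroup ↥M) ∧
        IsPGroup p ↥(generalizedFittingSubgroup ↥N) := by
    intro p _ h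
    refine ⟨isPGroup_genFitting_of_unique_prime hEM p h,
      isPGroup_genFitting_of_unique_prime hEN p ?_⟩
    intro r hr hdvd
    exact h r hr (dvd_card_fitting_of_bender' M N hM h1 h2 hr hdvd)
  by_cases hex : ∃ p : ℕ, p.Prime ∧ p ∣ Nat.card (fittingSubgroup ↥M)
  · obtain ⟨p, hp, hpM⟩ := hex
    refine ⟨p, hp, key p hp ?_⟩
    intro r hr hrM
    by_contra hrp
    have : Fact p.Prime := ⟨hp⟩
    have hpN : p ∣ Nat.card (fittingSubgroup ↥N) :=
      dvd_card_fitting_of_bender' N M hN h2 h1 hp hpM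
    have hrN : r ∣ Nat.card (fittingSubgroup ↥N) :=
      dvd_card_fitting_of_bender' N M hN h2 h1 hr hrM
    have hYM : pNilCore p M ≠ ⊥ := by
      intro h
      exact pNil_ne_bot_of_dvd p hr hrp hrM
        ((Subgroup.map_eq_bot_iff_of_injective _ M.subtype_injective).mp h)
    have hYN : pNilCore p N ≠ ⊥ := by
      intro h
      exact pNil_ne_bot_of_dvd p hr hrp hrN
        ((Subgroup.map_eq_bot_iff_of_injective _ N.subtype_injective).mp h)
    exact bender_T_argument' M N hM hN hMN h1 h2 hEM hEN p hpM hpN hYM hYN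
  · refine ⟨2, Nat.prime_two, key 2 Nat.prime_two ?_⟩
    intro r hr hrM
    exact absurd ⟨r, hr, hrM⟩ hex

end Main3

end Cfsg.Agent.Lib.Helper29
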