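import Mathlib
import Cfsg.Agent.Lib.Helper61.BlkDefs

/-! S5634 (m ≥ 2) piece C: transport `U j l` to `U j' l'` by a block permutation element. -/

set_option autoImplicit false

namespace Cfsg.Agent.Lib.Helper61.Blk

open Matrix Cfsg.Agent.Lib.Helper97

section
variable {ι : Type} [Fintype ι] [DecidableEq ι] {F : Type*} [Field F] {t : ℕ}

/-- a permutation of `Fin t` sending the pair `(j', l')` to `(j, l)` -/
theorem blkC_exists_perm_pair {j l j' l' : Fin t} (hjl : j ≠ l) (hjl' : j' ≠ l') :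
    ∃ σ : Equiv.Perm (Fin t), σ j' = j ∧ σ l' = l := by
  refine ⟨Equiv.swap (Equiv.swap j' j l') l * Equiv.swap j' j, ?_, ?_⟩
  · rw [Equiv.Perm.mul_apply, Equiv.swap_apply_left]
    apply Equiv.swap_apply_of_ne_of_ne
    · intro h
      have h2 : Equiv.swap j' j (Equiv.swap j' j l') = Equiv.swap j' j j := by rw [← h]
      rw [Equiv.swap_apply_self, Equiv.swap_apply_right] at h2
      exact hjl' h2.symm
    · exact hjl
  · rw [Equiv.Perm.mul_apply, Equiv.swap_apply_left]

/-- C -/
theorem stepC (β : ι → Fin t) {X : Subgroup (GL ι F)} (hBP : BPm β X) {j l : Fin t}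
    (hjl : j ≠ l) (h : U β X j l) {j' l' : Fin t} (hjl' : j' ≠ l') : U β X j' l' := by
  obtain ⟨σ, hσj, hσl⟩ := blkC_exists_perm_pair hjl hjl'
  obtain ⟨g, hgX, hg1, hg2⟩ := hBP σ
  intro u' ψ' hu' hψ'
  have hu : InB β j ((g : Matrix ι ι F) *ᵥ u') := by
    intro i hi
    rw [Matrix.mulVec, dotProduct]
    apply Finset.sum_eq_zero
    intro k _
    by_cases hk : β k = j'
    · have : (g : Matrix ι ι F) i k = 0 := by
        by_contra hne
        have := hg1 i k hne
        rw [hk, hσj] at this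
        exact hi this
      rw [this, zero_mul]
    · rw [hu' k hk, mul_zero]
  have hψ : InB β l (ψ' ᵥ* ((g⁻¹ : GL ι F) : Matrix ι ι F)) := by
    intro k hk
    rw [Matrix.vecMul, dotProduct]
    apply Finset.sum_eq_zero
    intro i _
    by_cases hi : β i = l'
    · have : ((g⁻¹ : GL ι F) : Matrix ι ι F) i k = 0 := by
        by_contra hne
        have h3 := hg2 i k hne
        have h4 : σ (β i) = β k := by rw [h3]; simp
        rw [hi, hσl] at h4
        exact hk h4.symm
      rw [this, mul_zero]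
    · rw [hψ' i hi, zero_mul]
  have h1 := TM_conj (h _ _ hu hψ) hgX
  have h5 : ((g⁻¹ : GL ι F) : Matrix ι ι F) *ᵥ ((g : Matrix ι ι F) *ᵥ u') = u' := by
    rw [Matrix.mulVec_mulVec, ← Units.val_mul, inv_mul_cancel, Units.val_one, Matrix.one_mulVec]
  have h6 : (ψ' ᵥ* ((g⁻¹ : GL ι F) : Matrix ι ι F)) ᵥ* (g : Matrix ι ι F) = ψ' := by
    rw [Matrix.vecMul_vecMul, ← Units.val_mul, inv_mul_cancel, Units.val_one, Matrix.vecMul_one]
  rw [h5, h6] at h1
  exact h1

end

end Cfsg.Agent.Lib.Helper61.Blk
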