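import Mathlib
import Cfsg.Agent.Lib.Helper70.D11Defs

/-! S0679 piece ENUM: soundness of the recursive enumeration of involutions of `Fin 11`. -/

set_option autoImplicit false

namespace Cfsg.Agent.Lib.Helper29.D11

open Equiv Cfsg.Agent.Lib.Helper70.D11

namespace ENUMaux

theorem gt_eq (p i : ℕ) : gt p i = p / 16 ^ i % 16 := rfl

theorem beq_false_of_ne {a b : ℕ} (h : a ≠ b) : Nat.beq a b = false := by
  cases hb : Nat.beq a b
  · rfl
  · exact absurd (Nat.eq_of_beq_eq_true hb) h

theorem mk_eq (d0 d1 d2 d3 d4 d5 d6 d7 d8 d9 d10 : ℕ) :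
    mk d0 d1 d2 d3 d4 d5 d6 d7 d8 d9 d10 =
      d0 + 16 * (d1 + 16 * (d2 + 16 * (d3 + 16 * (d4 + 16 * (d5 + 16 * (d6 + 16 * (d7 + 16 *
        (d8 + 16 * (d9 + 16 * d10))))))))) := rfl

/-- the number with digit function `D` -/
def mkF (D : ℕ → ℕ) : ℕ := mk (D 0) (D 1) (D 2) (D 3) (D 4) (D 5) (D 6) (D 7) (D 8) (D 9) (D 10)

theorem mkF_eq_sum (D : ℕ → ℕ) : mkF D = ∑ j ∈ Finset.range 11, D j * 16 ^ j := by
  rw [mkF, mk_eq]
  simp only [Finset.sum_range_succ, Finset.sum_range_zero]
  ring

theorem mkF_congr (D D' : ℕ → ℕ) (h : ∀ j < 11, D j = D' j) : mkF D = mkF D' := by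
  unfold mkF
  rw [h 0 (by norm_num), h 1 (by norm_num), h 2 (by norm_num), h 3 (by norm_num),
    h 4 (by norm_num), h 5 (by norm_num), h 6 (by norm_num), h 7 (by norm_num),
    h 8 (by norm_num), h 9 (by norm_num), h 10 (by norm_num)]

theorem gt_mkF (D : ℕ → ℕ) (hD : ∀ j < 11, D j < 16) (i : ℕ) (hi : i < 11) :
    gt (mkF D) i = D i := by
  have h0 := hD 0 (by norm_num)
  have h1 := hD 1 (by norm_num)
  have h2 := hD 2 (by norm_num)
  have h3 := hD 3 (by norm_num)
  have h4 := hD 4 (by norm_num)
  have h5 := hD 5 (by norm_num)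
  have h6 := hD 6 (by norm_num)
  have h7 := hD 7 (by norm_num)
  have h8 := hD 8 (by norm_num)
  have h9 := hD 9 (by norm_num)
  have h10 := hD 10 (by norm_num)
  rw [gt_eq, mkF, mk_eq]
  interval_cases i <;> norm_num <;> omega

theorem mkF_replace (D D' : ℕ → ℕ) (k v : ℕ) (hk : k < 11) (hv : v < 11)
    (h : ∀ j < 11, D j = D' j + (if j = k then 15 - v else 0) +
      (if j = v ∧ v ≠ k then 15 - k else 0)) :
    mkF D - ((15 - v) * 16 ^ k + (if v = k then 0 else (15 - k) * 16 ^ v)) = mkF D' := by
  have h1 : mkF D = mkF D' + ((15 - v) * 16 ^ k + (if v = k then 0 else (15 - k) * 16 ^ v)) := by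
    rw [mkF_eq_sum, mkF_eq_sum]
    have h2 : ∀ j ∈ Finset.range 11, D j * 16 ^ j = D' j * 16 ^ j +
        (if j = k then (15 - v) * 16 ^ k else 0) +
        (if j = v then (if v = k then 0 else (15 - k) * 16 ^ v) else 0) := by
      intro j hj
      rw [h j (Finset.mem_range.mp hj)]
      by_cases h3 : j = k
      · by_cases h4 : j = v
        · have h5 : v = k := h4.symm.trans h3
          subst h3
          subst h5
          simp
          ring
        · have h5 : v ≠ k := fun h5 => h4 (h3.trans h5.symm)
          subst h3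
          simp [h4]
          ring
      · by_cases h4 : j = v
        · have h5 : v ≠ k := fun h5 => h3 (h4.trans h5)
          subst h4
          simp [h3]
          ring
        · simp [h3, h4]
    rw [Finset.sum_congr rfl h2, Finset.sum_add_distrib, Finset.sum_add_distrib,
      Finset.sum_ite_eq', Finset.sum_ite_eq', if_pos (Finset.mem_range.mpr hk),
      if_pos (Finset.mem_range.mpr hv)]
    ring
  rw [h1, Nat.add_sub_cancel]

/-! ### the table of an involution -/

theorem tv_lt (t : P11) (j : ℕ) : tv t j < 11 := by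
  unfold tv
  split_ifs with h
  · exact (t ⟨j, h⟩).2
  · norm_num

theorem tv_tv (t : P11) (ht : t * t = 1) (j : ℕ) (hj : j < 11) : tv t (tv t j) = j := by
  have h1 : tv t j = ((t ⟨j, hj⟩ : Fin 11) : ℕ) := by
    unfold tv
    rw [dif_pos hj]
  rw [h1]
  unfold tv
  rw [dif_pos (t ⟨j, hj⟩).2]
  have h2 : t (t ⟨j, hj⟩) = ⟨j, hj⟩ := by
    have := DFunLike.congr_fun ht ⟨j, hj⟩
    simpa using this
  simp [h2]

theorem pd_lt (t : P11) (k j : ℕ) : pd t k j < 16 := by
  unfold pd
  split_ifs
  · have := tv_lt t j
    omega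
  · norm_num

theorem part_eq (t : P11) (k : ℕ) : part t k = mkF (pd t k) := rfl

theorem gt_part (t : P11) (k j : ℕ) (hj : j < 11) : gt (part t k) j = pd t k j := by
  rw [part_eq]
  exact gt_mkF _ (fun i _ => pd_lt t k i) j hj

theorem part_eleven (t : P11) : part t 11 = code t := by
  unfold part code pd tv
  simp

theorem step_assigned (t : P11) (ht : t * t = 1) (k : ℕ) (hk : k < 11) (hlt : tv t k < k) :
    part t (k + 1) = part t k := by
  rw [part_eq, part_eq]
  apply mkF_congr
  intro j hj
  unfold pd
  by_cases hjk : j = k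
  · subst hjk
    rw [if_pos (Or.inl (Nat.lt_succ_self j)), if_pos (Or.inr hlt)]
  · by_cases hc : j < k ∨ tv t j < k
    · rw [if_pos hc, if_pos]
      rcases hc with hc | hc
      · exact Or.inl (by omega)
      · exact Or.inr (by omega)
    · rw [if_neg hc, if_neg]
      push Not at hc ⊢
      refine ⟨by omega, ?_⟩
      by_contra hcon
      have h1 : tv t j = k := by omega
      have h2 := tv_tv t ht j hj
      rw [h1] at h2
      omega

theorem step_unassigned (t : P11) (ht : t * t = 1) (k : ℕ) (hk : k < 11) (hge : k ≤ tv t k) :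
    part t k - ((15 - tv t k) * 16 ^ k + (if tv t k = k then 0 else (15 - k) * 16 ^ tv t k)) =
      part t (k + 1) := by
  rw [part_eq, part_eq]
  have hvlt := tv_lt t k
  have hvv := tv_tv t ht k hk
  apply mkF_replace _ _ k (tv t k) hk hvlt
  intro j hj
  by_cases hjk : j = k
  · subst hjk
    have h1 : pd t j j = 15 := by
      unfold pd
      rw [if_neg]
      push Not
      exact ⟨le_refl _, hge⟩
    have h2 : pd t (j + 1) j = tv t j := by
      unfold pd
      rw [if_pos (Or.inl (Nat.lt_succ_self j))]
    rw [h1, h2, if_pos rfl]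
    by_cases hv : tv t j = j
    · rw [if_neg (fun h => h.2 hv)]
      omega
    · rw [if_neg (fun h => hv h.1.symm)]
      omega
  · by_cases hjv : j = tv t k
    · have hvk : tv t k ≠ k := fun h => hjk (hjv.trans h)
      have h1 : pd t k j = 15 := by
        unfold pd
        rw [if_neg]
        push Not
        rw [hjv, hvv]
        exact ⟨hge, le_refl _⟩
      have h2 : pd t (k + 1) j = k := by
        unfold pd
        rw [hjv, hvv, if_pos (Or.inr (Nat.lt_succ_self k))]
      rw [h1, h2, if_neg hjk, if_pos ⟨hjv, hvk⟩]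
      omega
    · rw [if_neg hjk, if_neg (fun h => hjv h.1), add_zero, add_zero]
      unfold pd
      by_cases hc : j < k ∨ tv t j < k
      · rw [if_pos hc, if_pos]
        rcases hc with hc | hc
        · exact Or.inl (by omega)
        · exact Or.inr (by omega)
      · rw [if_neg hc, if_neg]
        push Not at hc ⊢
        refine ⟨by omega, ?_⟩
        by_contra hcon
        have h1 : tv t j = k := by omega
        have h2 := tv_tv t ht j hj
        rw [h1] at h2
        exact hjv h2.symm

theorem part_one (t : P11) (ht : t * t = 1) (h0 : t 0 = 0) : part t 1 = 0xffffffffff0 := by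
  have htv0 : tv t 0 = 0 := by
    unfold tv
    rw [dif_pos (by norm_num)]
    have : (⟨0, by norm_num⟩ : Fin 11) = 0 := rfl
    rw [this, h0]
    rfl
  have hD : ∀ j < 11, pd t 1 j = if j = 0 then 0 else 15 := by
    intro j hj
    unfold pd
    by_cases hj0 : j = 0
    · subst hj0
      rw [if_pos (Or.inl Nat.one_pos), if_pos rfl, htv0]
    · rw [if_neg hj0, if_neg]
      push Not
      refine ⟨by omega, ?_⟩
      by_contra hcon
      have h1 : tv t j = 0 := by omega
      have h2 := tv_tv t ht j hj
      rw [h1, htv0] at h2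
      exact hj0 h2.symm
  rw [part_eq, mkF_congr _ _ hD]
  rfl

theorem mem_drop : ∀ k < 11, ∀ v < 11, k ≤ v → v ∈ L11.drop k := by decide

theorem allInv_zero (P : ℕ → Bool) (k acc : ℕ) : allInv P 0 k acc = P acc := rfl

theorem allInv_succ (P : ℕ → Bool) (f k acc : ℕ) :
    allInv P (f + 1) k acc =
      cond (Nat.beq (gt acc k) 15)
        ((L11.drop k).all fun v => !(Nat.beq (gt acc v) 15) ||
          allInv P f (k + 1)
            (acc - ((15 - v) * 16 ^ k + cond (Nat.beq v k) 0 ((15 - k) * 16 ^ v))))
        (allInv P f (k + 1) acc) := by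
  rw [allInv]
  simp only [sapp_eq]
  rfl

theorem allInv_sound (P : ℕ → Bool) (t : P11) (ht : t * t = 1) :
    ∀ f k : ℕ, f + k = 11 → allInv P f k (part t k) = true → P (code t) = true := by
  intro f
  induction f with
  | zero =>
    intro k hk h
    have hk11 : k = 11 := by omega
    subst hk11
    rw [allInv_zero, part_eleven] at h
    exact h
  | succ f ih =>
    intro k hk h
    have hk10 : k < 11 := by omega
    rw [allInv_succ, gt_part t k k hk10] at h
    by_cases hlt : tv t k < k
    · have h1 : pd t k k = tv t k := by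
        unfold pd
        rw [if_pos (Or.inr hlt)]
      have h2 : Nat.beq (pd t k k) 15 = false := by
        rw [h1]
        apply beq_false_of_ne
        have := tv_lt t k
        omega
      rw [h2, cond_false] at h
      apply ih (k + 1) (by omega)
      rw [step_assigned t ht k hk10 hlt]
      exact h
    · have hge : k ≤ tv t k := not_lt.mp hlt
      have h1 : pd t k k = 15 := by
        unfold pd
        rw [if_neg]
        push Not
        exact ⟨le_refl _, hge⟩
      rw [h1] at h
      have h2 : Nat.beq 15 15 = true := rfl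
      rw [h2, cond_true, List.all_eq_true] at h
      have h3 := h (tv t k) (mem_drop k hk10 (tv t k) (tv_lt t k) hge)
      have h4 : pd t k (tv t k) = 15 := by
        unfold pd
        rw [if_neg]
        push Not
        rw [tv_tv t ht k hk10]
        exact ⟨hge, le_refl _⟩
      rw [gt_part t k (tv t k) (tv_lt t k), h4, h2] at h3
      simp only [Bool.not_true, Bool.false_or] at h3
      apply ih (k + 1) (by omega)
      rw [← step_unassigned t ht k hk10 hge]
      by_cases hvk : tv t k = k
      · rw [if_pos hvk]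
        have h5 : Nat.beq (tv t k) k = true := by rw [hvk]; exact Nat.beq_refl k
        rw [h5, cond_true] at h3
        exact h3
      · rw [if_neg hvk]
        have h5 : Nat.beq (tv t k) k = false := beq_false_of_ne hvk
        rw [h5, cond_false] at h3
        exact h3

end ENUMaux

open ENUMaux in
theorem top_sound (P : ℕ → Bool) (vs : List ℕ) (t : P11) (ht : t * t = 1) (h0 : t 0 = 0)
    (hv : ((t 1 : Fin 11) : ℕ) ∈ vs) (h : top P vs = true) : P (code t) = true := by
  unfold top at h
  rw [List.all_eq_true] at h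
  have h1 := h _ hv
  rw [sapp_eq] at h1
  have htv1 : tv t 1 = ((t 1 : Fin 11) : ℕ) := by
    unfold tv
    rw [dif_pos (by norm_num)]
    rfl
  rw [← htv1] at h1
  have htv0 : tv t 0 = 0 := by
    unfold tv
    rw [dif_pos (by norm_num)]
    have : (⟨0, by norm_num⟩ : Fin 11) = 0 := rfl
    rw [this, h0]
    rfl
  have hge : 1 ≤ tv t 1 := by
    by_contra hcon
    have h2 : tv t 1 = 0 := by omega
    have h3 := tv_tv t ht 1 (by norm_num)
    rw [h2, htv0] at h3
    exact absurd h3 (by norm_num)
  have hstart : start (tv t 1) = part t 2 := by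
    rw [← step_unassigned t ht 1 (by norm_num) hge, part_one t ht h0]
    unfold start
    by_cases hv1 : tv t 1 = 1
    · rw [if_pos hv1, hv1]
      rfl
    · rw [if_neg hv1]
      have h5 : Nat.beq (tv t 1) 1 = false := beq_false_of_ne hv1
      rw [h5, cond_false]
      rfl
  rw [hstart] at h1
  exact allInv_sound P t ht 9 2 (by norm_num) h1

end Cfsg.Agent.Lib.Helper29.D11
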