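import Mathlib
import Cfsg.Prelude.Def_GeometricClasses
import Cfsg.Prelude.Def_ClassicalGeometry
import Cfsg.Agent.Lib.Helper98.F75Defs

/-!
S5975 piece F75-FROB: the Frobenius `c ↦ c ^ q` of a quadratic extension `L` of the field `F`
with `q` elements is surjective, is not the identity, and fixes a nonzero `F`-linear functional
(the trace).
-/

set_option autoImplicit false

namespace Cfsg.Agent.Lib.Helper98.F75

open Matrix Polynomial

/-! ### F75-FROB -/
theorem frob_facts {F : Type*} [Field F] [Fintype F] {q : ℕ} (hq : Fintype.card F = q)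
    {L : Type*} [Field L] [Fintype L] [Algebra F L] (hL : Module.finrank F L = 2) :
    Function.Surjective (fun c : L => c ^ q) ∧ (∃ c : L, c ^ q ≠ c) ∧
      ∃ φ : L →ₗ[F] F, φ ≠ 0 ∧ ∀ c : L, φ (c ^ q) = φ c := by
  subst hq
  have hσ : ∀ c : L, FiniteField.frobeniusAlgEquivOfAlgebraic F L c = c ^ Fintype.card F :=
    fun c => rfl
  refine ⟨?_, ?_, ?_⟩
  · intro c
    obtain ⟨b, hb⟩ := (FiniteField.frobeniusAlgEquivOfAlgebraic F L).surjective c
    exact ⟨b, by simpa [hσ] using hb⟩
  · by_contra hcon
    simp only [not_exists, not_not] at hcon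
    have h1 : FiniteField.frobeniusAlgEquivOfAlgebraic F L = 1 := by
      ext c
      rw [hσ, hcon]
      rfl
    have h2 := FiniteField.orderOf_frobeniusAlgEquivOfAlgebraic F L
    rw [h1, orderOf_one, hL] at h2
    omega
  · refine ⟨Algebra.trace F L, Algebra.trace_ne_zero F L, ?_⟩
    intro c
    have := Algebra.trace_eq_of_algEquiv (FiniteField.frobeniusAlgEquivOfAlgebraic F L) c
    rw [hσ] at this
    exact this

end Cfsg.Agent.Lib.Helper98.F75
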