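import Mathlib
import Cfsg.Prelude.Def_GeometricClasses
import Cfsg.Prelude.Def_ClassicalGeometry
import Cfsg.Agent.Lib.Helper98.F75Defs

/-!
S5975 piece F75-SYMPND: the standard alternating form is nondegenerate.
-/

set_option autoImplicit false

namespace Cfsg.Agent.Lib.Helper98.F75

open Matrix Polynomial

/-! ### F75-SYMPND -/
theorem sympForm_nondeg {F : Type*} [Field F] (d : ℕ) (w : Fin d ⊕ Fin d → F)
    (h : ∀ u : Fin d ⊕ Fin d → F, Cfsg.sympForm d F w u = 0) : w = 0 := by
  have h1 : w ᵥ* Matrix.J (Fin d) F = 0 := by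
    apply dotProduct_eq_zero
    intro u
    rw [← Matrix.dotProduct_mulVec]
    exact h u
  exact Matrix.eq_zero_of_vecMul_eq_zero (Matrix.isUnit_det_J (Fin d) F).ne_zero h1

end Cfsg.Agent.Lib.Helper98.F75
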