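import Mathlib
import Cfsg.Prelude.Def_GeometricClasses
import Cfsg.Prelude.Def_ClassicalGeometry
import Cfsg.Agent.Lib.Helper98.F75Defs
import Cfsg.Agent.Lib.Helper29.F75SYMPND

/-!
S5975 piece F75-IMND: for a symplectic `y` with `y ^ r = 1`, `r ≠ 0` in `F`, the alternating
form is nondegenerate on the range of `y - 1`.
-/

set_option autoImplicit false

namespace Cfsg.Agent.Lib.Helper98.F75

open Matrix Polynomial

theorem f75imnd_isometry {F : Type*} [Field F] {d : ℕ}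
    (y : Matrix (Fin d ⊕ Fin d) (Fin d ⊕ Fin d) F) (hy : y ∈ Matrix.symplecticGroup (Fin d) F)
    (a b : Fin d ⊕ Fin d → F) :
    Cfsg.sympForm d F (y *ᵥ a) (y *ᵥ b) = Cfsg.sympForm d F a b := by
  unfold Cfsg.sympForm
  rw [← Matrix.vecMul_transpose y a, ← Matrix.dotProduct_mulVec, Matrix.mulVec_mulVec,
    Matrix.mulVec_mulVec, SymplecticGroup.mem_iff'.mp hy]

theorem f75imnd_sub_left {F : Type*} [Field F] {d : ℕ} (a b c : Fin d ⊕ Fin d → F) :
    Cfsg.sympForm d F (a - b) c = Cfsg.sympForm d F a c - Cfsg.sympForm d F b c := by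
  unfold Cfsg.sympForm
  rw [sub_dotProduct]

theorem f75imnd_sub_right {F : Type*} [Field F] {d : ℕ} (a b c : Fin d ⊕ Fin d → F) :
    Cfsg.sympForm d F a (b - c) = Cfsg.sympForm d F a b - Cfsg.sympForm d F a c := by
  unfold Cfsg.sympForm
  rw [Matrix.mulVec_sub, dotProduct_sub]

/-! ### F75-IMND -/
theorem range_sub_one_nondeg {F : Type*} [Field F] {d : ℕ}
    (y : Matrix (Fin d ⊕ Fin d) (Fin d ⊕ Fin d) F) (hy : y ∈ Matrix.symplecticGroup (Fin d) F)
    (r : ℕ) (hr : (r : F) ≠ 0) (hyr : y ^ r = 1) (v : Fin d ⊕ Fin d → F)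
    (h : ∀ u : Fin d ⊕ Fin d → F, Cfsg.sympForm d F ((y - 1) *ᵥ v) ((y - 1) *ᵥ u) = 0) :
    (y - 1) *ᵥ v = 0 := by
  have hsub : ∀ w : Fin d ⊕ Fin d → F, (y - 1) *ᵥ w = y *ᵥ w - w := by
    intro w
    rw [Matrix.sub_mulVec, Matrix.one_mulVec]
  obtain ⟨nv, hnv⟩ : ∃ nv : Fin d ⊕ Fin d → F, nv = (y - 1) *ᵥ v := ⟨_, rfl⟩
  rw [← hnv]
  have hr0 : r ≠ 0 := by
    rintro rfl
    exact hr (by simp)
  -- `(y - 1) nv` is orthogonal to everything
  have h1 : ∀ u : Fin d ⊕ Fin d → F, Cfsg.sympForm d F ((y - 1) *ᵥ nv) (y *ᵥ u) = 0 := by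
    intro u
    have h2 := h u
    rw [← hnv, hsub u, f75imnd_sub_right, ← f75imnd_isometry y hy nv u, ← f75imnd_sub_left] at h2
    rw [hsub nv]
    have h3 : y *ᵥ nv - nv = -(nv - y *ᵥ nv) := by rw [neg_sub]
    rw [h3]
    unfold Cfsg.sympForm at h2 ⊢
    rw [neg_dotProduct, h2, neg_zero]
  have h4 : (y - 1) *ᵥ nv = 0 := by
    apply sympForm_nondeg d
    intro u
    have h5 : u = y *ᵥ (y ^ (r - 1) *ᵥ u) := by
      rw [Matrix.mulVec_mulVec, ← pow_succ', Nat.sub_add_cancel (Nat.pos_of_ne_zero hr0), hyr,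
        Matrix.one_mulVec]
    rw [h5]
    exact h1 _
  have hynv : y *ᵥ nv = nv := by
    have h6 := h4
    rw [hsub nv] at h6
    exact sub_eq_zero.1 h6
  have hyv : y *ᵥ v = v + nv := by
    rw [hnv, hsub v]
    abel
  have hpow : ∀ j : ℕ, y ^ j *ᵥ v = v + (j : F) • nv := by
    intro j
    induction j with
    | zero => rw [pow_zero, Matrix.one_mulVec, Nat.cast_zero, zero_smul, add_zero]
    | succ j ih =>
      rw [pow_succ', ← Matrix.mulVec_mulVec, ih, Matrix.mulVec_add, Matrix.mulVec_smul, hynv, hyv,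
        Nat.cast_succ, add_smul, one_smul]
      abel
  have h7 := hpow r
  rw [hyr, Matrix.one_mulVec] at h7
  have h8 : (r : F) • nv = 0 := by
    have h9 : v + (r : F) • nv = v + 0 := by rw [add_zero]; exact h7.symm
    exact add_left_cancel h9
  rcases smul_eq_zero.1 h8 with h10 | h10
  · exact absurd h10 hr
  · exact h10

end Cfsg.Agent.Lib.Helper98.F75
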