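import Mathlib
import Cfsg.Prelude.Def_GeometricClasses
import Cfsg.Prelude.Def_ClassicalGeometry
import Cfsg.Agent.Lib.Helper98.F75Defs
import Cfsg.Agent.Lib.Helper29.F75SYMPND

/-!
S5975 piece F75-YNEG: for `d = 2` and a quadratic extension `L` acting on `F^4` with an `L`-form
`B`, there is an `L`-linear isometry `y` with `y * y = -1` (in a hyperbolic `L`-basis `u, w` it is
`u ↦ -w`, `w ↦ u`).
-/

set_option autoImplicit false

namespace Cfsg.Agent.Lib.Helper98.F75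

open Matrix Polynomial

/-! ### F75-YNEG -/
theorem exists_neg_sq {F : Type*} [Field F] [Fintype F] {L : Type*} [Field L] [Fintype L]
    [Algebra F L] (hL : Module.finrank F L = 2)
    (ρ : L →ₐ[F] Matrix (Fin 2 ⊕ Fin 2) (Fin 2 ⊕ Fin 2) F) (φ : L →ₗ[F] F) (hφ : φ ≠ 0)
    (B : (Fin 2 ⊕ Fin 2 → F) → (Fin 2 ⊕ Fin 2 → F) → L) (hB : IsLForm ρ φ B) :
    ∃ y : GL (Fin 2 ⊕ Fin 2) F, y ∈ Cfsg.spGL 2 F ∧
      (∀ c : L, (y : Matrix (Fin 2 ⊕ Fin 2) (Fin 2 ⊕ Fin 2) F) * ρ c =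
        ρ c * (y : Matrix (Fin 2 ⊕ Fin 2) (Fin 2 ⊕ Fin 2) F)) ∧
      (y : Matrix (Fin 2 ⊕ Fin 2) (Fin 2 ⊕ Fin 2) F) *
        (y : Matrix (Fin 2 ⊕ Fin 2) (Fin 2 ⊕ Fin 2) F) = -1 := by
  classical
  have _hφ := hφ
  have hB0l : ∀ x, B 0 x = 0 := by
    intro x
    have h := hB.add_left 0 0 x
    rw [add_zero] at h
    exact left_eq_add.1 h
  have hanti : ∀ x y, B x y = - B y x := by
    intro x y
    have h := hB.alt (x + y)
    rw [hB.add_left, hB.add_right, hB.add_right, hB.alt, hB.alt] at h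
    linear_combination h
  have hL2 : ∀ (α β : L) (s t x : Fin 2 ⊕ Fin 2 → F),
      B (ρ α *ᵥ s + ρ β *ᵥ t) x = α * B s x + β * B t x := by
    intro α β s t x
    rw [hB.add_left, hB.smul_left, hB.smul_left]
  have hR2 : ∀ (α β : L) (s t x : Fin 2 ⊕ Fin 2 → F),
      B x (ρ α *ᵥ s + ρ β *ᵥ t) = α * B x s + β * B x t := by
    intro α β s t x
    rw [hB.add_right, hB.smul_right, hB.smul_right]
  -- a hyperbolic pair
  obtain ⟨w, u, hwu⟩ : ∃ w u : Fin 2 ⊕ Fin 2 → F, B w u = 1 := by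
    have hw : (Pi.single (Sum.inl 0) 1 : Fin 2 ⊕ Fin 2 → F) ≠ 0 := by
      intro h
      have := congrFun h (Sum.inl 0)
      simp at this
    have hex : ∃ u₀, Cfsg.sympForm 2 F (Pi.single (Sum.inl 0) 1) u₀ ≠ 0 := by
      by_contra hcon
      simp only [not_exists, not_not] at hcon
      exact hw (sympForm_nondeg 2 _ hcon)
    obtain ⟨u₀, hu₀⟩ := hex
    have hc : B (Pi.single (Sum.inl 0) 1) u₀ ≠ 0 := by
      intro h
      apply hu₀
      rw [← hB.form, h, map_zero]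
    refine ⟨Pi.single (Sum.inl 0) 1, ρ (B (Pi.single (Sum.inl 0) 1) u₀)⁻¹ *ᵥ u₀, ?_⟩
    rw [hB.smul_right, inv_mul_cancel₀ hc]
  have huw : B u w = -1 := by rw [hanti, hwu]
  have huu : B u u = 0 := hB.alt u
  have hww : B w w = 0 := hB.alt w
  -- spanning
  have hfin : Module.Finite F L := Module.Finite.of_finite
  let Ψ : (L × L) →ₗ[F] (Fin 2 ⊕ Fin 2 → F) :=
    { toFun := fun p => ρ p.1 *ᵥ w + ρ p.2 *ᵥ u
      map_add' := by
        intro p p'
        simp only [Prod.fst_add, Prod.snd_add, map_add, Matrix.add_mulVec]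
        abel
      map_smul' := by
        intro c p
        simp only [Prod.smul_fst, Prod.smul_snd, map_smul, Matrix.smul_mulVec, RingHom.id_apply,
          smul_add] }
  have hΨapp : ∀ p : L × L, Ψ p = ρ p.1 *ᵥ w + ρ p.2 *ᵥ u := fun p => rfl
  have hΨinj : Function.Injective Ψ := by
    rw [injective_iff_map_eq_zero]
    intro p hp
    rw [hΨapp] at hp
    have h1 := hL2 p.1 p.2 w u u
    rw [hp, hB0l, hwu, huu] at h1
    have h2 := hL2 p.1 p.2 w u w
    rw [hp, hB0l, hww, huw] at h2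
    have e1 : p.1 = 0 := by linear_combination -h1
    have e2 : p.2 = 0 := by linear_combination h2
    exact Prod.ext e1 e2
  have hΨsurj : Function.Surjective Ψ := by
    refine (LinearMap.injective_iff_surjective_of_finrank_eq_finrank ?_).1 hΨinj
    rw [Module.finrank_prod, hL, Module.finrank_fintype_fun_eq_card]
    simp
  have hspan : ∀ v, v = ρ (B v u) *ᵥ w + ρ (-(B v w)) *ᵥ u := by
    intro v
    obtain ⟨p, hp⟩ := hΨsurj v
    rw [hΨapp] at hp
    have h1 := hL2 p.1 p.2 w u u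
    rw [hp, hwu, huu] at h1
    have h2 := hL2 p.1 p.2 w u w
    rw [hp, hww, huw] at h2
    have e1 : B v u = p.1 := by rw [h1]; ring
    have e2 : -(B v w) = p.2 := by rw [h2]; ring
    rw [e1, e2, hp]
  -- the map
  have hsmulF : ∀ (c : F) (v x : Fin 2 ⊕ Fin 2 → F),
      B (c • v) x = algebraMap F L c * B v x := by
    intro c v x
    have hcv : c • v = ρ (algebraMap F L c) *ᵥ v := by
      rw [AlgHom.commutes, Algebra.algebraMap_eq_smul_one, Matrix.smul_mulVec, Matrix.one_mulVec]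
    rw [hcv, hB.smul_left]
  have hρF : ∀ (c : F) (a : L) (x : Fin 2 ⊕ Fin 2 → F),
      ρ (algebraMap F L c * a) *ᵥ x = c • (ρ a *ᵥ x) := by
    intro c a x
    rw [map_mul, AlgHom.commutes, Algebra.algebraMap_eq_smul_one, Matrix.smul_mul, Matrix.one_mul,
      Matrix.smul_mulVec]
  let ℓ : (Fin 2 ⊕ Fin 2 → F) →ₗ[F] (Fin 2 ⊕ Fin 2 → F) :=
    { toFun := fun v => ρ (B v u) *ᵥ u + ρ (B v w) *ᵥ w
      map_add' := by
        intro v v'
        simp only [hB.add_left, map_add, Matrix.add_mulVec]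
        abel
      map_smul' := by
        intro c v
        simp only [hsmulF, hρF, RingHom.id_apply, smul_add] }
  have hℓapp : ∀ v, ℓ v = ρ (B v u) *ᵥ u + ρ (B v w) *ᵥ w := fun v => rfl
  obtain ⟨Y, hY⟩ : ∃ Y : Matrix (Fin 2 ⊕ Fin 2) (Fin 2 ⊕ Fin 2) F, Y = LinearMap.toMatrix' ℓ :=
    ⟨_, rfl⟩
  have hYv : ∀ v, Y *ᵥ v = ρ (B v u) *ᵥ u + ρ (B v w) *ᵥ w := by
    intro v
    rw [hY, ← Matrix.toLin'_apply, Matrix.toLin'_toMatrix', hℓapp]
  have hmat : ∀ M N : Matrix (Fin 2 ⊕ Fin 2) (Fin 2 ⊕ Fin 2) F,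
      (∀ v, M *ᵥ v = N *ᵥ v) → M = N := by
    intro M N h
    apply Matrix.toLin'.injective
    apply LinearMap.ext
    intro v
    rw [Matrix.toLin'_apply, Matrix.toLin'_apply, h]
  have hcomm : ∀ c : L, Y * ρ c = ρ c * Y := by
    intro c
    apply hmat
    intro v
    rw [← Matrix.mulVec_mulVec, ← Matrix.mulVec_mulVec, hYv, hYv, hB.smul_left, hB.smul_left,
      map_mul, map_mul, Matrix.mulVec_add, Matrix.mulVec_mulVec, Matrix.mulVec_mulVec]
  have hYY : Y * Y = -1 := by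
    apply hmat
    intro v
    rw [← Matrix.mulVec_mulVec, hYv (Y *ᵥ v), hYv v, hL2, hL2, huu, hwu, huw, hww,
      Matrix.neg_mulVec, Matrix.one_mulVec]
    conv_rhs => rw [hspan v]
    simp only [mul_zero, mul_one, zero_add, add_zero, mul_neg, map_neg, Matrix.neg_mulVec,
      neg_add_rev, neg_neg]
  have hpres : ∀ v v', B (Y *ᵥ v) (Y *ᵥ v') = B v v' := by
    intro v v'
    have e1 : B v v' = B (ρ (B v u) *ᵥ w + ρ (-(B v w)) *ᵥ u)
        (ρ (B v' u) *ᵥ w + ρ (-(B v' w)) *ᵥ u) := by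
      rw [← hspan v, ← hspan v']
    rw [e1, hYv v, hYv v', hL2, hR2, hR2, hL2, hR2, hR2, huu, hww, hwu, huw]
    ring
  have hsp : ∀ v v', Cfsg.sympForm 2 F (Y *ᵥ v) (Y *ᵥ v') = Cfsg.sympForm 2 F v v' := by
    intro v v'
    rw [← hB.form, ← hB.form, hpres]
  refine ⟨⟨Y, -Y, by rw [Matrix.mul_neg, hYY, neg_neg], by rw [Matrix.neg_mul, hYY, neg_neg]⟩,
    ?_, hcomm, hYY⟩
  exact fun a b => hsp a b

end Cfsg.Agent.Lib.Helper98.F75
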