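import Mathlib
import Cfsg.Agent.Lib.Helper78.GTSYM

/-! GT3 project (helper53, S2702) piece SYD: for a symmetric invertible matrix `g` over a finite
field of odd characteristic, an isometry of determinant `-1`, and similitudes with every
multiplier `c` and determinant `c ^ m`. -/

set_option autoImplicit false

namespace Cfsg.Agent.Lib.Helper29.GT3SYD

open Matrix

theorem diag_update_prod {n : Type*} [Fintype n] [DecidableEq n] {F : Type*} [CommRing F]
    (i₀ : n) (x : F) : ∏ i, Function.update (fun _ : n => (1 : F)) i₀ x i = x := by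
  rw [Finset.prod_update_of_mem (Finset.mem_univ i₀)]
  simp

theorem exists_reflection {F : Type*} [Field F] [Fintype F] (h2 : (2 : F) ≠ 0) {n : ℕ}
    (hn : 0 < n) (g : Matrix (Fin n) (Fin n) F) (hg : g.transpose = g) (hdet : g.det ≠ 0) :
    ∃ r : Matrix (Fin n) (Fin n) F, r * g * r.transpose = g ∧ r.det = -1 := by
  classical
  obtain ⟨i₀⟩ : Nonempty (Fin n) := ⟨⟨0, hn⟩⟩
  set d : Fin n → F := Function.update (fun _ => (1 : F)) i₀ g.det with hd
  set e : Fin n → F := Function.update (fun _ => (1 : F)) i₀ (-1) with he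
  have hDt : (Matrix.diagonal d).transpose = Matrix.diagonal d := Matrix.diagonal_transpose d
  have hDdet : (Matrix.diagonal d).det = g.det := by
    rw [Matrix.det_diagonal, hd, diag_update_prod]
  have hEdet : (Matrix.diagonal e).det = -1 := by
    rw [Matrix.det_diagonal, he, diag_update_prod]
  obtain ⟨h₀, hh₀⟩ := Cfsg.Agent.Lib.Helper78.GTSYM.sym_congr h2 (Matrix.diagonal d) g hDt hg
    (by rw [hDdet]; exact hdet) hdet ⟨g.det, by rw [hDdet]⟩
  set H : Matrix (Fin n) (Fin n) F := (h₀ : Matrix (Fin n) (Fin n) F) with hH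
  set Hi : Matrix (Fin n) (Fin n) F := ((h₀⁻¹ : GL (Fin n) F) : Matrix (Fin n) (Fin n) F) with hHi
  have hHiH : Hi * H = 1 := by
    rw [hHi, hH, ← Units.val_mul, inv_mul_cancel, Units.val_one]
  have hHHi : H * Hi = 1 := by
    rw [hHi, hH, ← Units.val_mul, mul_inv_cancel, Units.val_one]
  have hEDE : Matrix.diagonal e * Matrix.diagonal d * (Matrix.diagonal e).transpose =
      Matrix.diagonal d := by
    rw [Matrix.diagonal_transpose, Matrix.diagonal_mul_diagonal, Matrix.diagonal_mul_diagonal]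
    congr 1
    funext i
    by_cases hi : i = i₀
    · rw [hi, hd, he]
      simp
    · rw [hd, he, Function.update_of_ne hi, Function.update_of_ne hi]
      simp
  refine ⟨H * Matrix.diagonal e * Hi, ?_, ?_⟩
  · have hT : Hᵀ * Hiᵀ = 1 := by
      rw [← Matrix.transpose_mul, hHiH, Matrix.transpose_one]
    rw [Matrix.transpose_mul, Matrix.transpose_mul, ← hh₀]
    calc H * Matrix.diagonal e * Hi * (H * Matrix.diagonal d * Hᵀ) *
          (Hiᵀ * ((Matrix.diagonal e)ᵀ * Hᵀ))
        = H * (Matrix.diagonal e * ((Hi * H) * Matrix.diagonal d * (Hᵀ * Hiᵀ)) *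
            (Matrix.diagonal e)ᵀ) * Hᵀ := by
          simp only [Matrix.mul_assoc]
      _ = H * (Matrix.diagonal e * Matrix.diagonal d * (Matrix.diagonal e)ᵀ) * Hᵀ := by
          rw [hHiH, hT, Matrix.one_mul, Matrix.mul_one]
      _ = H * Matrix.diagonal d * Hᵀ := by rw [hEDE]
  · rw [Matrix.det_mul, Matrix.det_mul, hEdet]
    have h1 : H.det * Hi.det = 1 := by rw [← Matrix.det_mul, hHHi, Matrix.det_one]
    linear_combination -h1

theorem sym_det {F : Type*} [Field F] [Fintype F] (h2 : (2 : F) ≠ 0) (m : ℕ) (hm : 1 ≤ m)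
    (g : Matrix (Fin (2 * m)) (Fin (2 * m)) F) (hg : g.transpose = g) (hdet : g.det ≠ 0) :
    (∃ r : Matrix (Fin (2 * m)) (Fin (2 * m)) F, r * g * r.transpose = g ∧ r.det = -1) ∧
    (∀ c : F, c ≠ 0 → ∃ h : Matrix (Fin (2 * m)) (Fin (2 * m)) F,
      h * g * h.transpose = c • g ∧ h.det = c ^ m) := by
  classical
  have hrefl := exists_reflection h2 (show 0 < 2 * m by omega) g hg hdet
  refine ⟨hrefl, ?_⟩
  intro c hc
  obtain ⟨r, hr, hrdet⟩ := hrefl
  have hcg : (c • g).transpose = c • g := by rw [Matrix.transpose_smul, hg]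
  have hcdet : (c • g).det = c ^ (2 * m) * g.det := by
    rw [Matrix.det_smul, Fintype.card_fin]
  have hcdet0 : (c • g).det ≠ 0 := by
    rw [hcdet]
    exact mul_ne_zero (pow_ne_zero _ hc) hdet
  obtain ⟨h, hh⟩ := Cfsg.Agent.Lib.Helper78.GTSYM.sym_congr h2 g (c • g) hg hcg hdet hcdet0
    ⟨c ^ m * g.det, by rw [hcdet]; ring⟩
  have hdd : (h : Matrix (Fin (2 * m)) (Fin (2 * m)) F).det ^ 2 = (c ^ m) ^ 2 := by
    have h1 := congrArg Matrix.det hh
    rw [Matrix.det_mul, Matrix.det_mul, Matrix.det_transpose, hcdet] at h1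
    have h3 : ((h : Matrix (Fin (2 * m)) (Fin (2 * m)) F).det ^ 2 - (c ^ m) ^ 2) * g.det = 0 := by
      linear_combination h1
    exact sub_eq_zero.mp ((mul_eq_zero.mp h3).resolve_right hdet)
  rcases sq_eq_sq_iff_eq_or_eq_neg.mp hdd with h4 | h4
  · exact ⟨h, hh, h4⟩
  · refine ⟨(h : Matrix (Fin (2 * m)) (Fin (2 * m)) F) * r, ?_, ?_⟩
    · rw [Matrix.transpose_mul]
      calc (h : Matrix (Fin (2 * m)) (Fin (2 * m)) F) * r * g *
            (rᵀ * (h : Matrix (Fin (2 * m)) (Fin (2 * m)) F)ᵀ)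
          = (h : Matrix (Fin (2 * m)) (Fin (2 * m)) F) * (r * g * rᵀ) *
              (h : Matrix (Fin (2 * m)) (Fin (2 * m)) F)ᵀ := by
            simp only [Matrix.mul_assoc]
        _ = c • g := by rw [hr, hh]
    · rw [Matrix.det_mul, h4, hrdet]
      ring

end Cfsg.Agent.Lib.Helper29.GT3SYD
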