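import Mathlib
import Cfsg.Agent.Lib.Helper78.HarDefs

/-! S1235 (project HAR) piece PRODC: a normal cyclic subgroup of index two in the first factor of
an internal direct product `T = D × B` with `|B| = 4` gives a normal cyclic subgroup of index at
most eight in `T`. -/

set_option autoImplicit false

namespace Cfsg.Agent.Lib.Helper29.Har

open Cfsg.Agent.Lib.Helper78.Har

/-- the set of products `d * b` for commuting subgroups, as a subgroup -/
def prodSub {G : Type*} [Group G] (D B : Subgroup G)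
    (hc : ∀ a ∈ D, ∀ b ∈ B, a * b = b * a) : Subgroup G where
  carrier := {t | ∃ d ∈ D, ∃ b ∈ B, t = d * b}
  one_mem' := ⟨1, D.one_mem, 1, B.one_mem, by simp⟩
  mul_mem' := by
    rintro _ _ ⟨d, hd, b, hb, rfl⟩ ⟨d', hd', b', hb', rfl⟩
    refine ⟨d * d', D.mul_mem hd hd', b * b', B.mul_mem hb hb', ?_⟩
    have h := hc d' hd' b hb
    calc d * b * (d' * b') = d * (b * d') * b' := by group
      _ = d * (d' * b) * b' := by rw [h]
      _ = d * d' * (b * b') := by group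
  inv_mem' := by
    rintro _ ⟨d, hd, b, hb, rfl⟩
    refine ⟨d⁻¹, D.inv_mem hd, b⁻¹, B.inv_mem hb, ?_⟩
    have h := hc d⁻¹ (D.inv_mem hd) b⁻¹ (B.inv_mem hb)
    rw [mul_inv_rev, h]

theorem prod_decomp {G : Type*} [Group G] (T D B : Subgroup G)
    (hprod : Cfsg.IsInternalDirectProduct D B T) :
    ∀ t ∈ T, ∃ d ∈ D, ∃ b ∈ B, t = d * b := by
  obtain ⟨hD, hB, hc, hint, hsup⟩ := hprod
  intro t ht
  have hle : D ⊔ B ≤ prodSub D B hc := by
    apply sup_le
    · intro d hd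
      exact ⟨d, hd, 1, B.one_mem, by simp⟩
    · intro b hb
      exact ⟨1, D.one_mem, b, hb, by simp⟩
  rw [← hsup] at ht
  exact hle ht

theorem prod_unique {G : Type*} [Group G] (T D B : Subgroup G)
    (hprod : Cfsg.IsInternalDirectProduct D B T) {d d' b b' : G} (hd : d ∈ D) (hd' : d' ∈ D)
    (hb : b ∈ B) (hb' : b' ∈ B) (h : d * b = d' * b') : d = d' ∧ b = b' := by
  obtain ⟨hD, hB, hc, hint, hsup⟩ := hprod
  have h1 : d'⁻¹ * d = b' * b⁻¹ := by
    rw [inv_mul_eq_iff_eq_mul, ← mul_assoc, ← h, mul_inv_cancel_right]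
  have h2 : d'⁻¹ * d ∈ D ⊓ B :=
    ⟨D.mul_mem (D.inv_mem hd') hd, by rw [h1]; exact B.mul_mem hb' (B.inv_mem hb)⟩
  rw [hint, Subgroup.mem_bot, inv_mul_eq_one] at h2
  refine ⟨h2.symm, ?_⟩
  rw [← h2] at h
  exact mul_left_cancel h

theorem prod_card {G : Type*} [Group G] (T D B : Subgroup G)
    (hprod : Cfsg.IsInternalDirectProduct D B T) :
    Nat.card T = Nat.card D * Nat.card B := by
  have hD := hprod.1
  have hB := hprod.2.1
  rw [← Nat.card_prod]
  symm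
  apply Nat.card_congr
  refine Equiv.ofBijective (fun p : ↥D × ↥B =>
    (⟨(p.1 : G) * (p.2 : G), T.mul_mem (hD p.1.2) (hB p.2.2)⟩ : ↥T)) ⟨?_, ?_⟩
  · rintro ⟨d, b⟩ ⟨d', b'⟩ h
    have h' : (d : G) * b = d' * b' := congrArg Subtype.val h
    obtain ⟨e1, e2⟩ := prod_unique T D B hprod d.2 d'.2 b.2 b'.2 h'
    exact Prod.ext (Subtype.ext e1) (Subtype.ext e2)
  · rintro ⟨t, ht⟩
    obtain ⟨d, hd, b, hb, rfl⟩ := prod_decomp T D B hprod t ht
    exact ⟨(⟨d, hd⟩, ⟨b, hb⟩), rfl⟩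

theorem prod_cyclic {G : Type*} [Group G] [Finite G] (T D B : Subgroup G)
    (hprod : Cfsg.IsInternalDirectProduct D B T) (hB4 : Nat.card B = 4) (C : Subgroup ↥D)
    (hCn : C.Normal) (hC : IsCyclic C) (hcard : Nat.card D = 2 * Nat.card C) :
    ∃ C' : Subgroup ↥T, C'.Normal ∧ IsCyclic C' ∧ Nat.card T ≤ 8 * Nat.card C' := by
  have hD := hprod.1
  have hB := hprod.2.1
  have hc := hprod.2.2.1
  have hCD : C.map D.subtype ≤ D := by
    rintro _ ⟨c, -, rfl⟩
    exact c.2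
  have hCT : C.map D.subtype ≤ T := hCD.trans hD
  let e1 : ↥C ≃* ↥(C.map D.subtype) := Subgroup.equivMapOfInjective C D.subtype D.subtype_injective
  let e2 : ↥((C.map D.subtype).subgroupOf T) ≃* ↥(C.map D.subtype) :=
    Subgroup.subgroupOfEquivOfLe hCT
  refine ⟨(C.map D.subtype).subgroupOf T, ?_, ?_, ?_⟩
  · constructor
    intro n hn t
    rw [Subgroup.mem_subgroupOf] at hn ⊢
    obtain ⟨c, hcC, hcn⟩ := hn
    obtain ⟨d, hd, b, hb, htd⟩ := prod_decomp T D B hprod (t : G) t.2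
    have hcn' : (c : G) = (n : G) := hcn
    have hcb : b * (c : G) = (c : G) * b := (hc (c : G) c.2 b hb).symm
    have e : ((t * n * t⁻¹ : ↥T) : G) = d * (c : G) * d⁻¹ := by
      have e0 : ((t * n * t⁻¹ : ↥T) : G) = (t : G) * (n : G) * (t : G)⁻¹ := rfl
      rw [e0, htd, ← hcn']
      calc d * b * (c : G) * (d * b)⁻¹ = d * (b * (c : G)) * b⁻¹ * d⁻¹ := by group
        _ = d * ((c : G) * b) * b⁻¹ * d⁻¹ := by rw [hcb]
        _ = d * (c : G) * d⁻¹ := by group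
    rw [e]
    exact ⟨(⟨d, hd⟩ : ↥D) * c * (⟨d, hd⟩ : ↥D)⁻¹, hCn.conj_mem c hcC ⟨d, hd⟩, rfl⟩
  · exact (e2.trans e1.symm).isCyclic.mpr hC
  · have h1 : Nat.card ↥((C.map D.subtype).subgroupOf T) = Nat.card ↥C :=
      Nat.card_congr (e2.trans e1.symm).toEquiv
    rw [h1, prod_card T D B hprod, hcard, hB4]
    omega

end Cfsg.Agent.Lib.Helper29.Har
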