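import Mathlib
import Cfsg.Agent.Lib.Helper78.HarDefs
import Cfsg.Agent.Lib.Helper29.HarPRODC

/-! S1235 (project HAR) piece PRODZ: the centre of an internal direct product `T = D × B` of a
group `D` with centre inside `{1, z}` and a four-group `B`. -/

set_option autoImplicit false

namespace Cfsg.Agent.Lib.Helper29.Har

open Cfsg.Agent.Lib.Helper78.Har

theorem prod_center {G : Type*} [Group G] [Finite G] (T D B : Subgroup G)
    (hprod : Cfsg.IsInternalDirectProduct D B T) (hB : IsKleinFour B) (z : ↥D) (hz1 : z ≠ 1)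
    (hz2 : z ^ 2 = 1) (hzc : ∀ c : ↥D, (∀ d : ↥D, c * d = d * c) → c = 1 ∨ c = z) :
    ∃ Z : Subgroup G, (∀ w : G, w ∈ Z ↔ w ∈ T ∧ ∀ t ∈ T, w * t = t * w) ∧ Nat.card Z ≤ 8 ∧
      (∀ w ∈ Z, w ^ 2 = 1) ∧ B ≤ Z := by
  classical
  have hD := hprod.1
  have hBT := hprod.2.1
  have hc := hprod.2.2.1
  have hBsq : ∀ b ∈ B, b * b = 1 := by
    intro b hb
    have h : (⟨b, hb⟩ : ↥B) ^ 2 = 1 := by
      rw [← hB.exponent_two]; exact Monoid.pow_exponent_eq_one _
    have h' := congrArg Subtype.val h
    rw [pow_two] at h'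
    exact h'
  have hBcomm : ∀ b ∈ B, ∀ b' ∈ B, b * b' = b' * b := by
    intro b hb b' hb'
    exact comm_of_sq B (fun t ht => by rw [pow_two]; exact hBsq t ht) hb hb'
  have hmem : ∀ w : G, w ∈ T ⊓ Subgroup.centralizer (T : Set G) ↔
      w ∈ T ∧ ∀ t ∈ T, w * t = t * w := by
    intro w
    rw [Subgroup.mem_inf, Subgroup.mem_centralizer_iff]
    constructor
    · rintro ⟨h1, h2⟩; exact ⟨h1, fun t ht => (h2 t ht).symm⟩
    · rintro ⟨h1, h2⟩; exact ⟨h1, fun t ht => (h2 t ht).symm⟩
  -- the structure of the central elements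
  have hstruct : ∀ w ∈ T ⊓ Subgroup.centralizer (T : Set G),
      ∃ b ∈ B, w = b ∨ w = (z : G) * b := by
    intro w hw
    obtain ⟨hwT, hwc⟩ := (hmem w).mp hw
    obtain ⟨d, hd, b, hb, rfl⟩ := prod_decomp T D B hprod w hwT
    have hdc : ∀ d' : ↥D, (⟨d, hd⟩ : ↥D) * d' = d' * ⟨d, hd⟩ := by
      intro d'
      apply Subtype.ext
      show d * (d' : G) = (d' : G) * d
      have h1 := hwc (d' : G) (hD d'.2)
      have h2 : b * (d' : G) = (d' : G) * b := (hc _ d'.2 b hb).symm
      have h3 : d * (d' : G) * b = (d' : G) * d * b := by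
        calc d * (d' : G) * b = d * (b * (d' : G)) := by rw [h2, mul_assoc]
          _ = d * b * (d' : G) := by rw [mul_assoc]
          _ = (d' : G) * (d * b) := h1
          _ = (d' : G) * d * b := by rw [mul_assoc]
      exact mul_right_cancel h3
    rcases hzc ⟨d, hd⟩ hdc with h | h
    · refine ⟨b, hb, Or.inl ?_⟩
      have : d = 1 := congrArg Subtype.val h
      rw [this, one_mul]
    · refine ⟨b, hb, Or.inr ?_⟩
      have : d = (z : G) := congrArg Subtype.val h
      rw [this]
  refine ⟨T ⊓ Subgroup.centralizer (T : Set G), hmem, ?_, ?_, ?_⟩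
  · -- the order
    have hsub : ((T ⊓ Subgroup.centralizer (T : Set G) : Subgroup G) : Set G) ⊆
        (B : Set G) ∪ (fun b => (z : G) * b) '' (B : Set G) := by
      intro w hw
      obtain ⟨b, hb, h | h⟩ := hstruct w hw
      · left; rw [h]; exact hb
      · right; exact ⟨b, hb, h.symm⟩
    have h1 : Nat.card ↥(T ⊓ Subgroup.centralizer (T : Set G)) =
        Set.ncard ((T ⊓ Subgroup.centralizer (T : Set G) : Subgroup G) : Set G) :=
      Nat.card_coe_set_eq _
    have h2 : Nat.card ↥B = Set.ncard (B : Set G) := Nat.card_coe_set_eq _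
    rw [h1]
    calc Set.ncard ((T ⊓ Subgroup.centralizer (T : Set G) : Subgroup G) : Set G)
        ≤ Set.ncard ((B : Set G) ∪ (fun b => (z : G) * b) '' (B : Set G)) :=
          Set.ncard_le_ncard hsub (Set.toFinite _)
      _ ≤ Set.ncard (B : Set G) + Set.ncard ((fun b => (z : G) * b) '' (B : Set G)) :=
          Set.ncard_union_le _ _
      _ ≤ Set.ncard (B : Set G) + Set.ncard (B : Set G) :=
          Nat.add_le_add_left (Set.ncard_image_le (Set.toFinite _)) _
      _ = 8 := by rw [← h2, hB.card_four]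
  · -- the exponent
    intro w hw
    obtain ⟨b, hb, h | h⟩ := hstruct w hw
    · rw [h, pow_two]; exact hBsq b hb
    · have hzz : (z : G) * (z : G) = 1 := by
        have := congrArg Subtype.val hz2
        rw [pow_two] at this
        exact this
      have hzb : b * (z : G) = (z : G) * b := (hc _ z.2 b hb).symm
      rw [h, pow_two]
      calc (z : G) * b * ((z : G) * b) = (z : G) * (b * (z : G)) * b := by group
        _ = (z : G) * ((z : G) * b) * b := by rw [hzb]
        _ = ((z : G) * (z : G)) * (b * b) := by group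
        _ = 1 := by rw [hzz, hBsq b hb, one_mul]
  · -- `B` is central
    intro b hb
    rw [hmem]
    refine ⟨hBT hb, ?_⟩
    intro t ht
    obtain ⟨d', hd', b', hb', rfl⟩ := prod_decomp T D B hprod t ht
    have h1 : b * d' = d' * b := (hc d' hd' b hb).symm
    have h2 := hBcomm b hb b' hb'
    calc b * (d' * b') = (b * d') * b' := by rw [mul_assoc]
      _ = d' * (b * b') := by rw [h1, mul_assoc]
      _ = d' * b' * b := by rw [h2, mul_assoc]

end Cfsg.Agent.Lib.Helper29.Har
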