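import Mathlib
import Cfsg.Agent.Lib.Helper17.J3MMOD3

/-! S2041 (Schur multiplier of `J₃`) piece J3M-CORE3: the part of the commutator subgroup of
`⟨x, y⟩ A` inside the central subgroup `A` is, on `3`-elements, generated by `[x, [x, a]]`. -/

set_option autoImplicit false
open scoped commutatorElement
universe u v

namespace Cfsg.Agent.Lib.Helper29.J3MCORE3

open Cfsg.Agent.Lib.Helper17.J3MMOD3 (three_mod)

/-- the elements normalising `N` in both directions -/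
def nrm {Γ : Type u} [Group Γ] (N : Subgroup Γ) : Subgroup Γ where
  carrier := {h | (∀ n ∈ N, h * n * h⁻¹ ∈ N) ∧ (∀ n ∈ N, h⁻¹ * n * h ∈ N)}
  one_mem' := ⟨fun n hn => by simpa using hn, fun n hn => by simpa using hn⟩
  mul_mem' := by
    rintro h h' ⟨h1, h2⟩ ⟨h1', h2'⟩
    refine ⟨fun n hn => ?_, fun n hn => ?_⟩
    · have h3 := h1 _ (h1' n hn)
      have e : h * h' * n * (h * h')⁻¹ = h * (h' * n * h'⁻¹) * h⁻¹ := by group
      rw [e]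
      exact h3
    · have h3 := h2' _ (h2 n hn)
      have e : (h * h')⁻¹ * n * (h * h') = h'⁻¹ * (h⁻¹ * n * h) * h' := by group
      rw [e]
      exact h3
  inv_mem' := by
    rintro h ⟨h1, h2⟩
    refine ⟨fun n hn => ?_, fun n hn => ?_⟩
    · rw [inv_inv]
      exact h2 n hn
    · rw [inv_inv]
      exact h1 n hn

/-- the elements normalising `N` and commuting with `g` modulo `N` -/
def zz {Γ : Type u} [Group Γ] (N : Subgroup Γ) (g : Γ) : Subgroup Γ where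
  carrier := {h | h ∈ nrm N ∧ ⁅g, h⁆ ∈ N}
  one_mem' := ⟨(nrm N).one_mem, by rw [commutatorElement_one_right]; exact N.one_mem⟩
  mul_mem' := by
    rintro h h' ⟨hn, hc⟩ ⟨hn', hc'⟩
    refine ⟨(nrm N).mul_mem hn hn', ?_⟩
    have e : ⁅g, h * h'⁆ = ⁅g, h⁆ * (h * ⁅g, h'⁆ * h⁻¹) := by
      simp only [commutatorElement_def]
      group
    rw [e]
    exact N.mul_mem hc (hn.1 _ hc')
  inv_mem' := by
    rintro h ⟨hn, hc⟩
    refine ⟨(nrm N).inv_mem hn, ?_⟩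
    have e : ⁅g, h⁻¹⁆ = h⁻¹ * ⁅g, h⁆⁻¹ * h := by
      simp only [commutatorElement_def]
      group
    rw [e]
    exact hn.2 _ (N.inv_mem hc)

theorem comm_le_of_gens {Γ : Type u} [Group Γ] (N : Subgroup Γ) (S : Set Γ)
    (hS : ∀ s ∈ S, s ∈ nrm N) (hcomm : ∀ s ∈ S, ∀ s' ∈ S, ⁅s, s'⁆ ∈ N) :
    ⁅Subgroup.closure S, Subgroup.closure S⁆ ≤ N := by
  have step1 : ∀ s ∈ S, Subgroup.closure S ≤ zz N s := by
    intro s hs
    rw [Subgroup.closure_le]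
    intro s' hs'
    exact ⟨hS s' hs', hcomm s hs s' hs'⟩
  have step2 : ∀ h ∈ Subgroup.closure S, Subgroup.closure S ≤ zz N h := by
    intro h hh
    rw [Subgroup.closure_le]
    intro s hs
    refine ⟨hS s hs, ?_⟩
    have h1 : ⁅s, h⁆ ∈ N := (step1 s hs hh).2
    rw [← commutatorElement_inv s h]
    exact N.inv_mem h1
  rw [Subgroup.commutator_le]
  intro g₁ hg₁ g₂ hg₂
  exact (step2 g₁ hg₁ hg₂).2

theorem cg1 {B : Type u} [CommGroup B] (p q r a : B) :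
    p * r⁻¹ * (a * q⁻¹) * (r * a⁻¹) = p * q⁻¹ := by
  have h : p * r⁻¹ * (a * q⁻¹) * (r * a⁻¹) = p * q⁻¹ * (r⁻¹ * r) * (a * a⁻¹) := by
    simp only [mul_assoc, mul_comm, mul_left_comm]
  rw [h, inv_mul_cancel, mul_inv_cancel, mul_one, mul_one]

/-- the subgroup generated by `a`, its first and second differences is stable under `X`, `Y` -/
theorem mod_stable {B : Type u} [CommGroup B] (A : Subgroup B) (X Y : B →* B)
    (hXY : ∀ b, X (Y b) = Y (X b)) (hXA : ∀ b ∈ A, X b = b) (hYA : ∀ b ∈ A, Y b = b)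
    (a t₁ t₂ v₁₁ v₁₂ v₂₂ : B) (ht1 : t₁ = X a * a⁻¹) (ht2 : t₂ = Y a * a⁻¹)
    (hv11 : v₁₁ = X t₁ * t₁⁻¹) (hv12 : v₁₂ = X t₂ * t₂⁻¹) (hv22 : v₂₂ = Y t₂ * t₂⁻¹)
    (h11 : v₁₁ ∈ A) (h12 : v₁₂ ∈ A) (h22 : v₂₂ ∈ A) :
    (∀ b ∈ Subgroup.closure ({a, t₁, t₂, v₁₁, v₁₂, v₂₂} : Set B),
      X b ∈ Subgroup.closure ({a, t₁, t₂, v₁₁, v₁₂, v₂₂} : Set B)) ∧
    (∀ b ∈ Subgroup.closure ({a, t₁, t₂, v₁₁, v₁₂, v₂₂} : Set B),
      Y b ∈ Subgroup.closure ({a, t₁, t₂, v₁₁, v₁₂, v₂₂} : Set B)) := by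
  have ha : a ∈ Subgroup.closure ({a, t₁, t₂, v₁₁, v₁₂, v₂₂} : Set B) :=
    Subgroup.subset_closure (by simp)
  have ht1m : t₁ ∈ Subgroup.closure ({a, t₁, t₂, v₁₁, v₁₂, v₂₂} : Set B) :=
    Subgroup.subset_closure (by simp)
  have ht2m : t₂ ∈ Subgroup.closure ({a, t₁, t₂, v₁₁, v₁₂, v₂₂} : Set B) :=
    Subgroup.subset_closure (by simp)
  have hv11m : v₁₁ ∈ Subgroup.closure ({a, t₁, t₂, v₁₁, v₁₂, v₂₂} : Set B) :=
    Subgroup.subset_closure (by simp)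
  have hv12m : v₁₂ ∈ Subgroup.closure ({a, t₁, t₂, v₁₁, v₁₂, v₂₂} : Set B) :=
    Subgroup.subset_closure (by simp)
  have hv22m : v₂₂ ∈ Subgroup.closure ({a, t₁, t₂, v₁₁, v₁₂, v₂₂} : Set B) :=
    Subgroup.subset_closure (by simp)
  have hXa : X a = t₁ * a := by rw [ht1, inv_mul_cancel_right]
  have hXt1 : X t₁ = v₁₁ * t₁ := by rw [hv11, inv_mul_cancel_right]
  have hXt2 : X t₂ = v₁₂ * t₂ := by rw [hv12, inv_mul_cancel_right]
  have hYa : Y a = t₂ * a := by rw [ht2, inv_mul_cancel_right]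
  have hYt2 : Y t₂ = v₂₂ * t₂ := by rw [hv22, inv_mul_cancel_right]
  have hYt1 : Y t₁ = v₁₂ * t₁ := by
    have e1 : Y t₁ = Y (X a) * (Y a)⁻¹ := by rw [ht1, map_mul, map_inv]
    have e2 : v₁₂ * t₁ = Y (X a) * (X a)⁻¹ * (a * (Y a)⁻¹) * (X a * a⁻¹) := by
      rw [hv12, ht2, ht1, map_mul, map_inv, hXY, mul_inv_rev, inv_inv]
    rw [e1, e2, cg1]
  constructor
  · have hle : Subgroup.closure ({a, t₁, t₂, v₁₁, v₁₂, v₂₂} : Set B) ≤
        (Subgroup.closure ({a, t₁, t₂, v₁₁, v₁₂, v₂₂} : Set B)).comap X := by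
      rw [Subgroup.closure_le]
      intro b hb
      rw [SetLike.mem_coe, Subgroup.mem_comap]
      simp only [Set.mem_insert_iff, Set.mem_singleton_iff] at hb
      rcases hb with hb | hb | hb | hb | hb | hb
      · rw [hb, hXa]; exact Subgroup.mul_mem _ ht1m ha
      · rw [hb, hXt1]; exact Subgroup.mul_mem _ hv11m ht1m
      · rw [hb, hXt2]; exact Subgroup.mul_mem _ hv12m ht2m
      · rw [hb, hXA _ h11]; exact hv11m
      · rw [hb, hXA _ h12]; exact hv12m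
      · rw [hb, hXA _ h22]; exact hv22m
    exact fun b hb => hle hb
  · have hle : Subgroup.closure ({a, t₁, t₂, v₁₁, v₁₂, v₂₂} : Set B) ≤
        (Subgroup.closure ({a, t₁, t₂, v₁₁, v₁₂, v₂₂} : Set B)).comap Y := by
      rw [Subgroup.closure_le]
      intro b hb
      rw [SetLike.mem_coe, Subgroup.mem_comap]
      simp only [Set.mem_insert_iff, Set.mem_singleton_iff] at hb
      rcases hb with hb | hb | hb | hb | hb | hb
      · rw [hb, hYa]; exact Subgroup.mul_mem _ ht2m ha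
      · rw [hb, hYt1]; exact Subgroup.mul_mem _ hv12m ht1m
      · rw [hb, hYt2]; exact Subgroup.mul_mem _ hv22m ht2m
      · rw [hb, hYA _ h11]; exact hv11m
      · rw [hb, hYA _ h12]; exact hv12m
      · rw [hb, hYA _ h22]; exact hv22m
    exact fun b hb => hle hb

/-- the commutative group structure on a subgroup whose elements commute -/
@[reducible] def commGroupOf {Γ : Type u} [Group Γ] (B : Subgroup Γ)
    (hB : ∀ b ∈ B, ∀ b' ∈ B, b * b' = b' * b) : CommGroup ↥B :=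
  { B.toGroup with mul_comm := fun b b' => Subtype.ext (hB b b.2 b' b'.2) }

/-- conjugation by `g` restricted to an invariant subgroup -/
def cj {Γ : Type u} [Group Γ] (B : Subgroup Γ) (g : Γ) (hg : ∀ b ∈ B, g * b * g⁻¹ ∈ B) :
    ↥B →* ↥B where
  toFun b := ⟨g * b * g⁻¹, hg b b.2⟩
  map_one' := by
    apply Subtype.ext
    simp
  map_mul' := by
    intro b b'
    apply Subtype.ext
    simp

theorem cj_val {Γ : Type u} [Group Γ] (B : Subgroup Γ) (g : Γ) (hg : ∀ b ∈ B, g * b * g⁻¹ ∈ B)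
    (b : ↥B) : ((cj B g hg b : ↥B) : Γ) = g * b * g⁻¹ := rfl

theorem three_core {Γ : Type u} [Group Γ] (A B : Subgroup Γ) (hA : A ≤ Subgroup.center Γ)
    (hAB : A ≤ B) (hB : ∀ b ∈ B, ∀ b' ∈ B, b * b' = b' * b)
    (x y c a : Γ) (ha : a = ⁅x, y⁆) (haB : a ∈ B)
    (hBP : B ≤ Subgroup.closure ({x, y} : Set Γ) ⊔ A)
    (hxB : ∀ b ∈ B, x * b * x⁻¹ ∈ B) (hyB : ∀ b ∈ B, y * b * y⁻¹ ∈ B)
    (hcB : ∀ b ∈ B, c * b * c⁻¹ ∈ B)
    (hx3 : x ^ 3 ∈ B) (hy3 : y ^ 3 ∈ B)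
    (hcx : ∃ b ∈ B, c * x * c⁻¹ = x * y ^ 2 * b) (hcy : ∃ b ∈ B, c * y * c⁻¹ = x * y * b)
    (h11 : ⁅x, ⁅x, a⁆⁆ ∈ A) (h12 : ⁅x, ⁅y, a⁆⁆ ∈ A) (h22 : ⁅y, ⁅y, a⁆⁆ ∈ A)
    (h3a : a ^ 3 ∈ A)
    (hind : ∀ n₁ n₂ n₃ : ℤ, a ^ n₁ * ⁅x, a⁆ ^ n₂ * ⁅y, a⁆ ^ n₃ ∈ A →
      (3 : ℤ) ∣ n₁ ∧ (3 : ℤ) ∣ n₂ ∧ (3 : ℤ) ∣ n₃)
    (hca : ∃ i j : ℤ, c * a * c⁻¹ * a * (⁅x, a⁆ ^ i)⁻¹ * (⁅y, a⁆ ^ j)⁻¹ ∈ A) :
    ⁅x, ⁅x, a⁆⁆ ^ 3 = 1 ∧
    ∀ g ∈ ⁅Subgroup.closure ({x, y} : Set Γ) ⊔ A, Subgroup.closure ({x, y} : Set Γ) ⊔ A⁆, g ∈ A →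
      (∃ n : ℕ, g ^ (3 ^ n) = 1) → g ∈ Subgroup.zpowers ⁅x, ⁅x, a⁆⁆ := by
  classical
  letI cB : CommGroup ↥B := commGroupOf B hB
  have hAc : ∀ z ∈ A, ∀ g : Γ, g * z = z * g := fun z hz g =>
    Subgroup.mem_center_iff.mp (hA hz) g
  -- the relations in `Γ`
  have hXYΓ : ∀ b ∈ B, x * (y * b * y⁻¹) * x⁻¹ = y * (x * b * x⁻¹) * y⁻¹ := by
    intro b hb
    have hb' : y * (x * b * x⁻¹) * y⁻¹ ∈ B := hyB _ (hxB _ hb)
    have e : x * (y * b * y⁻¹) * x⁻¹ = a * (y * (x * b * x⁻¹) * y⁻¹) * a⁻¹ := by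
      rw [ha, commutatorElement_def]; group
    rw [e, hB a haB _ hb', mul_inv_cancel_right]
  have hX3Γ : ∀ b ∈ B, x * (x * (x * b * x⁻¹) * x⁻¹) * x⁻¹ = b := by
    intro b hb
    have hx3' : x * x * x ∈ B := by
      have e : x ^ 3 = x * x * x := by rw [pow_succ, pow_two]
      rw [← e]; exact hx3
    have e : x * (x * (x * b * x⁻¹) * x⁻¹) * x⁻¹ = (x * x * x) * b * (x * x * x)⁻¹ := by group
    rw [e, hB _ hx3' b hb, mul_inv_cancel_right]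
  have hY3Γ : ∀ b ∈ B, y * (y * (y * b * y⁻¹) * y⁻¹) * y⁻¹ = b := by
    intro b hb
    have hy3' : y * y * y ∈ B := by
      have e : y ^ 3 = y * y * y := by rw [pow_succ, pow_two]
      rw [← e]; exact hy3
    have e : y * (y * (y * b * y⁻¹) * y⁻¹) * y⁻¹ = (y * y * y) * b * (y * y * y)⁻¹ := by group
    rw [e, hB _ hy3' b hb, mul_inv_cancel_right]
  have hφXΓ : ∀ b ∈ B, c * (x * b * x⁻¹) * c⁻¹ =
      x * (y * (y * (c * b * c⁻¹) * y⁻¹) * y⁻¹) * x⁻¹ := by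
    intro b hb
    obtain ⟨b₀, hb₀, hcx'⟩ := hcx
    have e : c * (x * b * x⁻¹) * c⁻¹ = (c * x * c⁻¹) * (c * b * c⁻¹) * (c * x * c⁻¹)⁻¹ := by
      group
    have e2 : x * (y * y) * b₀ * (c * b * c⁻¹) * (x * (y * y) * b₀)⁻¹ =
        x * (y * y) * (b₀ * (c * b * c⁻¹) * b₀⁻¹) * (x * (y * y))⁻¹ := by group
    rw [pow_two] at hcx'
    rw [e, hcx', e2, hB b₀ hb₀ _ (hcB b hb), mul_inv_cancel_right]
    group
  have hφYΓ : ∀ b ∈ B, c * (y * b * y⁻¹) * c⁻¹ = x * (y * (c * b * c⁻¹) * y⁻¹) * x⁻¹ := by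
    intro b hb
    obtain ⟨b₀, hb₀, hcy'⟩ := hcy
    have e : c * (y * b * y⁻¹) * c⁻¹ = (c * y * c⁻¹) * (c * b * c⁻¹) * (c * y * c⁻¹)⁻¹ := by
      group
    have e2 : x * y * b₀ * (c * b * c⁻¹) * (x * y * b₀)⁻¹ =
        x * y * (b₀ * (c * b * c⁻¹) * b₀⁻¹) * (x * y)⁻¹ := by group
    rw [e, hcy', e2, hB b₀ hb₀ _ (hcB b hb), mul_inv_cancel_right]
    group
  -- the module data
  let X : ↥B →* ↥B := cj B x hxB
  let Y : ↥B →* ↥B := cj B y hyB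
  let φ : ↥B →* ↥B := cj B c hcB
  let a' : ↥B := ⟨a, haB⟩
  let t₁' : ↥B := X a' * a'⁻¹
  let t₂' : ↥B := Y a' * a'⁻¹
  let v₁₁' : ↥B := X t₁' * t₁'⁻¹
  let v₁₂' : ↥B := X t₂' * t₂'⁻¹
  let v₂₂' : ↥B := Y t₂' * t₂'⁻¹
  have ct1 : (t₁' : Γ) = ⁅x, a⁆ := rfl
  have ct2 : (t₂' : Γ) = ⁅y, a⁆ := rfl
  have cv11 : (v₁₁' : Γ) = ⁅x, ⁅x, a⁆⁆ := rfl
  have cv12 : (v₁₂' : Γ) = ⁅x, ⁅y, a⁆⁆ := rfl
  have cv22 : (v₂₂' : Γ) = ⁅y, ⁅y, a⁆⁆ := rfl
  have hXY : ∀ b : ↥B, X (Y b) = Y (X b) := fun b => Subtype.ext (hXYΓ b b.2)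
  have hXA : ∀ b ∈ A.subgroupOf B, X b = b := by
    intro b hb
    apply Subtype.ext
    show x * (b : Γ) * x⁻¹ = b
    rw [hAc _ (Subgroup.mem_subgroupOf.mp hb) x, mul_inv_cancel_right]
  have hYA : ∀ b ∈ A.subgroupOf B, Y b = b := by
    intro b hb
    apply Subtype.ext
    show y * (b : Γ) * y⁻¹ = b
    rw [hAc _ (Subgroup.mem_subgroupOf.mp hb) y, mul_inv_cancel_right]
  have hφA : ∀ b ∈ A.subgroupOf B, φ b = b := by
    intro b hb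
    apply Subtype.ext
    show c * (b : Γ) * c⁻¹ = b
    rw [hAc _ (Subgroup.mem_subgroupOf.mp hb) c, mul_inv_cancel_right]
  have hX3 : ∀ b : ↥B, X (X (X b)) = b := fun b => Subtype.ext (hX3Γ b b.2)
  have hY3 : ∀ b : ↥B, Y (Y (Y b)) = b := fun b => Subtype.ext (hY3Γ b b.2)
  have hφX : ∀ b : ↥B, φ (X b) = X (Y (Y (φ b))) := fun b => Subtype.ext (hφXΓ b b.2)
  have hφY : ∀ b : ↥B, φ (Y b) = X (Y (φ b)) := fun b => Subtype.ext (hφYΓ b b.2)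
  have h11' : v₁₁' ∈ A.subgroupOf B := Subgroup.mem_subgroupOf.mpr h11
  have h12' : v₁₂' ∈ A.subgroupOf B := Subgroup.mem_subgroupOf.mpr h12
  have h22' : v₂₂' ∈ A.subgroupOf B := Subgroup.mem_subgroupOf.mpr h22
  have h3a' : a' ^ 3 ∈ A.subgroupOf B := Subgroup.mem_subgroupOf.mpr h3a
  have hind' : ∀ n₁ n₂ n₃ : ℤ, a' ^ n₁ * t₁' ^ n₂ * t₂' ^ n₃ ∈ A.subgroupOf B →
      (3 : ℤ) ∣ n₁ ∧ (3 : ℤ) ∣ n₂ ∧ (3 : ℤ) ∣ n₃ := by
    intro n₁ n₂ n₃ h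
    apply hind
    have h' := Subgroup.mem_subgroupOf.mp h
    have e : ((a' ^ n₁ * t₁' ^ n₂ * t₂' ^ n₃ : ↥B) : Γ) = a ^ n₁ * ⁅x, a⁆ ^ n₂ * ⁅y, a⁆ ^ n₃ := by
      rw [← ct1, ← ct2]
      rfl
    rw [e] at h'
    exact h'
  have hφa : ∃ i j : ℤ, φ a' * a' * (t₁' ^ i)⁻¹ * (t₂' ^ j)⁻¹ ∈ A.subgroupOf B := by
    obtain ⟨i, j, hij⟩ := hca
    refine ⟨i, j, Subgroup.mem_subgroupOf.mpr ?_⟩
    have e : ((φ a' * a' * (t₁' ^ i)⁻¹ * (t₂' ^ j)⁻¹ : ↥B) : Γ) =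
        c * a * c⁻¹ * a * (⁅x, a⁆ ^ i)⁻¹ * (⁅y, a⁆ ^ j)⁻¹ := by
      rw [← ct1, ← ct2]
      rfl
    rw [e]
    exact hij
  -- the commutator subgroup lies in the image of `B0`
  obtain ⟨stX, stY⟩ := mod_stable (A.subgroupOf B) X Y hXY hXA hYA a' t₁' t₂' v₁₁' v₁₂' v₂₂'
    rfl rfl rfl rfl rfl h11' h12' h22'
  have key : ⁅Subgroup.closure ({x, y} : Set Γ) ⊔ A, Subgroup.closure ({x, y} : Set Γ) ⊔ A⁆ ≤
      (Subgroup.closure ({a', t₁', t₂', v₁₁', v₁₂', v₂₂'} : Set ↥B)).map B.subtype := by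
    have hcl : Subgroup.closure ({x, y} : Set Γ) ⊔ A =
        Subgroup.closure (({x, y} : Set Γ) ∪ (A : Set Γ)) := by
      rw [Subgroup.closure_union, Subgroup.closure_eq]
    rw [hcl]
    have hxn : x ∈ nrm ((Subgroup.closure ({a', t₁', t₂', v₁₁', v₁₂', v₂₂'} : Set ↥B)).map
        B.subtype) := by
      constructor
      · rintro n ⟨n', hn', rfl⟩
        exact ⟨X n', stX n' hn', rfl⟩
      · rintro n ⟨n', hn', rfl⟩
        refine ⟨X (X n'), stX _ (stX n' hn'), ?_⟩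
        have h3 := hX3Γ n' n'.2
        show x * (x * (n' : Γ) * x⁻¹) * x⁻¹ = x⁻¹ * (n' : Γ) * x
        have e : x⁻¹ * (n' : Γ) * x =
            x⁻¹ * (x * (x * (x * (n' : Γ) * x⁻¹) * x⁻¹) * x⁻¹) * x := by rw [h3]
        rw [e]
        group
    have hyn : y ∈ nrm ((Subgroup.closure ({a', t₁', t₂', v₁₁', v₁₂', v₂₂'} : Set ↥B)).map
        B.subtype) := by
      constructor
      · rintro n ⟨n', hn', rfl⟩
        exact ⟨Y n', stY n' hn', rfl⟩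
      · rintro n ⟨n', hn', rfl⟩
        refine ⟨Y (Y n'), stY _ (stY n' hn'), ?_⟩
        have h3 := hY3Γ n' n'.2
        show y * (y * (n' : Γ) * y⁻¹) * y⁻¹ = y⁻¹ * (n' : Γ) * y
        have e : y⁻¹ * (n' : Γ) * y =
            y⁻¹ * (y * (y * (y * (n' : Γ) * y⁻¹) * y⁻¹) * y⁻¹) * y := by rw [h3]
        rw [e]
        group
    have hzn : ∀ z ∈ A, z ∈ nrm ((Subgroup.closure
        ({a', t₁', t₂', v₁₁', v₁₂', v₂₂'} : Set ↥B)).map B.subtype) := by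
      intro z hz
      constructor
      · intro n hn
        have e : z * n * z⁻¹ = n := by
          rw [← hAc z hz n, mul_inv_cancel_right]
        rw [e]
        exact hn
      · intro n hn
        have e : z⁻¹ * n * z = n := by
          rw [mul_assoc, hAc z hz n, inv_mul_cancel_left]
        rw [e]
        exact hn
    have ham : a ∈ (Subgroup.closure ({a', t₁', t₂', v₁₁', v₁₂', v₂₂'} : Set ↥B)).map
        B.subtype := ⟨a', Subgroup.subset_closure (by simp), rfl⟩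
    have hcz : ∀ z ∈ A, ∀ g : Γ, ⁅g, z⁆ = 1 := by
      intro z hz g
      rw [commutatorElement_def, hAc z hz g, mul_inv_cancel_right, mul_inv_cancel]
    have hcz' : ∀ z ∈ A, ∀ g : Γ, ⁅z, g⁆ = 1 := by
      intro z hz g
      rw [← commutatorElement_inv, hcz z hz g, inv_one]
    apply comm_le_of_gens
    · intro s hs
      rcases hs with hs | hs
      · rcases hs with hs | hs
        · rw [hs]; exact hxn
        · rw [Set.mem_singleton_iff] at hs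
          rw [hs]; exact hyn
      · exact hzn s hs
    · intro s hs s' hs'
      rcases hs with hs | hs
      · rcases hs' with hs' | hs'
        · rcases hs with hs | hs
          · rcases hs' with hs' | hs'
            · rw [hs, hs', commutatorElement_self]; exact Subgroup.one_mem _
            · rw [Set.mem_singleton_iff] at hs'
              rw [hs, hs', ← ha]; exact ham
          · rw [Set.mem_singleton_iff] at hs
            rcases hs' with hs' | hs'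
            · rw [hs, hs', ← commutatorElement_inv, ← ha]; exact Subgroup.inv_mem _ ham
            · rw [Set.mem_singleton_iff] at hs'
              rw [hs, hs', commutatorElement_self]; exact Subgroup.one_mem _
        · rw [hcz s' hs' s]; exact Subgroup.one_mem _
      · rw [hcz' s hs s']; exact Subgroup.one_mem _
  have hφa' : φ a' ∈ Subgroup.closure ({a', t₁', t₂', v₁₁', v₁₂', v₂₂'} : Set ↥B) := by
    have hxP : x ∈ Subgroup.closure ({x, y} : Set Γ) ⊔ A :=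
      (le_sup_left : Subgroup.closure ({x, y} : Set Γ) ≤ _) (Subgroup.subset_closure (by simp))
    have hyP : y ∈ Subgroup.closure ({x, y} : Set Γ) ⊔ A :=
      (le_sup_left : Subgroup.closure ({x, y} : Set Γ) ≤ _) (Subgroup.subset_closure (by simp))
    have h1 : c * x * c⁻¹ ∈ Subgroup.closure ({x, y} : Set Γ) ⊔ A := by
      obtain ⟨b₀, hb₀, e⟩ := hcx
      rw [e]
      exact Subgroup.mul_mem _ (Subgroup.mul_mem _ hxP (Subgroup.pow_mem _ hyP 2)) (hBP hb₀)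
    have h2 : c * y * c⁻¹ ∈ Subgroup.closure ({x, y} : Set Γ) ⊔ A := by
      obtain ⟨b₀, hb₀, e⟩ := hcy
      rw [e]
      exact Subgroup.mul_mem _ (Subgroup.mul_mem _ hxP hyP) (hBP hb₀)
    have h3 : c * a * c⁻¹ = ⁅c * x * c⁻¹, c * y * c⁻¹⁆ := by
      rw [ha, commutatorElement_def, commutatorElement_def]; group
    have h4 : c * a * c⁻¹ ∈ (Subgroup.closure ({a', t₁', t₂', v₁₁', v₁₂', v₂₂'} : Set ↥B)).map
        B.subtype := by
      rw [h3]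
      exact key (Subgroup.commutator_mem_commutator h1 h2)
    obtain ⟨w, hw, hwe⟩ := h4
    have : w = φ a' := Subtype.ext hwe
    rw [← this]
    exact hw
  obtain ⟨r1, r2⟩ := three_mod (A.subgroupOf B) X Y φ hXY hXA hYA hφA hX3 hY3 hφX hφY
    a' t₁' t₂' v₁₁' v₁₂' v₂₂' rfl rfl rfl rfl rfl h11' h12' h22' h3a' hind' hφa hφa'
  constructor
  · have e : ((v₁₁' ^ 3 : ↥B) : Γ) = ⁅x, ⁅x, a⁆⁆ ^ 3 := rfl
    rw [← e, r1]
    rfl
  · intro g hg hgA hg3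
    obtain ⟨g', hg', hge⟩ := key hg
    have hge' : (g' : Γ) = g := hge
    have hgA' : g' ∈ A.subgroupOf B := by
      rw [Subgroup.mem_subgroupOf, hge']
      exact hgA
    have hg3' : ∃ n : ℕ, g' ^ (3 ^ n) = 1 := by
      obtain ⟨n, hn⟩ := hg3
      refine ⟨n, Subtype.ext ?_⟩
      have e : ((g' ^ (3 ^ n) : ↥B) : Γ) = (g' : Γ) ^ (3 ^ n) := rfl
      rw [e, hge', hn]
      rfl
    obtain ⟨k, hk⟩ := Subgroup.mem_zpowers_iff.mp (r2 g' hg' hgA' hg3')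
    refine Subgroup.mem_zpowers_iff.mpr ⟨k, ?_⟩
    rw [← hge', ← hk]
    rfl

end Cfsg.Agent.Lib.Helper29.J3MCORE3
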