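import Mathlib
import Cfsg.Agent.Lib.Helper72.JPDefs

/-! Project JP (helper72), piece GEN: if `X = ⟨J^X⟩ · N(J)`, `N(J) ≤ Y` and `x j x⁻¹ ∈ Y` for all
`x` in a normal subgroup `XH ⊇ J`, then `Y = ⊤`. -/

set_option autoImplicit false

namespace Cfsg.Agent.Lib.Helper29.JP

open Cfsg.Agent.Lib.Helper72.JP Cfsg.Agent.Lib.Helper72.JM Cfsg.Agent.Lib.Helper72.JL
  Cfsg.Agent.Lib.Helper72.SC Cfsg.Agent.Lib.Helper78.Jc

open scoped commutatorElement

universe u

theorem gen : GenStmt.{u} := by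
  unfold GenStmt
  intro X _ J XH Y hXHn hJ htop hN hconj
  have hncl : Subgroup.normalClosure (J : Set X) ≤ XH := Subgroup.normalClosure_le_normal hJ
  have hall : ∀ g : X, ∀ j ∈ J, g * j * g⁻¹ ∈ Y := by
    intro g j hj
    have hg : g ∈ ((Subgroup.normalClosure (J : Set X) ⊔ Subgroup.normalizer (J : Set X) :
        Subgroup X) : Set X) := by
      rw [htop]
      exact Set.mem_univ g
    rw [Subgroup.normal_mul] at hg
    obtain ⟨x', hx', n, hn, rfl⟩ := Set.mem_mul.mp hg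
    have hnj : n * j * n⁻¹ ∈ J := (Subgroup.mem_normalizer_iff.mp hn j).mp hj
    have h1 := hconj x' (hncl hx') (n * j * n⁻¹) hnj
    have e : x' * n * j * (x' * n)⁻¹ = x' * (n * j * n⁻¹) * x'⁻¹ := by group
    rw [e]
    exact h1
  have hncY : Subgroup.normalClosure (J : Set X) ≤ Y := by
    unfold Subgroup.normalClosure
    rw [Subgroup.closure_le]
    intro z hz
    obtain ⟨j, hj, hc⟩ := Group.mem_conjugatesOfSet_iff.mp hz
    obtain ⟨c, rfl⟩ := isConj_iff.mp hc
    exact hall c j hj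
  rw [eq_top_iff, ← htop]
  exact sup_le hncY hN

end Cfsg.Agent.Lib.Helper29.JP
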