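import Mathlib
import Cfsg.Agent.Lib.Helper72.JPDefs
import Cfsg.Agent.Lib.Helper94.JcTH

/-! Project JP (helper72), piece NTJ: `N_X(T)` normalizes `JT T`. -/

set_option autoImplicit false

namespace Cfsg.Agent.Lib.Helper29.JP

open Cfsg.Agent.Lib.Helper72.JP Cfsg.Agent.Lib.Helper72.JM Cfsg.Agent.Lib.Helper72.JL
  Cfsg.Agent.Lib.Helper72.SC Cfsg.Agent.Lib.Helper78.Jc

open scoped commutatorElement

universe u

theorem ntj : NtjStmt.{u} := by
  unfold NtjStmt
  intro X _ _ T x hx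
  have key : ∀ y ∈ Subgroup.normalizer (T : Set X), ∀ j ∈ JT T, y * j * y⁻¹ ∈ JT T := by
    intro y hy j hj
    have hle : JT T ≤ (JT T).comap (MulAut.conj y).toMonoidHom := by
      apply sSup_le
      intro A hA z hz
      show y * z * y⁻¹ ∈ JT T
      have hA' : IsMaxEA T (A.map (MulAut.conj y).toMonoidHom) :=
        Cfsg.Agent.Lib.Helper94.Jc.maxEA_conj T A hA y
          (fun w hw => (Subgroup.mem_normalizer_iff.mp hy w).mp (hA.1 hw))
      have h2 : A.map (MulAut.conj y).toMonoidHom ≤ JT T := le_sSup hA'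
      exact h2 ⟨z, hz, rfl⟩
    exact hle hj
  rw [Subgroup.mem_normalizer_iff]
  intro h
  constructor
  · exact key x hx h
  · intro hh
    have h3 := key x⁻¹ (inv_mem hx) _ hh
    have e : x⁻¹ * (x * h * x⁻¹) * x⁻¹⁻¹ = h := by group
    rw [e] at h3
    exact h3

end Cfsg.Agent.Lib.Helper29.JP
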