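import Mathlib
import Cfsg.Agent.Lib.Helper72.JRDefs

/-! Project JR (helper72, S2950), piece MAX: in a finite group every 2-local subgroup lies in a
maximal 2-local subgroup. -/

set_option autoImplicit false

namespace Cfsg.Agent.Lib.Helper29.JR

open Cfsg.Agent.Lib.Helper72.JR Cfsg.Agent.Lib.Helper72.JP Cfsg.Agent.Lib.Helper72.JM
  Cfsg.Agent.Lib.Helper72.JL Cfsg.Agent.Lib.Helper72.SC Cfsg.Agent.Lib.Helper78.Jc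

open scoped commutatorElement

universe u

theorem maxl : MaxStmt.{u} := by
  unfold MaxStmt
  intro G _ _ N hN
  classical
  obtain ⟨𝒮, h𝒮⟩ : ∃ 𝒮 : Set (Subgroup G), ∀ L, L ∈ 𝒮 ↔ (Cfsg.IsTwoLocal L ∧ N ≤ L) :=
    ⟨{L | Cfsg.IsTwoLocal L ∧ N ≤ L}, fun _ => Iff.rfl⟩
  have hne : 𝒮.Nonempty := ⟨N, (h𝒮 N).2 ⟨hN, le_rfl⟩⟩
  obtain ⟨L, hL, hmax⟩ := (Set.toFinite 𝒮).exists_maximal hne
  obtain ⟨hL2, hNL⟩ := (h𝒮 L).1 hL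
  refine ⟨L, ⟨hL2, ?_⟩, hNL⟩
  intro N' hN' hLN'
  exact le_antisymm (hmax ((h𝒮 N').2 ⟨hN', hNL.trans hLN'⟩) hLN') hLN'

end Cfsg.Agent.Lib.Helper29.JR
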