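import Mathlib
import Cfsg.Agent.Lib.Helper72.JRDefs
import Cfsg.Agent.Lib.Helper75.JcWF
import Cfsg.Agent.Lib.Helper82.JcOCPC

/-! Project JR (helper72, S2950), piece NW: for a `J(T)`-component `K`, both `J(T)` and `K`
normalize `wOf K`, which is a nontrivial 2-group contained in `K`. -/

set_option autoImplicit false

namespace Cfsg.Agent.Lib.Helper29.JR

open Cfsg.Agent.Lib.Helper72.JR Cfsg.Agent.Lib.Helper72.JP Cfsg.Agent.Lib.Helper72.JM
  Cfsg.Agent.Lib.Helper72.JL Cfsg.Agent.Lib.Helper72.SC Cfsg.Agent.Lib.Helper78.Jc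

open scoped commutatorElement

universe u

theorem nw : NwStmt.{u} := by
  unfold NwStmt
  intro G _ _ T K hK
  obtain ⟨hodd, hKJ, hidx, hsyl, hcard, hexp⟩ := hK
  -- (a) `J ≤ N(K)`
  have hJK : Cfsg.thompsonSubgroupOf 2 T ≤ Subgroup.normalizer (K : Set G) := by
    have key : ∀ j ∈ Cfsg.thompsonSubgroupOf 2 T, ∀ k ∈ K, j * k * j⁻¹ ∈ K := by
      intro j hj k hk
      have h1 : ⁅k, j⁆ ∈ ⁅K, Cfsg.thompsonSubgroupOf 2 T⁆ :=
        Subgroup.commutator_mem_commutator hk hj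
      rw [hKJ] at h1
      have e : j * k * j⁻¹ = ⁅k, j⁆⁻¹ * k := by
        rw [commutatorElement_def]
        group
      rw [e]
      exact K.mul_mem (K.inv_mem h1) hk
    intro j hj
    rw [Subgroup.mem_normalizer_iff]
    intro k
    constructor
    · exact key j hj k
    · intro h
      have h2 := key j⁻¹ (inv_mem hj) _ h
      have e : j⁻¹ * (j * k * j⁻¹) * j⁻¹⁻¹ = k := by group
      rw [e] at h2
      exact h2
  -- (b) `N(K) ≤ N(wOf K)`
  have hNK : Subgroup.normalizer (K : Set G) ≤ Subgroup.normalizer (Cfsg.wOf K : Set G) := by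
    intro g hg
    unfold Cfsg.wOf
    exact Cfsg.Agent.Lib.Helper75.Jc.wf_normalizer _ K g
      (Cfsg.Agent.Lib.Helper82.Jc.oc_normalizer _ (Cfsg.Agent.Lib.Helper82.Jc.pc_normalizer K hg))
      hg
  -- (e) `wOf K ≤ K`
  have hWK : Cfsg.wOf K ≤ K := by
    unfold Cfsg.wOf
    have h1 : ⁅Cfsg.omegaCenterOf (Cfsg.pCoreOf 2 K), K⁆ ≤
        Cfsg.omegaCenterOf (Cfsg.pCoreOf 2 K) :=
      Cfsg.Agent.Lib.Helper75.Jc.wf_le _ K
        ((Cfsg.Agent.Lib.Helper82.Jc.pc_le_normalizer K).trans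
          (Cfsg.Agent.Lib.Helper82.Jc.oc_normalizer _))
    exact h1.trans ((Cfsg.Agent.Lib.Helper82.Jc.oc_le _).trans
      (Cfsg.Agent.Lib.Helper82.Jc.pc_le K))
  refine ⟨hJK.trans hNK, Subgroup.le_normalizer.trans hNK, ?_, ?_, hWK⟩
  · exact IsPGroup.of_card (n := 2) (by rw [hcard]; norm_num)
  · intro hbot
    rw [hbot, Subgroup.card_bot] at hcard
    omega

end Cfsg.Agent.Lib.Helper29.JR
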