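import Cfsg.Agent.Lib.Helper29.Chain
import Cfsg.Agent.Lib.Helper30.Cores

set_option autoImplicit false
open scoped commutatorElement
open Cfsg

namespace Cfsg.Agent.Lib.Helper29

section NormP

variable {G : Type*} [Group G]

/-- Let `P` be a `p`-subgroup of `G` and `W ≤ N_G(P)` a subgroup centralizing every
`p`-subgroup of `G` that is normal in `N_G(P)`.  If moreover `⁅U, W, W⁆ = 1` forces `⁅U, W⁆ = 1`
for the `W`-invariant `p`-subgroups `U` of `G`, then `W` centralizes `O_p(G)`. -/
theorem centralizes_pCore_of_le_normalizer [Finite G] (p : ℕ) [Fact p.Prime] (P : Subgroup G)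
    (hP : IsPGroup p P) (W : Subgroup G)
    (hW : ∀ R : Subgroup G, IsPGroup p R → R ≤ Subgroup.normalizer (P : Set G) →
      Subgroup.normalizer (P : Set G) ≤ Subgroup.normalizer (R : Set G) →
      W ≤ Subgroup.centralizer (R : Set G))
    (hWN : W ≤ Subgroup.normalizer (P : Set G))
    (hstar : ∀ U : Subgroup G, IsPGroup p U → W ≤ Subgroup.normalizer (U : Set G) →
      ⁅⁅U, W⁆, W⁆ = ⊥ → ⁅U, W⁆ = ⊥) :
    W ≤ Subgroup.centralizer (pCore p G : Set G) := by
  have hQp : IsPGroup p (pCore p G) := Helper30.pCore_isPGroup p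
  have hQ' : IsPGroup p (pCore p G ⊔ P : Subgroup G) := IsPGroup.to_sup_of_normal_left hQp hP
  have hNQ' : Subgroup.normalizer (P : Set G) ≤
      Subgroup.normalizer ((pCore p G ⊔ P : Subgroup G) : Set G) := by
    refine le_trans ?_ (Subgroup.normalizer_inf_normalizer_le_normalizer_sup _ _)
    exact le_inf Subgroup.le_normalizer_of_normal le_rfl
  have h1 : W ≤ Subgroup.centralizer ((pCore p G ⊔ P : Subgroup G) : Set G) := by
    refine chain_centralize (pCore p G ⊔ P) P W hQ' le_sup_right (hWN.trans hNQ') ?_ ?_ ?_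
    · exact hW P hP Subgroup.le_normalizer le_rfl
    · have hR : W ≤ Subgroup.centralizer
          (((pCore p G ⊔ P) ⊓ Subgroup.normalizer (P : Set G) : Subgroup G) : Set G) := by
        apply hW
        · exact hQ'.to_le inf_le_left
        · exact inf_le_right
        · refine le_trans ?_ Subgroup.inf_normalizer_le_normalizer_inf
          exact le_inf hNQ' Subgroup.le_normalizer
      refine hR.trans (Subgroup.centralizer_le ?_)
      exact SetLike.coe_subset_coe.mpr
        (inf_le_inf_left _ (Subgroup.centralizer_le_normalizer _))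
    · intro U hU hWU h
      exact hstar U (hQ'.to_le hU) hWU h
  exact h1.trans (Subgroup.centralizer_le (SetLike.coe_subset_coe.mpr le_sup_left))

/-- if `W` and `R` normalize each other and have coprime orders then they commute -/
theorem le_centralizer_of_coprime_of_normalize [Finite G] {W R : Subgroup G}
    (h1 : W ≤ Subgroup.normalizer (R : Set G)) (h2 : R ≤ Subgroup.normalizer (W : Set G))
    (hc : (Nat.card W).Coprime (Nat.card R)) : W ≤ Subgroup.centralizer (R : Set G) := by
  rw [← Subgroup.commutator_eq_bot_iff_le_centralizer, Subgroup.commutator_comm, eq_bot_iff]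
  have ha : ⁅R, W⁆ ≤ R := commutator_le_of_le_normalizer h1
  have hb : ⁅R, W⁆ ≤ W := by
    rw [Subgroup.commutator_comm]; exact commutator_le_of_le_normalizer h2
  have hd1 : Nat.card ↥(⁅R, W⁆) ∣ Nat.card R := Subgroup.card_dvd_of_le ha
  have hd2 : Nat.card ↥(⁅R, W⁆) ∣ Nat.card W := Subgroup.card_dvd_of_le hb
  have : Nat.card ↥(⁅R, W⁆) = 1 := Nat.eq_one_of_dvd_coprimes hc hd2 hd1
  exact (Subgroup.card_eq_one.mp this).le

end NormP

end Cfsg.Agent.Lib.Helper29
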