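import Mathlib
import Cfsg.Prelude.Def_GeometricClasses
import Cfsg.Agent.Lib.Helper71.OK1
import Cfsg.Agent.Lib.Helper52.Siegel

/-!
# S5701 piece A3 (helper29): `NO` is transitive on singular `L`-lines.
`exists_NO_line_of` is the statement with the pieces A1 (`exists_rho`) and GEOM2 (`exists_hyp`,
`exists_norm`) as hypotheses.
-/

set_option autoImplicit false
set_option linter.unusedVariables false

namespace Cfsg.Agent.Lib.Helper29.OKA3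

open Matrix Cfsg.Agent.Lib.Helper71.SpK Cfsg.Agent.Lib.Helper71.OK

/-- CASE 1 of A3: two singular vectors with `(u|v) ≠ 0`. -/
theorem NO_line_case1 {ι : Type} [Fintype ι] [DecidableEq ι] {F : Type*} [Field F] [Finite F]
    {Q : QuadraticForm F (ι → F)} {L : Type*} [Field L] [Algebra F L] [FiniteDimensional F L]
    (S : KO (QuadraticMap.polar ⇑Q) L) (h2 : (2 : F) ≠ 0)
    (hrho : ∀ {u z : ι → F}, S.B u u = 0 → S.B u z = 0 →
      ∃ g ∈ S.NO Q, ∀ x, (g : Matrix ι ι F) *ᵥ x = S.rho u z x)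
    (hnorm : ∀ {u y₀ : ι → F}, S.B u u = 0 → S.B y₀ u ≠ 0 → ∀ μ : L,
      ∃ z, S.B z u = 0 ∧ S.B z y₀ = 0 ∧ S.B z z = μ)
    {u v : ι → F} (huu : S.B u u = 0) (hvv : S.B v v = 0) (huv : S.B u v ≠ 0) :
    ∃ g ∈ S.NO Q, ∃ c : L, c ≠ 0 ∧ (g : Matrix ι ι F) *ᵥ u = S.φ c *ᵥ v := by
  have hww : S.B (S.φ (S.B u v)⁻¹ *ᵥ v) (S.φ (S.B u v)⁻¹ *ᵥ v) = 0 := by
    rw [S.B_act, S.B_act_right, hvv]; ring
  have huw : S.B u (S.φ (S.B u v)⁻¹ *ᵥ v) = 1 := by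
    rw [S.B_act_right]; exact inv_mul_cancel₀ huv
  have hwu : S.B (S.φ (S.B u v)⁻¹ *ᵥ v) u = 1 := by rw [S.B_symm]; exact huw
  obtain ⟨y, hyu, hyw, hyy⟩ := hnorm huu (by rw [hwu]; exact one_ne_zero) (2 : L)
  have hwy : S.B (S.φ (S.B u v)⁻¹ *ᵥ v) y = 0 := by rw [S.B_symm]; exact hyw
  have huy : S.B u y = 0 := by rw [S.B_symm]; exact hyu
  obtain ⟨g₁, hg₁, hg₁x⟩ := hrho hww hwy
  obtain ⟨g₂, hg₂, hg₂x⟩ := hrho huu huy
  refine ⟨g₂ * g₁, mul_mem hg₂ hg₁, -(S.B u v)⁻¹, neg_ne_zero.mpr (inv_ne_zero huv), ?_⟩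
  have h2L : (2 : L) = algebraMap F L 2 := (map_ofNat (algebraMap F L) 2).symm
  have e1 : S.rho (S.φ (S.B u v)⁻¹ *ᵥ v) y u = u - y - S.φ (S.B u v)⁻¹ *ᵥ v := by
    unfold KO.rho
    rw [huy, huw, hyy, mul_one, S.φ_zero_mulVec, S.φ_one_mulVec, h2L, S.φ_algebraMap_mulVec,
      smul_smul, inv_mul_cancel₀ h2, one_smul]
    abel
  have e2 : S.rho u y (u - y - S.φ (S.B u v)⁻¹ *ᵥ v) = -(S.φ (S.B u v)⁻¹ *ᵥ v) := by
    have hxy : S.B (u - y - S.φ (S.B u v)⁻¹ *ᵥ v) y = -2 := by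
      rw [S.B_sub_left, S.B_sub_left, huy, hyy, hwy]; ring
    have hxu : S.B (u - y - S.φ (S.B u v)⁻¹ *ᵥ v) u = -1 := by
      rw [S.B_sub_left, S.B_sub_left, huu, hyu, hwu]; ring
    unfold KO.rho
    rw [hxy, hxu, hyy, mul_neg, mul_one, S.φ_neg_mulVec, S.φ_neg_mulVec, S.φ_one_mulVec, h2L,
      S.φ_algebraMap_mulVec, smul_neg, smul_smul, inv_mul_cancel₀ h2, one_smul, two_smul]
    abel
  rw [gl_mul_mulVec, hg₁x, e1, hg₂x, e2, S.φ_neg_mulVec]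

/-- A3 with the pieces A1 and GEOM2 as hypotheses. -/
theorem exists_NO_line_of {ι : Type} [Fintype ι] [DecidableEq ι] {F : Type*} [Field F] [Finite F]
    {Q : QuadraticForm F (ι → F)} {L : Type*} [Field L] [Algebra F L] [FiniteDimensional F L]
    (S : KO (QuadraticMap.polar ⇑Q) L) (h2 : (2 : F) ≠ 0)
    (hQ : (QuadraticMap.polarBilin Q).Nondegenerate)
    (hrho : ∀ {u z : ι → F}, S.B u u = 0 → S.B u z = 0 →
      ∃ g ∈ S.NO Q, ∀ x, (g : Matrix ι ι F) *ᵥ x = S.rho u z x)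
    (hhyp : ∀ {u : ι → F}, u ≠ 0 → S.B u u = 0 → ∃ u', S.B u' u' = 0 ∧ S.B u u' = 1)
    (hnorm : ∀ {u y₀ : ι → F}, S.B u u = 0 → S.B y₀ u ≠ 0 → ∀ μ : L,
      ∃ z, S.B z u = 0 ∧ S.B z y₀ = 0 ∧ S.B z z = μ)
    {u v : ι → F} (hu : u ≠ 0) (huu : S.B u u = 0) (hv : v ≠ 0) (hvv : S.B v v = 0) :
    ∃ g ∈ S.NO Q, ∃ c : L, c ≠ 0 ∧ (g : Matrix ι ι F) *ᵥ u = S.φ c *ᵥ v := by
  by_cases huv : S.B u v = 0
  swap
  · exact NO_line_case1 S h2 hrho hnorm huu hvv huv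
  -- a singular `w` with `(u|w) ≠ 0`, `(v|w) ≠ 0`
  have hw : ∃ w, S.B w w = 0 ∧ S.B u w ≠ 0 ∧ S.B w v ≠ 0 := by
    obtain ⟨u', hu'u', huu'⟩ := hhyp hu huu
    by_cases hvu' : S.B v u' = 0
    swap
    · exact ⟨u', hu'u', by rw [huu']; exact one_ne_zero, by rw [S.B_symm]; exact hvu'⟩
    have hvu : S.B v u = 0 := by rw [S.B_symm]; exact huv
    have hu'u : S.B u' u = 1 := by rw [S.B_symm]; exact huu'
    have hy : ∀ a b : L, S.φ a *ᵥ u + S.φ b *ᵥ u' ≠ v := by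
      intro a b hab
      have ha : a = 0 := by
        have h := hvu'
        rw [← hab, S.B_add, S.B_act, S.B_act, huu', hu'u'] at h
        simpa using h
      have hb : b = 0 := by
        have h := hvu
        rw [← hab, S.B_add, S.B_act, S.B_act, huu, hu'u] at h
        simpa using h
      apply hv
      rw [← hab, ha, hb, S.φ_zero_mulVec, S.φ_zero_mulVec, add_zero]
    obtain ⟨t, hut, hu't, hvt⟩ := S.exists_dual2 hQ hy
    have htu : S.B t u = 0 := by rw [S.B_symm]; exact hut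
    have htu' : S.B t u' = 0 := by rw [S.B_symm]; exact hu't
    refine ⟨u' + t - S.φ (2⁻¹ * S.B t t) *ᵥ u, ?_, ?_, ?_⟩
    · have h2L : (2 : L) ≠ 0 := by
        rw [← map_ofNat (algebraMap F L) 2]
        exact (map_ne_zero (algebraMap F L)).mpr h2
      simp only [S.B_sub_left, S.B_sub_right, S.B_add, S.B_add_right, S.B_act, S.B_act_right,
        hu'u', htu, htu', hut, hu't, huu, hu'u, huu']
      field_simp
      ring
    · rw [S.B_sub_right, S.B_add_right, S.B_act_right, huu, huu', hut]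
      simp
    · rw [S.B_sub_left, S.B_add, S.B_act, S.B_symm u' v, hvu', S.B_symm t v, hvt, huv]
      simp
  obtain ⟨w, hww, huw, hwv⟩ := hw
  obtain ⟨g₁, hg₁, c₁, hc₁, hg₁u⟩ := NO_line_case1 S h2 hrho hnorm huu hww huw
  obtain ⟨g₂, hg₂, c₂, hc₂, hg₂w⟩ := NO_line_case1 S h2 hrho hnorm hww hvv hwv
  refine ⟨g₂ * g₁, mul_mem hg₂ hg₁, c₁ * c₂, mul_ne_zero hc₁ hc₂, ?_⟩
  rw [gl_mul_mulVec, hg₁u, S.NO_act hg₂, hg₂w, S.φ_mul_mulVec]

end Cfsg.Agent.Lib.Helper29.OKA3
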