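import Mathlib
import Cfsg.Prelude.Def_GeometricClasses
import Cfsg.Agent.Lib.Helper71.OK1
import Cfsg.Agent.Lib.Helper52.Siegel
import Cfsg.Agent.Lib.Helper29.OKA3
import Cfsg.Agent.Lib.Helper55.OKA1
import Cfsg.Agent.Lib.Helper57.OKGEOM2

/-!
# S5701 piece A3 (helper29), final statement: `NO` is transitive on singular `L`-lines.
-/

set_option autoImplicit false
set_option linter.unusedVariables false

namespace Cfsg.Agent.Lib.Helper29.OKA3

open Matrix Cfsg.Agent.Lib.Helper71.SpK Cfsg.Agent.Lib.Helper71.OK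

theorem exists_NO_line {ι : Type} [Fintype ι] [DecidableEq ι] {F : Type*} [Field F] [Finite F]
    {Q : QuadraticForm F (ι → F)} {L : Type*} [Field L] [Algebra F L] [FiniteDimensional F L]
    (S : KO (QuadraticMap.polar ⇑Q) L) (h2 : (2 : F) ≠ 0)
    (hQ : (QuadraticMap.polarBilin Q).Nondegenerate)
    (hr : (Module.finrank F L).Prime) (hd : 4 * Module.finrank F L ≤ Fintype.card ι) {u v : ι → F} (hu : u ≠ 0) (huu : S.B u u = 0) (hv : v ≠ 0)
    (hvv : S.B v v = 0) :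
    ∃ g ∈ S.NO Q, ∃ c : L, c ≠ 0 ∧ (g : Matrix ι ι F) *ᵥ u = S.φ c *ᵥ v :=
  exists_NO_line_of S h2 hQ
    (fun hu hz => Cfsg.Agent.Lib.Helper55.OKA1.exists_rho S h2 hQ hr hd hu hz)
    (fun hu huu => Cfsg.Agent.Lib.Helper57.OKGEOM2.exists_hyp S h2 hQ hr hd hu huu)
    (fun hu hy₀ μ => Cfsg.Agent.Lib.Helper57.OKGEOM2.exists_norm S h2 hQ hr hd hu hy₀ μ)
    hu huu hv hvv

end Cfsg.Agent.Lib.Helper29.OKA3
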