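import Mathlib
import Cfsg.Prelude.Def_GeometricClasses
import Cfsg.Agent.Lib.Helper71.OK1
import Cfsg.Agent.Lib.Helper52.Siegel

/-!
# S5701 piece B1 (helper29): a matrix preserving all singular `L`-lines lies in `φ(L)`.
`mem_range_of_sing_line_of` is the statement with the GEOM2 pieces (`exists_sing`, `exists_hyp`,
`exists_norm`) as hypotheses.
-/

set_option autoImplicit false
set_option linter.unusedVariables false

namespace Cfsg.Agent.Lib.Helper29.OKB1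

open Matrix Cfsg.Agent.Lib.Helper71.SpK Cfsg.Agent.Lib.Helper71.OK

/-- On the `L`-line of a singular vector `u` with `(u|u') = 1`, a matrix preserving singular lines
acts through its `u'`-coefficient. -/
theorem sing_coeff {ι : Type} [Fintype ι] [DecidableEq ι] {F : Type*} [Field F]
    {Q : QuadraticForm F (ι → F)} {L : Type*} [Field L] [Algebra F L]
    (S : KO (QuadraticMap.polar ⇑Q) L) (A' : Matrix ι ι F)
    (hA : ∀ v : ι → F, S.B v v = 0 → ∃ l : L, A' *ᵥ v = S.φ l *ᵥ v)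
    {u u' : ι → F} (huu : S.B u u = 0) (huu' : S.B u u' = 1) (κ : L) :
    A' *ᵥ (S.φ κ *ᵥ u) = S.φ (S.B (A' *ᵥ (S.φ κ *ᵥ u)) u') *ᵥ u := by
  obtain ⟨l, hl⟩ := hA (S.φ κ *ᵥ u) (by rw [S.B_act, S.B_act_right, huu]; ring)
  rw [hl, S.B_act, S.B_act, huu', mul_one, S.φ_mul_mulVec]

/-- The core computation of B1 for one vector `t ≠ 0` orthogonal to the hyperbolic pair. -/
theorem B1_core {ι : Type} [Fintype ι] [DecidableEq ι] {F : Type*} [Field F]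
    {Q : QuadraticForm F (ι → F)} {L : Type*} [Field L] [Algebra F L]
    (S : KO (QuadraticMap.polar ⇑Q) L) (h2 : (2 : F) ≠ 0) (A' : Matrix ι ι F)
    (hA : ∀ v : ι → F, S.B v v = 0 → ∃ l : L, A' *ᵥ v = S.φ l *ᵥ v)
    {u u' : ι → F} (huu : S.B u u = 0) (hu'u' : S.B u' u' = 0) (huu' : S.B u u' = 1)
    (hAu : A' *ᵥ u = 0)
    {t : ι → F} (ht : t ≠ 0) (htu : S.B t u = 0) (htu' : S.B t u' = 0) :
    (∀ κ : L, A' *ᵥ (S.φ κ *ᵥ u) = 0) ∧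
    (∀ κ s : L, S.B (A' *ᵥ (S.φ (κ * s) *ᵥ t)) u =
      S.B (A' *ᵥ (S.φ (κ * (2⁻¹ * S.B t t) * s ^ 2) *ᵥ u')) u) ∧
    (∀ m : L, A' *ᵥ (S.φ m *ᵥ t) = S.φ (S.B (A' *ᵥ (S.φ m *ᵥ t)) u) *ᵥ u') := by
  have h2L : (2 : L) ≠ 0 := by
    rw [← map_ofNat (algebraMap F L) 2]
    exact (map_ne_zero (algebraMap F L)).mpr h2
  have hu'u : S.B u' u = 1 := by rw [S.B_symm]; exact huu'
  have hut : S.B u t = 0 := by rw [S.B_symm]; exact htu
  have hu't : S.B u' t = 0 := by rw [S.B_symm]; exact htu'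
  have hTu := sing_coeff S A' hA huu huu'
  have hTu' := sing_coeff S A' hA hu'u' hu'u
  obtain ⟨a, ha⟩ : ∃ a : L → L, ∀ κ, a κ = S.B (A' *ᵥ (S.φ κ *ᵥ u)) u' := ⟨_, fun _ => rfl⟩
  obtain ⟨a', ha'⟩ : ∃ a' : L → L, ∀ κ, a' κ = S.B (A' *ᵥ (S.φ κ *ᵥ u')) u := ⟨_, fun _ => rfl⟩
  obtain ⟨p, hp⟩ : ∃ p : L → L, ∀ m, p m = S.B (A' *ᵥ (S.φ m *ᵥ t)) u' := ⟨_, fun _ => rfl⟩
  obtain ⟨r, hr⟩ : ∃ r : L → L, ∀ m, r m = S.B (A' *ᵥ (S.φ m *ᵥ t)) u := ⟨_, fun _ => rfl⟩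
  obtain ⟨c, hc⟩ : ∃ c : L, c = 2⁻¹ * S.B t t := ⟨_, rfl⟩
  simp only [← ha, ← ha', ← hr, ← hc] at hTu hTu' ⊢
  -- the key relation (★)
  have hK : ∀ κ s : L, ∃ α : L, p (κ * s) = α * κ - a κ ∧
      r (κ * s) = a' (κ * c * s ^ 2) - α * κ * c * s ^ 2 ∧
      A' *ᵥ (S.φ (κ * s) *ᵥ t) =
        S.φ (p (κ * s)) *ᵥ u + S.φ (α * κ * s) *ᵥ t + S.φ (r (κ * s)) *ᵥ u' := by
    intro κ s
    have hw : S.B (S.φ κ *ᵥ u + S.φ (κ * s) *ᵥ t - S.φ (κ * c * s ^ 2) *ᵥ u')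
        (S.φ κ *ᵥ u + S.φ (κ * s) *ᵥ t - S.φ (κ * c * s ^ 2) *ᵥ u') = 0 := by
      simp only [S.B_sub_left, S.B_sub_right, S.B_add, S.B_add_right, S.B_act, S.B_act_right,
        huu, hu'u', huu', hu'u, htu, htu', hut, hu't]
      rw [hc]
      field_simp
      ring
    obtain ⟨α, hα⟩ := hA _ hw
    rw [Matrix.mulVec_sub, Matrix.mulVec_add, hTu, hTu', Matrix.mulVec_sub, Matrix.mulVec_add,
      ← S.φ_mul_mulVec, ← S.φ_mul_mulVec, ← S.φ_mul_mulVec] at hα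
    have e1 : α * (κ * s) = α * κ * s := by ring
    have e2 : α * (κ * c * s ^ 2) = α * κ * c * s ^ 2 := by ring
    rw [e1, e2] at hα
    have hα' : A' *ᵥ (S.φ (κ * s) *ᵥ t) = S.φ (α * κ - a κ) *ᵥ u + S.φ (α * κ * s) *ᵥ t -
        S.φ (α * κ * c * s ^ 2 - a' (κ * c * s ^ 2)) *ᵥ u' := by
      have h3 : A' *ᵥ (S.φ (κ * s) *ᵥ t) =
          (S.φ (α * κ) *ᵥ u + S.φ (α * κ * s) *ᵥ t - S.φ (α * κ * c * s ^ 2) *ᵥ u') -
            S.φ (a κ) *ᵥ u + S.φ (a' (κ * c * s ^ 2)) *ᵥ u' := by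
        rw [← hα]; abel
      rw [h3, S.φ_sub_mulVec, S.φ_sub_mulVec]
      abel
    have k1 : p (κ * s) = α * κ - a κ := by
      rw [hp, hα', S.B_sub_left, S.B_add, S.B_act, S.B_act, S.B_act, huu', htu', hu'u']
      ring
    have k2 : r (κ * s) = a' (κ * c * s ^ 2) - α * κ * c * s ^ 2 := by
      rw [hr, hα', S.B_sub_left, S.B_add, S.B_act, S.B_act, S.B_act, huu, htu, hu'u]
      ring
    refine ⟨α, k1, k2, ?_⟩
    rw [hα', k1, k2, S.φ_sub_mulVec, S.φ_sub_mulVec, S.φ_sub_mulVec]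
    abel
  have ha1 : a 1 = 0 := by rw [ha, S.φ_one_mulVec, hAu, S.B_zero_left]
  have hp_add : ∀ m m', p (m + m') = p m + p m' := by
    intro m m'
    rw [hp, hp, hp, S.φ_add_mulVec, Matrix.mulVec_add, S.B_add]
  have hkey : ∀ κ s : L, s ≠ 0 → a κ = p (κ * s) * (κ - 1) := by
    intro κ s hs
    obtain ⟨α, h1, -, h3⟩ := hK κ s
    obtain ⟨α', h1', -, h3'⟩ := hK 1 (κ * s)
    rw [one_mul] at h1' h3'
    rw [ha1] at h1'
    have e : S.φ (α * κ * s) *ᵥ t = S.φ (α' * 1 * (κ * s)) *ᵥ t :=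
      add_left_cancel (add_right_cancel (h3.symm.trans h3'))
    have e' := S.φ_mulVec_inj ht e
    have hα'v : α' = p (κ * s) := by rw [h1']; ring
    have hακ : α * κ = p (κ * s) + a κ := by rw [h1]; ring
    have h4 : (p (κ * s) + a κ) * s = p (κ * s) * κ * s := by
      rw [← hακ, e', hα'v]; ring
    have h5 := mul_right_cancel₀ hs h4
    linear_combination h5
  have hstep2 : ∀ κ : L, κ ≠ 1 → a κ = 0 ∧ ∀ s, s ≠ 0 → p (κ * s) = 0 := by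
    intro κ hκ
    have hκ1 : κ - 1 ≠ 0 := sub_ne_zero.mpr hκ
    have e1 := hkey κ 1 one_ne_zero
    have e2 := hkey κ 2 h2L
    have e3 : p (κ * 2) = p (κ * 1) + p (κ * 1) := by
      rw [← hp_add]; congr 1; ring
    have e4 : p (κ * 1) = 0 := by
      have h5 : p (κ * 1) * (κ - 1) = 0 := by
        rw [e3] at e2
        linear_combination e1 - e2
      exact (mul_eq_zero.mp h5).resolve_right hκ1
    have ha0 : a κ = 0 := by rw [e1, e4, zero_mul]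
    refine ⟨ha0, fun s hs => ?_⟩
    have h6 := hkey κ s hs
    rw [ha0] at h6
    exact (mul_eq_zero.mp h6.symm).resolve_right hκ1
  have ha0 : ∀ κ, a κ = 0 := by
    intro κ
    by_cases h : κ = 1
    · rw [h, ha1]
    · exact (hstep2 κ h).1
  have hneg1 : (-1 : L) ≠ 1 := by
    intro h
    apply h2L
    linear_combination (-1 : L) * h
  have hp0 : ∀ m, p m = 0 := by
    intro m
    by_cases hm : m = 0
    · rw [hm, hp, S.φ_zero_mulVec, Matrix.mulVec_zero, S.B_zero_left]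
    · have h7 := (hstep2 (-1) hneg1).2 (-m) (neg_ne_zero.mpr hm)
      rwa [neg_mul_neg, one_mul] at h7
  have hR : ∀ κ s : L, r (κ * s) = a' (κ * c * s ^ 2) ∧
      A' *ᵥ (S.φ (κ * s) *ᵥ t) = S.φ (r (κ * s)) *ᵥ u' := by
    intro κ s
    obtain ⟨α, h1, h2', h3⟩ := hK κ s
    have hακ : α * κ = 0 := by
      rw [hp0, ha0] at h1
      linear_combination -h1
    constructor
    · rw [h2', hακ]; ring
    · rw [h3, hp0, hακ, zero_mul, S.φ_zero_mulVec, S.φ_zero_mulVec, zero_add, zero_add]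
  refine ⟨fun κ => ?_, fun κ s => (hR κ s).1, fun m => ?_⟩
  · rw [hTu, ha0, S.φ_zero_mulVec]
  · have h8 := (hR m 1).2
    rwa [mul_one] at h8

/-- B1 with the GEOM2 pieces as hypotheses. -/
theorem mem_range_of_sing_line_of {ι : Type} [Fintype ι] [DecidableEq ι] {F : Type*} [Field F]
    {Q : QuadraticForm F (ι → F)} {L : Type*} [Field L] [Algebra F L]
    (S : KO (QuadraticMap.polar ⇑Q) L) (h2 : (2 : F) ≠ 0)
    (hsing : ∃ u : ι → F, u ≠ 0 ∧ S.B u u = 0)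
    (hhyp : ∀ {u : ι → F}, u ≠ 0 → S.B u u = 0 → ∃ u', S.B u' u' = 0 ∧ S.B u u' = 1)
    (hnorm : ∀ {u y₀ : ι → F}, S.B u u = 0 → S.B y₀ u ≠ 0 → ∀ μ : L,
      ∃ z, S.B z u = 0 ∧ S.B z y₀ = 0 ∧ S.B z z = μ)
    (A : Matrix ι ι F)
    (hA : ∀ v : ι → F, S.B v v = 0 → ∃ l : L, A *ᵥ v = S.φ l *ᵥ v) : ∃ l : L, A = S.φ l := by
  have h2L : (2 : L) ≠ 0 := by
    rw [← map_ofNat (algebraMap F L) 2]
    exact (map_ne_zero (algebraMap F L)).mpr h2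
  obtain ⟨u, hu, huu⟩ := hsing
  obtain ⟨u', hu'u', huu'⟩ := hhyp hu huu
  obtain ⟨l₀, hl₀⟩ := hA u huu
  refine ⟨l₀, ?_⟩
  have hA' : ∀ v : ι → F, S.B v v = 0 → ∃ l : L, (A - S.φ l₀) *ᵥ v = S.φ l *ᵥ v := by
    intro v hv
    obtain ⟨l, hl⟩ := hA v hv
    exact ⟨l - l₀, by rw [Matrix.sub_mulVec, hl, S.φ_sub_mulVec]⟩
  have hA'u : (A - S.φ l₀) *ᵥ u = 0 := by rw [Matrix.sub_mulVec, hl₀, sub_self]
  have hu'u : S.B u' u = 1 := by rw [S.B_symm]; exact huu'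
  obtain ⟨t₁, ht₁u, ht₁u', ht₁t₁⟩ := hnorm huu (by rw [hu'u]; exact one_ne_zero) (1 : L)
  have ht₁ : t₁ ≠ 0 := by
    rintro rfl
    rw [S.B_zero_left] at ht₁t₁
    exact zero_ne_one ht₁t₁
  obtain ⟨hI, hR2, -⟩ := B1_core S h2 (A - S.φ l₀) hA' huu hu'u' huu' hA'u ht₁ ht₁u ht₁u'
  have hTu' := sing_coeff S (A - S.φ l₀) hA' hu'u' hu'u
  obtain ⟨a', ha'⟩ : ∃ a' : L → L, ∀ κ, a' κ = S.B ((A - S.φ l₀) *ᵥ (S.φ κ *ᵥ u')) u :=
    ⟨_, fun _ => rfl⟩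
  obtain ⟨r, hr⟩ : ∃ r : L → L, ∀ m, r m = S.B ((A - S.φ l₀) *ᵥ (S.φ m *ᵥ t₁)) u :=
    ⟨_, fun _ => rfl⟩
  simp only [← ha', ← hr] at hTu' hR2
  have ha'_add : ∀ m m', a' (m + m') = a' m + a' m' := by
    intro m m'
    rw [ha', ha', ha', S.φ_add_mulVec, Matrix.mulVec_add, S.B_add]
  -- (II)
  have ha'0 : ∀ m, a' m = 0 := by
    intro m
    have e1 := hR2 m 1
    have e2 := hR2 (m * 2⁻¹) 2
    have x1 : m * 1 = m := mul_one m
    have x2 : m * (2⁻¹ * S.B t₁ t₁) * 1 ^ 2 = m * 2⁻¹ := by rw [ht₁t₁]; ring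
    have x3 : m * 2⁻¹ * 2 = m := by field_simp
    have x4 : m * 2⁻¹ * (2⁻¹ * S.B t₁ t₁) * 2 ^ 2 = m := by rw [ht₁t₁]; field_simp
    rw [x1, x2] at e1
    rw [x3, x4] at e2
    have e3 : a' m = a' (m * 2⁻¹) + a' (m * 2⁻¹) := by
      rw [← ha'_add]; congr 1; field_simp; ring
    rw [← e1, ← e2] at e3
    rw [← e2]
    linear_combination (-1 : L) * e3
  have hII : ∀ κ : L, (A - S.φ l₀) *ᵥ (S.φ κ *ᵥ u') = 0 := by
    intro κ
    rw [hTu', ha'0, S.φ_zero_mulVec]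
  -- (III)
  have hIII : ∀ t : ι → F, S.B t u = 0 → S.B t u' = 0 → (A - S.φ l₀) *ᵥ t = 0 := by
    intro t htu htu'
    by_cases ht : t = 0
    · rw [ht, Matrix.mulVec_zero]
    obtain ⟨-, hR2t, hR3t⟩ := B1_core S h2 (A - S.φ l₀) hA' huu hu'u' huu' hA'u ht htu htu'
    have e1 := hR3t 1
    have e2 := hR2t 1 1
    rw [hII, S.B_zero_left, mul_one] at e2
    rw [e2, S.φ_zero_mulVec, S.φ_one_mulVec] at e1
    exact e1
  apply Matrix.mulVec_injective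
  funext x
  have hx : (A - S.φ l₀) *ᵥ x = 0 := by
    have hdec : x = S.φ (S.B x u') *ᵥ u + S.φ (S.B x u) *ᵥ u' +
        (x - S.φ (S.B x u') *ᵥ u - S.φ (S.B x u) *ᵥ u') := by abel
    rw [hdec, Matrix.mulVec_add, Matrix.mulVec_add, hI, hII, hIII, add_zero, add_zero]
    · rw [S.B_sub_left, S.B_sub_left, S.B_act, S.B_act, huu, hu'u]; ring
    · rw [S.B_sub_left, S.B_sub_left, S.B_act, S.B_act, huu', hu'u']; ring
  rw [Matrix.sub_mulVec] at hx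
  exact sub_eq_zero.mp hx

end Cfsg.Agent.Lib.Helper29.OKB1
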