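import Mathlib
import Cfsg.Prelude.Def_GeometricClasses
import Cfsg.Agent.Lib.Helper71.OK1
import Cfsg.Agent.Lib.Helper52.Siegel
import Cfsg.Agent.Lib.Helper29.OKB1
import Cfsg.Agent.Lib.Helper57.OKGEOM2

/-!
# S5701 piece B1 (helper29), final statement: a matrix preserving all singular `L`-lines lies in
`φ(L)`.
-/

set_option autoImplicit false
set_option linter.unusedVariables false

namespace Cfsg.Agent.Lib.Helper29.OKB1

open Matrix Cfsg.Agent.Lib.Helper71.SpK Cfsg.Agent.Lib.Helper71.OK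

theorem mem_range_of_sing_line {ι : Type} [Fintype ι] [DecidableEq ι] {F : Type*} [Field F] [Finite F]
    {Q : QuadraticForm F (ι → F)} {L : Type*} [Field L] [Algebra F L] [FiniteDimensional F L]
    (S : KO (QuadraticMap.polar ⇑Q) L) (h2 : (2 : F) ≠ 0)
    (hQ : (QuadraticMap.polarBilin Q).Nondegenerate)
    (hr : (Module.finrank F L).Prime) (hd : 4 * Module.finrank F L ≤ Fintype.card ι) (A : Matrix ι ι F)
    (hA : ∀ v : ι → F, S.B v v = 0 → ∃ l : L, A *ᵥ v = S.φ l *ᵥ v) : ∃ l : L, A = S.φ l :=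
  mem_range_of_sing_line_of S h2
    (Cfsg.Agent.Lib.Helper57.OKGEOM2.exists_sing S h2 hQ hr hd)
    (fun hu huu => Cfsg.Agent.Lib.Helper57.OKGEOM2.exists_hyp S h2 hQ hr hd hu huu)
    (fun hu hy₀ μ => Cfsg.Agent.Lib.Helper57.OKGEOM2.exists_norm S h2 hQ hr hd hu hy₀ μ)
    A hA

end Cfsg.Agent.Lib.Helper29.OKB1
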