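import Mathlib
import Cfsg.Prelude.Def_GeometricClasses
import Cfsg.Prelude.Def_LieClassical

/-!
# Project OMP (helper71), piece O3a (helper29)

The Clifford frame of lines of a normal subgroup of an irreducible group of isometries of a
non-degenerate quadratic form, in odd dimension, is a non-degenerate orthogonal frame for the
polar form (adaptation of the hermitian piece `SUPU3`).
-/

set_option autoImplicit false

namespace Cfsg.Agent.Lib.Helper29.OMPO3a

open Matrix Cfsg.Geo

variable {n : ℕ} {F : Type*} [Field F] [Fintype F]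

/-- a fixed-point-free involution lives on a set of even size -/
theorem O3a_even {α : Type*} [Fintype α] (π : α → α) (h1 : ∀ a, π (π a) = a)
    (h2 : ∀ a, π a ≠ a) : Even (Fintype.card α) := by
  classical
  let σ : Equiv.Perm α := Function.Involutive.toPerm π h1
  have hσ : σ ^ 2 = 1 := by
    ext a
    show (σ ^ 2) a = a
    rw [sq, Equiv.Perm.mul_apply]
    exact h1 a
  have h := Equiv.Perm.two_dvd_card_support hσ
  have hs : σ.support = Finset.univ := by
    ext a
    rw [Equiv.Perm.mem_support]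
    simp only [Finset.mem_univ, iff_true]
    exact h2 a
  rw [hs, Finset.card_univ] at h
  exact even_iff_two_dvd.mpr h

omit [Fintype F] in
/-- a bilinear form is additive over finite sums in the first argument -/
theorem O3a_sum_left {ι : Type} [Fintype ι] [DecidableEq ι] {f : (ι → F) → (ι → F) → F}
    (hf : IsBilinearForm f) {α : Type*} (s : Finset α) (g : α → ι → F) (v : ι → F) :
    f (∑ a ∈ s, g a) v = ∑ a ∈ s, f (g a) v := by
  classical
  induction s using Finset.induction_on with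
  | empty =>
    rw [Finset.sum_empty, Finset.sum_empty]
    have h := hf.smul_left 0 0 v
    rw [zero_smul, zero_mul] at h
    exact h
  | insert a s ha ih =>
    rw [Finset.sum_insert ha, Finset.sum_insert ha, hf.add_left, ih]

omit [Fintype F] in
/-- isometries of `Q` are isometries of its polar form -/
theorem O3a_fixes_polar {Q : (Fin n → F) → F} {s : Matrix (Fin n) (Fin n) F}
    (hs : ∀ v, Q (s *ᵥ v) = Q v) (u v : Fin n → F) :
    QuadraticMap.polar Q (s *ᵥ u) (s *ᵥ v) = QuadraticMap.polar Q u v := by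
  unfold QuadraticMap.polar
  rw [← Matrix.mulVec_add, hs, hs, hs]

/-- O3a: the Clifford frame of lines of a group of isometries (`n` odd) is an orthogonal frame. -/
theorem O3a (Q : (Fin n → F) → F) (hQ : IsNondegenerateQuadraticForm Q) (h2 : (2 : F) ≠ 0)
    (hodd : Odd n) (H L : Subgroup (GL (Fin n) F)) (hfix : FixesQuadForm (matrixSet H) Q)
    (hirr : ActsIrreducibly (matrixSet H)) (hLH : L ≤ H)
    (D : Fin n → Submodule F (Fin n → F)) (hD : IsMDecomposition 1 D)
    (hHD : H ≤ decompositionStabilizer D)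
    (hiso : ∀ i, ∀ X : Matrix (Fin n) (Fin n) F, (∀ x ∈ L, X * x.1 = x.1 * X) →
      (D i).map (Matrix.toLin' X) ≤ D i)
    (hinv : ∀ i, ∀ x ∈ L, (D i).map (Matrix.toLin' x.1) ≤ D i) :
    IsNondegenerateMDecomposition (QuadraticMap.polar Q) 1 D := by
  classical
  have _h2 := h2
  have hbil := hQ.polar_bilinear
  have hfixb : ∀ h ∈ H, ∀ u v : Fin n → F,
      QuadraticMap.polar Q (h.1 *ᵥ u) (h.1 *ᵥ v) = QuadraticMap.polar Q u v := by
    intro h hh u v
    exact O3a_fixes_polar (fun w => hfix h.1 ⟨h, hh, rfl⟩ w) u v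
  -- generators of the lines
  have hgen : ∀ i, ∃ v : Fin n → F, v ∈ D i ∧ v ≠ 0 ∧ ∀ w ∈ D i, ∃ c : F, w = c • v := by
    intro i
    obtain ⟨v, hv0, hv⟩ := finrank_eq_one_iff'.mp (hD.finrank_eq i)
    refine ⟨v.1, v.2, fun h => hv0 (Subtype.ext h), fun w hw => ?_⟩
    obtain ⟨c, hc⟩ := hv ⟨w, hw⟩
    exact ⟨c, (congrArg Subtype.val hc).symm⟩
  choose d hdmem hdne hdgen using hgen
  -- they form a basis
  have hli : LinearIndependent F d := hD.indep.linearIndependent D hdmem hdne
  have hsp : ⊤ ≤ Submodule.span F (Set.range d) := by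
    rw [← hD.iSup_eq_top]
    apply iSup_le
    intro i w hw
    obtain ⟨c, rfl⟩ := hdgen i w hw
    exact Submodule.smul_mem _ c (Submodule.subset_span ⟨i, rfl⟩)
  let b : Module.Basis (Fin n) F (Fin n → F) := Module.Basis.mk hli hsp
  have hb : ∀ i, b i = d i := fun i => Module.Basis.mk_apply hli hsp i
  -- eigen-characters of L
  have hχ' : ∀ i, ∀ x : GL (Fin n) F, ∃ c : F, x ∈ L → x.1 *ᵥ d i = c • d i := by
    intro i x
    by_cases hx : x ∈ L
    · have h1 : x.1 *ᵥ d i ∈ D i :=
        hinv i x hx (Submodule.mem_map.mpr ⟨d i, hdmem i, Matrix.toLin'_apply _ _⟩)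
      obtain ⟨c, hc⟩ := hdgen i _ h1
      exact ⟨c, fun _ => hc⟩
    · exact ⟨0, fun h => absurd h hx⟩
  choose χ hχ using hχ'
  -- distinct lines have distinct characters
  have hdist : ∀ i i', i ≠ i' → ∃ x ∈ L, χ i x ≠ χ i' x := by
    intro i i' hii'
    by_contra hcon0
    have hcon : ∀ x ∈ L, χ i x = χ i' x := by
      intro x hx
      by_contra hne
      exact hcon0 ⟨x, hx, hne⟩
    let φ : (Fin n → F) →ₗ[F] (Fin n → F) := b.constr F (fun k => if k = i then d i' else 0)
    have hφ : ∀ k, φ (d k) = if k = i then d i' else 0 := by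
      intro k
      rw [← hb k]
      exact b.constr_basis F _ k
    have hcomm : ∀ x ∈ L, LinearMap.toMatrix' φ * x.1 = x.1 * LinearMap.toMatrix' φ := by
      intro x hx
      apply Matrix.toLin'.injective
      rw [Matrix.toLin'_mul, Matrix.toLin'_mul, Matrix.toLin'_toMatrix']
      apply b.ext
      intro k
      rw [hb k, LinearMap.comp_apply, LinearMap.comp_apply, Matrix.toLin'_apply, hχ k x hx,
        map_smul, hφ k]
      by_cases hk : k = i
      · rw [if_pos hk, Matrix.toLin'_apply, hχ i' x hx, hk, hcon x hx]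
      · rw [if_neg hk, smul_zero, map_zero]
    have h1 := hiso i (LinearMap.toMatrix' φ) hcomm
    have h2 : d i' ∈ D i := by
      have h3 : φ (d i) ∈ D i :=
        h1 (Submodule.mem_map.mpr ⟨d i, hdmem i, by rw [Matrix.toLin'_toMatrix']⟩)
      rw [hφ i, if_pos rfl] at h3
      exact h3
    have hdisj : Disjoint (D i) (D i') := hD.indep.pairwiseDisjoint hii'
    have h3 : d i' ∈ D i ⊓ D i' := ⟨h2, hdmem i'⟩
    rw [hdisj.eq_bot] at h3
    exact hdne i' ((Submodule.mem_bot F).mp h3)
  -- the Gram relations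
  have hrel : ∀ i j, QuadraticMap.polar Q (d i) (d j) ≠ 0 →
      ∀ x ∈ L, χ i x * χ j x = 1 := by
    intro i j hij x hx
    have h1 := hfixb x (hLH hx) (d i) (d j)
    rw [hχ i x hx, hχ j x hx, hbil.smul_left, hbil.smul_right] at h1
    have h2 : (χ i x * χ j x - 1) * QuadraticMap.polar Q (d i) (d j) = 0 := by
      rw [sub_mul, one_mul, mul_assoc, h1, sub_self]
    rcases mul_eq_zero.mp h2 with h | h
    · exact sub_eq_zero.mp h
    · exact absurd h hij
  have huniq : ∀ i i' j, QuadraticMap.polar Q (d i) (d j) ≠ 0 →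
      QuadraticMap.polar Q (d i') (d j) ≠ 0 → i = i' := by
    intro i i' j h1 h2
    by_contra hne
    obtain ⟨x, hx, hxne⟩ := hdist i i' hne
    have e1 := hrel i j h1 x hx
    have e2 := hrel i' j h2 x hx
    have h0 : χ j x ≠ 0 := by
      intro h
      rw [h, mul_zero] at e1
      exact zero_ne_one e1
    exact hxne (mul_right_cancel₀ h0 (e1.trans e2.symm))
  have hsymm : ∀ i j, QuadraticMap.polar Q (d i) (d j) ≠ 0 →
      QuadraticMap.polar Q (d j) (d i) ≠ 0 := by
    intro i j h
    rw [QuadraticMap.polar_comm]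
    exact h
  have hex : ∀ j, ∃ i, QuadraticMap.polar Q (d i) (d j) ≠ 0 := by
    intro j
    by_contra hcon0
    have hcon : ∀ i, QuadraticMap.polar Q (d i) (d j) = 0 := by
      intro i
      by_contra hne
      exact hcon0 ⟨i, hne⟩
    obtain ⟨y, hy⟩ := (hQ.nondegenerate (d j) (hdne j)).1
    apply hy
    rw [← b.sum_repr y, O3a_sum_left hbil]
    apply Finset.sum_eq_zero
    intro i _
    rw [hbil.smul_left, hb i, hcon i, mul_zero]
  -- the diagonal condition is invariant under H
  have hHdiag : ∀ h ∈ H, ∀ ρ : Equiv.Perm (Fin n),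
      (∀ i, (D i).map (Matrix.toLin' h.1) = D (ρ i)) → ∀ j,
      QuadraticMap.polar Q (d j) (d j) ≠ 0 → QuadraticMap.polar Q (d (ρ j)) (d (ρ j)) ≠ 0 := by
    intro h hh ρ hρ j hj hcon
    have h1 : h.1 *ᵥ d j ∈ D (ρ j) := by
      rw [← hρ j]
      exact Submodule.mem_map.mpr ⟨d j, hdmem j, Matrix.toLin'_apply _ _⟩
    obtain ⟨c, hc⟩ := hdgen (ρ j) _ h1
    have h2 := hfixb h hh (d j) (d j)
    rw [hc, hbil.smul_left, hbil.smul_right, hcon, mul_zero, mul_zero] at h2
    exact hj h2.symm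
  -- a fixed point of the pairing
  have hfixpt : ∃ j, QuadraticMap.polar Q (d j) (d j) ≠ 0 := by
    by_contra hcon0
    have hcon : ∀ j, QuadraticMap.polar Q (d j) (d j) = 0 := by
      intro j
      by_contra hne
      exact hcon0 ⟨j, hne⟩
    choose π hπ using hex
    have hinvol : ∀ j, π (π j) = j := by
      intro j
      exact (huniq j (π (π j)) (π j) (hsymm _ _ (hπ j)) (hπ (π j))).symm
    have hnofix : ∀ j, π j ≠ j := by
      intro j hj
      have h1 := hπ j
      rw [hj] at h1
      exact h1 (hcon j)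
    have heven := O3a_even π hinvol hnofix
    rw [Fintype.card_fin] at heven
    exact (Nat.not_even_iff_odd.mpr hodd) heven
  obtain ⟨j₀, hj₀⟩ := hfixpt
  -- the invariant subspace
  have hWinv : ∀ s ∈ matrixSet H,
      (⨆ j : Fin n, ⨆ (_ : QuadraticMap.polar Q (d j) (d j) ≠ 0), D j).map (Matrix.toLin' s) ≤
        ⨆ j : Fin n, ⨆ (_ : QuadraticMap.polar Q (d j) (d j) ≠ 0), D j := by
    rintro s ⟨h, hh, rfl⟩
    obtain ⟨ρ, hρ⟩ := hHD hh
    rw [Submodule.map_iSup]
    apply iSup_le
    intro j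
    rw [Submodule.map_iSup]
    apply iSup_le
    intro hj
    rw [hρ j]
    exact le_iSup₂_of_le (ρ j) (hHdiag h hh ρ hρ j hj) le_rfl
  have hWtop : (⨆ j : Fin n, ⨆ (_ : QuadraticMap.polar Q (d j) (d j) ≠ 0), D j) = ⊤ := by
    rcases hirr _ hWinv with h | h
    · exfalso
      have h1 : d j₀ ∈ (⨆ j : Fin n, ⨆ (_ : QuadraticMap.polar Q (d j) (d j) ≠ 0), D j) :=
        (le_iSup₂_of_le j₀ hj₀ le_rfl :
          D j₀ ≤ ⨆ j : Fin n, ⨆ (_ : QuadraticMap.polar Q (d j) (d j) ≠ 0), D j) (hdmem j₀)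
      rw [h] at h1
      exact hdne j₀ ((Submodule.mem_bot F).mp h1)
    · exact h
  have hall : ∀ j, QuadraticMap.polar Q (d j) (d j) ≠ 0 := by
    intro j
    by_contra hj
    have hle : (⨆ k : Fin n, ⨆ (_ : QuadraticMap.polar Q (d k) (d k) ≠ 0), D k) ≤
        ⨆ k, ⨆ (_ : k ≠ j), D k := by
      apply iSup₂_le
      intro k hk
      have hkj : k ≠ j := fun e => hk (by rw [e]; exact hj)
      exact le_iSup₂_of_le k hkj le_rfl
    have hdisj := hD.indep j
    have h1 : d j ∈ D j ⊓ ⨆ k, ⨆ (_ : k ≠ j), D k :=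
      ⟨hdmem j, hle (hWtop ▸ Submodule.mem_top)⟩
    rw [hdisj.eq_bot] at h1
    exact hdne j ((Submodule.mem_bot F).mp h1)
  have horth : ∀ i j, i ≠ j → QuadraticMap.polar Q (d i) (d j) = 0 := by
    intro i j hij
    by_contra h
    exact hij (huniq i j j h (hall j))
  refine ⟨hD, ?_, ?_⟩
  · intro i w hw hw0
    obtain ⟨c, rfl⟩ := hdgen i w hw
    have hc : c ≠ 0 := by
      rintro rfl
      exact hw0 (zero_smul _ _)
    refine ⟨⟨d i, hdmem i, ?_⟩, ⟨d i, hdmem i, ?_⟩⟩
    · rw [hbil.smul_right]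
      exact mul_ne_zero hc (hall i)
    · rw [hbil.smul_left]
      exact mul_ne_zero hc (hall i)
  · intro i j hij u hu v hv
    obtain ⟨a, rfl⟩ := hdgen i u hu
    obtain ⟨c, rfl⟩ := hdgen j v hv
    rw [hbil.smul_left, hbil.smul_right, horth i j hij, mul_zero, mul_zero]

end Cfsg.Agent.Lib.Helper29.OMPO3a
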