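import Mathlib
import Cfsg.Prelude.Def_GeometricClasses
import Cfsg.Prelude.Def_Classical
import Cfsg.Agent.Lib.Helper47.QuadDefs
import Cfsg.Agent.Lib.Helper47.PrimeOrd
import Cfsg.Agent.Lib.Helper47.QuadAll
import Cfsg.Agent.Lib.Helper34.QuadNEC

/-!
S5981 piece OQ-TYPNOFIX (helper29): an isometry of odd prime order `r` of an even-dimensional
quadratic space of type `ε` whose characteristic polynomial is `f ^ a` for a self-dual cyclotomic
factor `f` forces `ε = (-1) ^ a`.
-/

set_option autoImplicit false

universe u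

namespace Cfsg.Agent.Lib.Helper29.Oq

open Polynomial Matrix
open scoped MatrixGroups
open Cfsg.Agent.Lib.Helper47

-- PIECE TYPNOFIX
theorem typ_of_fpf {F : Type u} [Field F] [Fintype F] {p : ℕ} [Fact p.Prime] [CharP F p]
    {n : ℕ} (Q : (Fin n → F) → F) (hQ : Cfsg.Geo.IsNondegenerateQuadraticForm Q)
    (m : ℕ) (hm : 1 ≤ m) (hn : n = 2 * m) (ε : ℤ) (hε : IsTyp Q (m - 1) ε)
    (r : ℕ) (hr : r.Prime) (hr2 : r ≠ 2) (hrp : r ≠ p)
    (y : Matrix (Fin n) (Fin n) F) (hy : ∀ v, Q (y *ᵥ v) = Q v) (hyr : y ^ r = 1)
    (f : F[X]) (hf : IsCycFactor r f) (hdual : dualP (RingHom.id F) f = f)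
    (a : ℕ) (ha : 1 ≤ a) (hc : y.charpoly = f ^ a) : ε = (-1) ^ a := by
  classical
  have _hm := hm
  have hquad : IsQuad Q (QuadraticMap.polar Q) :=
    { form :=
        { add_left := hQ.polar_bilinear.add_left
          smul_left := hQ.polar_bilinear.smul_left
          symm := fun x z => by
            rw [RingHom.id_apply, one_mul, QuadraticMap.polar_comm] }
      smul := hQ.smul
      polar := fun u v => by
        unfold QuadraticMap.polar
        ring }
  have hnd : Nondeg (QuadraticMap.polar Q) := by
    intro x hx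
    by_contra hne
    obtain ⟨z, hz⟩ := (hQ.nondegenerate x hne).2
    exact hz (hx z)
  have hg : (Matrix.toLin' y) ^ r = 1 := by
    rw [← Matrix.toLin'_pow, hyr, Matrix.toLin'_one]
    rfl
  have hgQ : ∀ v, Q (Matrix.toLin' y v) = Q v := by
    intro v
    rw [Matrix.toLin'_apply]
    exact hy v
  have hu : ∀ g ∈ Multiset.replicate a f, IsCycFactor r g := by
    intro g hg'
    rw [Multiset.eq_of_mem_replicate hg']
    exact hf
  have hu0 : Multiset.replicate a f ≠ 0 := by
    intro h
    have h1 := congrArg Multiset.card h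
    rw [Multiset.card_replicate, Multiset.card_zero] at h1
    omega
  have hud : (Multiset.replicate a f).map (dualP (RingHom.id F)) = Multiset.replicate a f := by
    rw [Multiset.map_replicate, hdual]
  have hch : (Matrix.toLin' y).charpoly = (Multiset.replicate a f).prod := by
    rw [Matrix.charpoly_toLin', Multiset.prod_replicate]
    exact hc
  obtain ⟨j, hj, htyp⟩ := Cfsg.Agent.Lib.Helper34.QuadNEC.quad_type_of_no_fix (qfacts p) hquad hnd
    p (Matrix.toLin' y) r hr hr2 hrp hg hgQ (Multiset.replicate a f) hu hu0 hud hch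
  have hfr : Module.finrank F (Fin n → F) = n := by simp
  have hjm : j = m - 1 := by omega
  rw [hjm] at htyp
  have hts : tauSign (Multiset.replicate a f) = (-1) ^ a := by
    rw [tauSign_of_forall_self
      (fun g hg' => by rw [Multiset.eq_of_mem_replicate hg']; exact hdual),
      Multiset.card_replicate]
  rw [hts] at htyp
  exact IsTyp.unique hε htyp

end Cfsg.Agent.Lib.Helper29.Oq
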