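import Mathlib
import Cfsg.Agent.Lib.Helper53.MinusDefs
import Cfsg.Agent.Lib.Helper54.OrthInnPlus

/-!
# Project PF (helper52, S2715), piece CENTO (proved by helper29; port of `Helper53.MFCENTO`)

Odd characteristic: the centralizer of the standard field automorphism in
`Inndiag(PΩ⁺_{2m}(F))` is `Inndiag(PΩ⁺_{2m}(F₀))`.
-/

set_option autoImplicit false
set_option linter.unusedSectionVars false

namespace Cfsg.Agent.Lib.Helper52.PF

open Module QuadraticMap Matrix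
open Cfsg Cfsg.Agent.Lib.Helper51 Cfsg.Agent.Lib.Helper51.GammaO Cfsg.Agent.Lib.Helper52
  Cfsg.Agent.Lib.Helper52.OA Cfsg.Agent.Lib.Helper51.OutSpin Cfsg.Agent.Lib.Helper53.OddF
  Cfsg.Agent.Lib.Helper53.MinusF Cfsg.Agent.Lib.Helper54

universe u v

theorem pfcento_plus_nondeg {F : Type*} [Field F] [Fintype F] {m : ℕ} (hm : 4 ≤ m) :
    (polarBilin (QPlus m F)).Nondegenerate ∧ 7 ≤ Fintype.card (Fin m ⊕ Fin m) := by
  constructor
  · apply nondegenerate_of_det_gram_ne_zero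
    rw [det_gram_QPlus]
    exact pow_ne_zero _ (neg_ne_zero.mpr one_ne_zero)
  · have hcard : Fintype.card (Fin m ⊕ Fin m) = 2 * m := by
      rw [Fintype.card_sum, Fintype.card_fin]
      omega
    omega

theorem pfcento_QPlus_map {F₀ : Type*} [Field F₀] {F : Type*} [Field F] (e : F₀ →+* F) (m : ℕ)
    (v : Fin m ⊕ Fin m → F₀) :
    QPlus m F (fun i => e (v i)) = e (QPlus m F₀ v) := by
  rw [QPlus_apply, QPlus_apply]
  simp only [map_sum, map_mul]

theorem pfcento_inr_mem_plus {F : Type*} [Field F] (m : ℕ) (σ : RingAut F) :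
    (SemidirectProduct.inr σ : SGL (Fin m ⊕ Fin m) F) ∈ GO ⇑(QPlus m F) := by
  refine ⟨1, fun v => ?_⟩
  rw [coe_QPlus]
  simp [quadFormPlus]

section

variable {F₀ : Type v} [Field F₀] [Fintype F₀] {F : Type u} [Field F] [Fintype F] (e : F₀ →+* F)
  (m : ℕ)

local notation "Idx" => (Fin m ⊕ Fin m)
local notation "mt(" g ")" => ((g : Matrix.GeneralLinearGroup Idx F) : Matrix Idx Idx F)
local notation "mt₀(" g ")" => ((g : Matrix.GeneralLinearGroup Idx F₀) : Matrix Idx Idx F₀)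

/-- base change of similarities of the plus forms -/
noncomputable def pfcento_sm : ↥(Geo.quadSimilarityGroup (F := F₀) ⇑(QPlus m F₀)) →*
    ↥(Geo.quadSimilarityGroup (F := F) ⇑(QPlus m F)) :=
  simMapG e (QPlus m F₀) (QPlus m F) (pfcento_QPlus_map e m)

theorem pfcento_sm_coe (g : ↥(Geo.quadSimilarityGroup (F := F₀) ⇑(QPlus m F₀))) :
    mt(((pfcento_sm e m g : ↥(Geo.quadSimilarityGroup (F := F) ⇑(QPlus m F))) :
      Matrix.GeneralLinearGroup Idx F)) =
      (mt₀((g : Matrix.GeneralLinearGroup Idx F₀))).map e := rfl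

theorem pfcento_simMul_sm (hm1 : 1 ≤ m)
    (g : ↥(Geo.quadSimilarityGroup (F := F₀) ⇑(QPlus m F₀))) :
    ((simMul (QPlus m F) (hv_plus hm1) (pfcento_sm e m g) : Fˣ) : F) =
      e ((simMul (QPlus m F₀) (hv_plus hm1) g : F₀ˣ) : F₀) := by
  apply simMul_eq
  intro v
  rw [pfcento_sm_coe]
  exact sim_upG e (QPlus m F₀) (QPlus m F) (pfcento_QPlus_map e m) _ _
    (simMul_spec (QPlus m F₀) (hv_plus hm1) g) v

theorem pfcento_det_sm (g : ↥(Geo.quadSimilarityGroup (F := F₀) ⇑(QPlus m F₀))) :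
    ((Matrix.GeneralLinearGroup.det
      ((pfcento_sm e m g : ↥(Geo.quadSimilarityGroup (F := F) ⇑(QPlus m F))) :
        Matrix.GeneralLinearGroup Idx F) : Fˣ) : F) =
      e ((Matrix.GeneralLinearGroup.det (g : Matrix.GeneralLinearGroup Idx F₀) : F₀ˣ) : F₀) := by
  rw [Matrix.GeneralLinearGroup.val_det_apply, Matrix.GeneralLinearGroup.val_det_apply,
    pfcento_sm_coe, RingHom.map_det]
  rfl

theorem pfcento_simSgn_sm (hm1 : 1 ≤ m)
    (g : ↥(Geo.quadSimilarityGroup (F := F₀) ⇑(QPlus m F₀))) :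
    ((simSgn (QPlus m F) (hv_plus hm1) m (pfcento_sm e m g) : Fˣ) : F)
      = e ((simSgn (QPlus m F₀) (hv_plus hm1) m g : F₀ˣ) : F₀) := by
  rw [simSgn_apply, simSgn_apply, Units.val_mul, Units.val_mul, Units.val_inv_eq_inv_val,
    Units.val_inv_eq_inv_val, Units.val_pow_eq_pow_val, Units.val_pow_eq_pow_val, pfcento_det_sm,
    pfcento_simMul_sm e m hm1 g, map_mul, map_inv₀, map_pow]

theorem pfcento_simSgn_sm_iff (hm1 : 1 ≤ m)
    (g : ↥(Geo.quadSimilarityGroup (F := F₀) ⇑(QPlus m F₀))) :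
    simSgn (QPlus m F) (hv_plus hm1) m (pfcento_sm e m g) = 1 ↔
      simSgn (QPlus m F₀) (hv_plus hm1) m g = 1 := by
  rw [Units.ext_iff, Units.ext_iff, pfcento_simSgn_sm e m hm1 g, Units.val_one, Units.val_one]
  constructor
  · intro h
    exact e.injective (by rw [h, map_one])
  · intro h
    rw [h, map_one]

/-- proportional similarities have the same sign -/
theorem pfcento_simSgn_of_smul (hm1 : 1 ≤ m)
    (g g' : ↥(Geo.quadSimilarityGroup (F := F) ⇑(QPlus m F)))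
    (b : F) (hb : b ≠ 0)
    (h : mt((g' : Matrix.GeneralLinearGroup Idx F)) = b • mt((g : Matrix.GeneralLinearGroup Idx F))) :
    simSgn (QPlus m F) (hv_plus hm1) m g' =
      simSgn (QPlus m F) (hv_plus hm1) m g := by
  have hmu : ((simMul (QPlus m F) (hv_plus hm1) g' : Fˣ) : F) =
      b ^ 2 * ((simMul (QPlus m F) (hv_plus hm1) g : Fˣ) : F) := by
    apply simMul_eq
    intro v
    rw [h, Matrix.smul_mulVec, QuadraticMap.map_smul, simMul_spec (QPlus m F)
      (hv_plus hm1) g v, smul_eq_mul]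
    ring
  have hdet : ((Matrix.GeneralLinearGroup.det (g' : Matrix.GeneralLinearGroup Idx F) : Fˣ) : F) =
      b ^ (2 * m) *
        ((Matrix.GeneralLinearGroup.det (g : Matrix.GeneralLinearGroup Idx F) : Fˣ) : F) := by
    rw [Matrix.GeneralLinearGroup.val_det_apply, Matrix.GeneralLinearGroup.val_det_apply, h,
      Matrix.det_smul, card_plus]
  have hmu0 : ((simMul (QPlus m F) (hv_plus hm1) g : Fˣ) : F) ≠ 0 :=
    Units.ne_zero _
  apply Units.ext
  rw [simSgn_apply, simSgn_apply, Units.val_mul, Units.val_mul, Units.val_inv_eq_inv_val,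
    Units.val_inv_eq_inv_val, Units.val_pow_eq_pow_val, Units.val_pow_eq_pow_val, hdet, hmu]
  field_simp
  ring

/-- descent of a similarity whose matrix is an eigenvector of `σ` -/
theorem pfcento_descend (hm1 : 1 ≤ m)
    (σ : RingAut F) (r : ℕ) (hr0 : 0 < r) (hr : orderOf σ = r)
    (he : ∀ x : F, σ x = x ↔ x ∈ Set.range e)
    (g : ↥(Geo.quadSimilarityGroup (F := F) ⇑(QPlus m F))) (c : F)
    (hc : (mt((g : Matrix.GeneralLinearGroup Idx F))).map (σ : F ≃+* F) =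
      c • mt((g : Matrix.GeneralLinearGroup Idx F))) :
    ∃ (g₀ : ↥(Geo.quadSimilarityGroup (F := F₀) ⇑(QPlus m F₀))) (b : F), b ≠ 0 ∧
      mt(((pfcento_sm e m g₀ : ↥(Geo.quadSimilarityGroup (F := F) ⇑(QPlus m F))) :
        Matrix.GeneralLinearGroup Idx F)) = b • mt((g : Matrix.GeneralLinearGroup Idx F)) := by
  have hM : mt((g : Matrix.GeneralLinearGroup Idx F)) ≠ 0 := by
    intro h0
    have h1 : mt((g : Matrix.GeneralLinearGroup Idx F)) *
        mt(((g : Matrix.GeneralLinearGroup Idx F))⁻¹) = 1 := by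
      rw [← Units.val_mul, mul_inv_cancel, Units.val_one]
    rw [h0, Matrix.zero_mul] at h1
    have h3 := congrFun (congrFun h1 (Sum.inl ⟨0, hm1⟩)) (Sum.inl ⟨0, hm1⟩)
    rw [Matrix.zero_apply, Matrix.one_apply_eq] at h3
    exact zero_ne_one h3
  obtain ⟨b, hb0, hb⟩ := exists_fixed_smul (σ : F ≃+* F) r hr0 hr _ hM c hc
  have hfix : ∀ i j, ∃ x : F₀, e x = (b • mt((g : Matrix.GeneralLinearGroup Idx F))) i j := by
    intro i j
    have h1 := congrFun (congrFun hb i) j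
    rw [Matrix.map_apply] at h1
    exact (he _).1 h1
  choose M₀ hM₀ using hfix
  have hmap : (Matrix.of M₀).map e = b • mt((g : Matrix.GeneralLinearGroup Idx F)) := by
    ext i j
    exact hM₀ i j
  obtain ⟨cg, hcg⟩ := g.2
  obtain ⟨v₀, hv₀⟩ : ∃ v₀ : Idx → F₀, QPlus m F (fun j => e (v₀ j)) = 1 := by
    refine ⟨Pi.single (Sum.inl ⟨0, hm1⟩) 1 + Pi.single (Sum.inr ⟨0, hm1⟩) 1, ?_⟩
    rw [pfcento_QPlus_map, (hypPlus m F₀ ⟨0, hm1⟩).Q_plus, map_one]
  have hsim : ∀ v, QPlus m F (((Matrix.of M₀).map e) *ᵥ v) =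
      (b ^ 2 * cg) * QPlus m F v := by
    intro v
    rw [hmap, Matrix.smul_mulVec, QuadraticMap.map_smul, hcg v, smul_eq_mul]
    ring
  have hc₀ : e (QPlus m F₀ ((Matrix.of M₀) *ᵥ v₀)) = b ^ 2 * cg := by
    have h1 := hsim (fun j => e (v₀ j))
    rw [hv₀, mul_one, map_mulVecG, pfcento_QPlus_map] at h1
    exact h1
  have hc₀0 : QPlus m F₀ ((Matrix.of M₀) *ᵥ v₀) ≠ 0 := by
    intro h0
    rw [h0, map_zero] at hc₀
    exact (mul_ne_zero (pow_ne_zero 2 hb0) cg.ne_zero) hc₀.symm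
  have hsim₀ := sim_downG e (QPlus m F₀) (QPlus m F) (pfcento_QPlus_map e m)
    (Matrix.of M₀) _ (by
      intro v
      rw [hc₀]
      exact hsim v)
  refine ⟨simOfMatrix (QPlus m F₀) polarSep_plus (Matrix.of M₀) _ hc₀0 hsim₀, b, hb0, ?_⟩
  rw [pfcento_sm_coe]
  exact hmap

/-- the map from the similarities of sign one over `F₀` -/
noncomputable def pfcento_psi0 (hm1 : 1 ≤ m) :
    ↥((simSgn (QPlus m F₀) (hv_plus hm1) m).ker) →*
      MulAut (POmega F ⇑(QPlus m F)) :=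
  (iotaO (QPlus m F)).comp ((pfcento_sm e m).comp (Subgroup.subtype _))

theorem pfcento_map_map_fixed (σ : RingAut F) (hσ : ∀ x : F₀, σ (e x) = e x)
    (M : Matrix Idx Idx F₀) :
    (M.map e).map (σ : F ≃+* F) = M.map e := by
  ext i j
  simp only [Matrix.map_apply]
  exact hσ _

theorem pfcento_psi0_range (hm1 : 1 ≤ m)
    (hQ : (polarBilin (QPlus m F)).Nondegenerate)
    (hn : 7 ≤ Fintype.card Idx) (σ : RingAut F)
    (hσ : (SemidirectProduct.inr σ : SGL Idx F) ∈ GO ⇑(QPlus m F))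
    (r : ℕ) (hr0 : 0 < r) (hr : orderOf σ = r)
    (he : ∀ x : F, σ x = x ↔ x ∈ Set.range e) :
    (pfcento_psi0 e m hm1).range =
      ((simSgn (QPlus m F) (hv_plus hm1) m).ker).map
        (simAut ⇑(QPlus m F)) ⊓
      Subgroup.centralizer {Theta ⇑(QPlus m F)
        (inrS (QPlus m F) σ hσ)} := by
  apply le_antisymm
  · rintro _ ⟨g₀, rfl⟩
    refine ⟨?_, ?_⟩
    · refine ⟨pfcento_sm e m g₀.1, ?_, ?_⟩
      · exact (pfcento_simSgn_sm_iff e m hm1 g₀.1).2 g₀.2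
      · exact (iotaO_eq_simAut _ _).symm
    · show pfcento_psi0 e m hm1 g₀ ∈ Subgroup.centralizer _
      rw [Subgroup.mem_centralizer_iff]
      intro y hy
      rw [Set.mem_singleton_iff.1 hy]
      symm
      show iotaO (QPlus m F) (pfcento_sm e m g₀.1) * _ =
        _ * iotaO (QPlus m F) (pfcento_sm e m g₀.1)
      rw [comm_iffS (QPlus m F) hQ hn σ hσ]
      refine ⟨1, one_ne_zero, ?_⟩
      rw [pfcento_sm_coe, one_smul]
      exact pfcento_map_map_fixed e m σ (fun x => (he _).2 ⟨x, rfl⟩) _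
  · rintro β ⟨hβ1, hβ2⟩
    obtain ⟨g, hg, rfl⟩ := hβ1
    have hg1 : simSgn (QPlus m F) (hv_plus hm1) m g = 1 := hg
    have hcomm : iotaO (QPlus m F) g *
        Theta ⇑(QPlus m F) (inrS (QPlus m F) σ hσ) =
        Theta ⇑(QPlus m F) (inrS (QPlus m F) σ hσ) *
          iotaO (QPlus m F) g := by
      rw [iotaO_eq_simAut]
      exact ((Subgroup.mem_centralizer_iff.1 hβ2) _ rfl).symm
    obtain ⟨c, -, hc⟩ := (comm_iffS (QPlus m F) hQ hn σ hσ g).1 hcomm
    obtain ⟨g₀, b, hb0, hb⟩ := pfcento_descend e m hm1 σ r hr0 hr he g c hc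
    have hs1 : simSgn (QPlus m F₀) (hv_plus hm1) m g₀ = 1 := by
      rw [← pfcento_simSgn_sm_iff e m hm1, pfcento_simSgn_of_smul m hm1 g _ b hb0 hb]
      exact hg1
    refine ⟨⟨g₀, hs1⟩, ?_⟩
    show iotaO (QPlus m F) (pfcento_sm e m g₀) = _
    rw [iotaO_eq_of_smul (QPlus m F) hQ hn g _ b hb0 hb, iotaO_eq_simAut]

theorem pfcento_psi0_ker (hm1 : 1 ≤ m) (hQ : (polarBilin (QPlus m F)).Nondegenerate)
    (hQ₀ : (polarBilin (QPlus m F₀)).Nondegenerate)
    (hn : 7 ≤ Fintype.card Idx) :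
    (pfcento_psi0 e m hm1).ker =
      ((iotaO (QPlus m F₀)).comp
        (Subgroup.subtype ((simSgn (QPlus m F₀) (hv_plus hm1) m).ker))).ker := by
  ext g₀
  rw [MonoidHom.mem_ker, MonoidHom.mem_ker]
  show iotaO (QPlus m F) (pfcento_sm e m g₀.1) = 1 ↔
    iotaO (QPlus m F₀) g₀.1 = 1
  rw [iotaO_eq_one_iff (QPlus m F) hQ hn, iotaO_eq_one_iff (QPlus m F₀) hQ₀ hn,
    pfcento_sm_coe]
  constructor
  · rintro ⟨c, hc0, hc⟩
    have hent : ∀ i j, e (mt₀((g₀.1 : Matrix.GeneralLinearGroup Idx F₀)) i j) =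
        if i = j then c else 0 := by
      intro i j
      have := congrFun (congrFun hc i) j
      rw [Matrix.map_apply] at this
      rw [this]
      simp [Matrix.one_apply]
    have h00 := hent (Sum.inl ⟨0, hm1⟩) (Sum.inl ⟨0, hm1⟩)
    rw [if_pos rfl] at h00
    refine ⟨mt₀((g₀.1 : Matrix.GeneralLinearGroup Idx F₀)) (Sum.inl ⟨0, hm1⟩) (Sum.inl ⟨0, hm1⟩),
      ?_, ?_⟩
    · intro h0
      rw [h0, map_zero] at h00
      exact hc0 h00.symm
    · ext i j
      apply e.injective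
      rw [hent i j]
      by_cases hij : i = j
      · subst hij
        simp [h00]
      · simp [hij]
  · rintro ⟨c₀, hc0, hc⟩
    refine ⟨e c₀, ?_, ?_⟩
    · intro h0
      exact hc0 (e.injective (by rw [h0, map_zero]))
    · rw [hc]
      ext i j
      by_cases hij : i = j
      · subst hij
        simp
      · simp [hij]

theorem pfcento_range_sub (hm1 : 1 ≤ m) :
    ((iotaO (QPlus m F₀)).comp
      (Subgroup.subtype ((simSgn (QPlus m F₀) (hv_plus hm1) m).ker))).range =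
    ((simSgn (QPlus m F₀) (hv_plus hm1) m).ker).map
      (simAut ⇑(QPlus m F₀)) := by
  ext β
  constructor
  · rintro ⟨g, rfl⟩
    exact ⟨g.1, g.2, (iotaO_eq_simAut _ _).symm⟩
  · rintro ⟨g, hg, rfl⟩
    exact ⟨⟨g, hg⟩, iotaO_eq_simAut _ _⟩

/-- the centralizer, for forms given as functions -/
theorem pfcento_cent_aux (h2 : (2 : F) ≠ 0) (hm : 4 ≤ m)
    (σ : F ≃+* F) (r : ℕ) (hr0 : 0 < r) (hr : orderOf σ = r)
    (he : ∀ x : F, σ x = x ↔ x ∈ Set.range e)
    (Q' : (Idx → F) → F) (hQ' : ⇑(QPlus m F) = Q')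
    (Q₀' : (Idx → F₀) → F₀) (hQ₀' : ⇑(QPlus m F₀) = Q₀')
    (φ : MulAut (POmega F Q')) (hφ : IsFieldAutPOmegaOf Q' σ φ) :
    Nonempty (↥(inndiagOf Q' ⊓ Subgroup.centralizer {φ}) ≃* ↥(inndiagOf Q₀')) := by
  subst hQ' hQ₀'
  have hm1 : 1 ≤ m := by omega
  have h2₀ : (2 : F₀) ≠ 0 := by
    intro h0
    apply h2
    have := congrArg e h0
    rwa [map_ofNat, map_zero] at this
  have hF : ringChar F ≠ 2 := by
    intro h
    apply h2
    have := ringChar.Nat.cast_ringChar (R := F)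
    rw [h] at this
    exact_mod_cast this
  have hF₀ : ringChar F₀ ≠ 2 := by
    intro h
    apply h2₀
    have := ringChar.Nat.cast_ringChar (R := F₀)
    rw [h] at this
    exact_mod_cast this
  obtain ⟨hQ, hn⟩ := pfcento_plus_nondeg (F := F) hm
  obtain ⟨hQ₀, -⟩ := pfcento_plus_nondeg (F := F₀) hm
  have hσ := pfcento_inr_mem_plus m (σ : RingAut F)
  have hφ' := (field_iffS (QPlus m F) σ hσ φ).mp hφ
  subst hφ'
  unfold inndiagOf
  rw [inndiagPlus_eq hF hm1, inndiagPlus_eq hF₀ hm1]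
  have e1 := MulEquiv.subgroupCongr
    (pfcento_psi0_range e m hm1 hQ hn σ hσ r hr0 hr he).symm
  have e2 := QuotientGroup.quotientKerEquivRange (pfcento_psi0 e m hm1)
  have e3 : ↥((simSgn (QPlus m F₀) (hv_plus hm1) m).ker) ⧸ (pfcento_psi0 e m hm1).ker ≃*
      ↥((simSgn (QPlus m F₀) (hv_plus hm1) m).ker) ⧸
        ((iotaO (QPlus m F₀)).comp
          (Subgroup.subtype ((simSgn (QPlus m F₀) (hv_plus hm1) m).ker))).ker :=
    QuotientGroup.quotientMulEquivOfEq (pfcento_psi0_ker e m hm1 hQ hQ₀ hn)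
  have e4 := QuotientGroup.quotientKerEquivRange ((iotaO (QPlus m F₀)).comp
    (Subgroup.subtype ((simSgn (QPlus m F₀) (hv_plus hm1) m).ker)))
  have e5 := MulEquiv.subgroupCongr (pfcento_range_sub (F₀ := F₀) m hm1)
  exact ⟨e1.trans (e2.symm.trans (e3.trans (e4.trans e5)))⟩

end

/-- **Piece PF-CENTO.** -/
theorem cent_odd_plus {F₀ : Type v} [Field F₀] [Fintype F₀] {F : Type u} [Field F] [Fintype F]
    (h2 : (2 : F) ≠ 0) {m : ℕ} (hm : 4 ≤ m) (e : F₀ →+* F)
    (σ : F ≃+* F) (r : ℕ) (hr0 : 0 < r) (hr : orderOf σ = r)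
    (he : ∀ x : F, σ x = x ↔ x ∈ Set.range e)
    (φ : MulAut (Cfsg.POmega F (Cfsg.quadFormPlus m F)))
    (hφ : Cfsg.IsFieldAutPOmegaOf (Cfsg.quadFormPlus m F) σ φ) :
    Nonempty (↥(Cfsg.inndiagPOmegaPlus m F ⊓ Subgroup.centralizer {φ}) ≃*
      ↥(Cfsg.inndiagPOmegaPlus m F₀)) :=
  pfcento_cent_aux e m h2 hm σ r hr0 hr he _ (coe_QPlus m F) _ (coe_QPlus m F₀) φ hφ

end Cfsg.Agent.Lib.Helper52.PF
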