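import Mathlib
import Cfsg.Agent.Lib.Helper91.PslU

set_option autoImplicit false

namespace Cfsg.Agent.Lib.Helper29.PslB4

open Matrix Matrix.SpecialLinearGroup Cfsg.Agent.Lib.Helper91.PslU

theorem transv_entry {n : ℕ} {K : Type*} [Field K] (i j : Fin n) (hij : i ≠ j) (a : K)
    (i' j' : Fin n) :
    (transvection hij a).1 i' j' =
      (if i' = j' then 1 else 0) + (if i = i' ∧ j = j' then a else 0) := by
  have h : (transvection hij a).1 = 1 + Matrix.single i j a := rfl
  rw [h, Matrix.add_apply, Matrix.one_apply, Matrix.single_apply]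

theorem transv_mul_entry {n : ℕ} {K : Type*} [Field K] (i j : Fin n) (hij : i ≠ j) (a : K)
    (g : SpecialLinearGroup (Fin n) K) (i' j' : Fin n) :
    (transvection hij a * g).1 i' j' = g.1 i' j' + (if i' = i then a * g.1 j j' else 0) := by
  have h : (transvection hij a * g).1 = (1 + Matrix.single i j a) * g.1 := rfl
  rw [h, add_mul, one_mul, Matrix.add_apply]
  congr 1
  by_cases hi : i' = i
  · subst hi
    rw [if_pos rfl, Matrix.single_mul_apply_same]
  · rw [if_neg hi, Matrix.single_mul_apply_of_ne _ _ _ _ _ hi]

theorem transv_mem_UU (n : ℕ) (K : Type*) [Field K] (i j : Fin n) (hij : i ≠ j) (h : i < j)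
    (a : K) : transvection hij a ∈ UU n K := by
  rw [mem_UU_iff]
  refine ⟨fun i' j' hlt => ?_, fun i' => ?_⟩
  · rw [transv_entry, if_neg (ne_of_gt hlt), if_neg, add_zero]
    rintro ⟨rfl, rfl⟩
    exact lt_asymm h hlt
  · rw [transv_entry, if_pos rfl, if_neg, add_zero]
    rintro ⟨rfl, rfl⟩
    exact hij rfl

theorem succ_mul_le_of_lt {a b n : ℕ} (h : a < b) : a * n + n ≤ b * n := by
  have := Nat.mul_le_mul_right n (Nat.succ_le_of_lt h)
  rw [Nat.succ_mul] at this
  exact this

theorem UU_le_closure_aux (n : ℕ) (K : Type*) [Field K] (d : ℕ) :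
    ∀ m, m + d = n * n → ∀ g ∈ UU n K,
      (∀ i j : Fin n, i < j → (j : ℕ) * n + (i : ℕ) < m → g.1 i j = 0) →
      g ∈ Subgroup.closure {x : SpecialLinearGroup (Fin n) K |
        ∃ (i j : Fin n) (hij : i ≠ j) (a : K), i < j ∧ x = transvection hij a} := by
  induction d with
  | zero =>
    intro m hm g hg h0
    have hg' := (mem_UU_iff n K g).1 hg
    have h1 : g = 1 := by
      apply Subtype.ext
      ext i j
      rcases lt_trichotomy i j with hlt | heq | hgt
      · have hi := i.2
        have hj := j.2
        have hjn : (j : ℕ) * n + n ≤ n * n := succ_mul_le_of_lt hj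
        rw [h0 i j hlt (by omega)]
        exact (Matrix.one_apply_ne (ne_of_lt hlt)).symm
      · subst heq
        rw [hg'.2 i]
        exact (Matrix.one_apply_eq i).symm
      · rw [hg'.1 i j hgt]
        exact (Matrix.one_apply_ne (ne_of_gt hgt)).symm
    rw [h1]
    exact one_mem _
  | succ d ih =>
    intro m hm g hg h0
    have hg' := (mem_UU_iff n K g).1 hg
    have hmn : m < n * n := by omega
    have hn : 0 < n := by
      rcases Nat.eq_zero_or_pos n with h | h
      · subst h
        simp at hmn
      · exact h
    have hj0 : m / n < n := Nat.div_lt_of_lt_mul hmn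
    have hi0 : m % n < n := Nat.mod_lt _ hn
    have hdecomp : (m / n) * n + m % n = m := Nat.div_add_mod' m n
    by_cases hlt : (⟨m % n, hi0⟩ : Fin n) < ⟨m / n, hj0⟩
    · have hne : (⟨m % n, hi0⟩ : Fin n) ≠ ⟨m / n, hj0⟩ := ne_of_lt hlt
      have hh : transvection hne (-(g.1 ⟨m % n, hi0⟩ ⟨m / n, hj0⟩)) * g ∈ UU n K :=
        mul_mem (transv_mem_UU n K _ _ hne hlt _) hg
      have hcl := ih (m + 1) (by omega) _ hh (by
        intro i j hij hpos
        rw [transv_mul_entry]
        have hi := i.2
        have hj := j.2
        by_cases hi' : i = ⟨m % n, hi0⟩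
        · rw [if_pos hi']
          by_cases hj' : j = ⟨m / n, hj0⟩
          · rw [hi', hj', hg'.2]
            ring
          · have hiv : (i : ℕ) = m % n := by rw [hi']
            have hjlt : (j : ℕ) < m / n := by
              rcases lt_trichotomy (j : ℕ) (m / n) with h | h | h
              · exact h
              · exact absurd (Fin.ext h) hj'
              · have := succ_mul_le_of_lt (n := n) h
                omega
            have h1 : g.1 ⟨m / n, hj0⟩ j = 0 := hg'.1 _ _ (by
              show (j : ℕ) < m / n
              exact hjlt)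
            have h2 : g.1 i j = 0 := h0 i j hij (by
              have := succ_mul_le_of_lt (n := n) hjlt
              omega)
            rw [h1, h2]
            ring
        · rw [if_neg hi', add_zero]
          apply h0 i j hij
          have hne' : (j : ℕ) * n + (i : ℕ) ≠ m := by
            intro heq
            apply hi'
            apply Fin.ext
            show (i : ℕ) = m % n
            rw [← heq, Nat.mul_add_mod_of_lt hi]
          omega)
      have hgeq : g = transvection hne (g.1 ⟨m % n, hi0⟩ ⟨m / n, hj0⟩) *
          (transvection hne (-(g.1 ⟨m % n, hi0⟩ ⟨m / n, hj0⟩)) * g) := by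
        rw [← mul_assoc, transvection_mul_neg, one_mul]
      rw [hgeq]
      exact mul_mem (Subgroup.subset_closure ⟨_, _, hne, _, hlt, rfl⟩) hcl
    · exact ih (m + 1) (by omega) g hg (fun i j hij hpos => by
        apply h0 i j hij
        have hi := i.2
        have hne' : (j : ℕ) * n + (i : ℕ) ≠ m := by
          intro heq
          apply hlt
          have e1 : (i : ℕ) = m % n := by rw [← heq, Nat.mul_add_mod_of_lt hi]
          have e2 : (j : ℕ) = m / n := by
            rw [← heq, Nat.add_comm, Nat.add_mul_div_right _ _ hn, Nat.div_eq_of_lt hi, zero_add]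
          have hij' : (i : ℕ) < (j : ℕ) := hij
          show m % n < m / n
          omega
        omega)

theorem UU_le_closure (n : ℕ) (K : Type*) [Field K] :
    UU n K ≤ Subgroup.closure {x : SpecialLinearGroup (Fin n) K |
      ∃ (i j : Fin n) (hij : i ≠ j) (a : K), i < j ∧ x = transvection hij a} := by
  intro g hg
  exact UU_le_closure_aux n K (n * n) 0 (by omega) g hg (fun i j _ h => absurd h (Nat.not_lt_zero _))

end Cfsg.Agent.Lib.Helper29.PslB4
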