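import Mathlib
import Cfsg.Agent.Lib.Helper91.PslU

/-!
# S5163, piece B7a: the subgroup of upper unitriangular matrices with zero `(i, i+1)` entry.
-/

set_option autoImplicit false

namespace Cfsg.Agent.Lib.Helper29.PslB7a

open Matrix Matrix.SpecialLinearGroup Cfsg.Agent.Lib.Helper91.PslU

theorem UU_mul_entry (n : ℕ) (K : Type*) [Field K] (i j : Fin n) (hij : (i : ℕ) + 1 = (j : ℕ))
    (g h : SpecialLinearGroup (Fin n) K) (hg : g ∈ UU n K) (hh : h ∈ UU n K) :
    (g * h).1 i j = g.1 i j + h.1 i j := by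
  rw [mem_UU_iff] at hg hh
  have hne : i ≠ j := by
    intro h
    rw [h] at hij
    omega
  have hmul : (g * h).1 = g.1 * h.1 := rfl
  rw [hmul, Matrix.mul_apply, Finset.sum_eq_add i j hne]
  · rw [hg.2 i, hh.2 j, one_mul, mul_one, add_comm]
  · intro k _ hk
    rcases lt_or_gt_of_ne hk.1 with h1 | h1
    · rw [hg.1 i k h1, zero_mul]
    · have h2 : j < k := by
        rw [Fin.lt_def] at h1 ⊢
        have h3 := Fin.val_ne_of_ne hk.2
        omega
      rw [hh.1 k j h2, mul_zero]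
  · intro hi; exact absurd (Finset.mem_univ i) hi
  · intro hj; exact absurd (Finset.mem_univ j) hj

theorem exists_PP (n : ℕ) (K : Type*) [Field K] (i j : Fin n) (hij : (i : ℕ) + 1 = (j : ℕ)) :
    ∃ P : Subgroup (SpecialLinearGroup (Fin n) K), ∀ g, g ∈ P ↔ g ∈ UU n K ∧ g.1 i j = 0 := by
  have hne : i ≠ j := by
    intro h
    rw [h] at hij
    omega
  have hone : (1 : SpecialLinearGroup (Fin n) K).1 i j = 0 := by
    show (1 : Matrix (Fin n) (Fin n) K) i j = 0
    exact Matrix.one_apply_ne hne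
  refine ⟨{ carrier := {g | g ∈ UU n K ∧ g.1 i j = 0}
            mul_mem' := ?_
            one_mem' := ?_
            inv_mem' := ?_ }, fun g => Iff.rfl⟩
  · rintro a b ⟨ha, ha0⟩ ⟨hb, hb0⟩
    exact ⟨mul_mem ha hb, by rw [UU_mul_entry n K i j hij a b ha hb, ha0, hb0, add_zero]⟩
  · exact ⟨one_mem _, hone⟩
  · rintro a ⟨ha, ha0⟩
    refine ⟨inv_mem ha, ?_⟩
    have h1 := UU_mul_entry n K i j hij a a⁻¹ ha (inv_mem ha)
    rw [mul_inv_cancel, hone, ha0, zero_add] at h1
    exact h1.symm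

end Cfsg.Agent.Lib.Helper29.PslB7a
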