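import Mathlib
import Cfsg.Agent.Lib.Helper72.S3Defs

/-! S4305 piece F1: `[H, f] R = H` in the "maximal abelian normal subgroup" situation when
`C_H(f) ≤ R`. -/

set_option autoImplicit false

universe u

namespace Cfsg.Agent.Lib.Helper29.S3F

open Cfsg.Agent.Lib.Helper72.S3F

theorem f1_mem_comap {Γ : Type*} [Group Γ] (a : Γ) (K : Subgroup Γ) (x : Γ) :
    x ∈ K.comap (MulAut.conj a).toMonoidHom ↔ a * x * a⁻¹ ∈ K := by
  rw [Subgroup.mem_comap, MulEquiv.coe_toMonoidHom, MulAut.conj_apply]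

theorem f1 (h1 : Lift1Stmt.{u}) : F1Stmt.{u} := by
  intro V _ _ H R f t hAct hMax hfix
  have hf3 : f ^ 3 = 1 := hAct.s3.f3
  have htf : t * f * t⁻¹ = f⁻¹ := hAct.s3.tf
  have hff : f * f = f⁻¹ := by
    have h3 : f * f * f = 1 := by
      rw [← hf3, pow_succ, pow_two]
    exact eq_inv_of_mul_eq_one_left h3
  have hfinvH : ∀ x ∈ H, f⁻¹ * x * f ∈ H := by
    intro x hx
    have h2 := hAct.fH _ (hAct.fH x hx)
    have h3 : f * (f * x * f⁻¹) * f⁻¹ = f⁻¹ * x * f := by
      calc f * (f * x * f⁻¹) * f⁻¹ = (f * f) * x * (f * f)⁻¹ := by group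
        _ = f⁻¹ * x * f := by rw [hff, inv_inv]
    rw [h3] at h2
    exact h2
  have hgen : ∀ u ∈ H, u⁻¹ * (f * u * f⁻¹) ∈ cm H f :=
    fun u hu => Subgroup.subset_closure ⟨u, hu, rfl⟩
  have hcmH : cm H f ≤ H := by
    unfold cm
    rw [Subgroup.closure_le]
    rintro x ⟨u, hu, rfl⟩
    exact H.mul_mem (H.inv_mem hu) (hAct.fH u hu)
  have hKH : cm H f ⊔ R ≤ H := sup_le hcmH hMax.le
  have hRK : R ≤ cm H f ⊔ R := le_sup_right
  have hcK : cm H f ≤ cm H f ⊔ R := le_sup_left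
  have hKf : ∀ x ∈ cm H f ⊔ R, f * x * f⁻¹ ∈ cm H f ⊔ R := by
    have hle : cm H f ⊔ R ≤ (cm H f ⊔ R).comap (MulAut.conj f).toMonoidHom := by
      apply sup_le
      · unfold cm
        rw [Subgroup.closure_le]
        rintro x ⟨u, hu, rfl⟩
        rw [SetLike.mem_coe, f1_mem_comap]
        have h4 : f * (u⁻¹ * (f * u * f⁻¹)) * f⁻¹ =
            (f * u * f⁻¹)⁻¹ * (f * (f * u * f⁻¹) * f⁻¹) := by group
        rw [h4]
        exact hcK (hgen _ (hAct.fH u hu))
      · intro x hx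
        rw [f1_mem_comap]
        exact hRK (hMax.fR x hx)
    intro x hx
    exact (f1_mem_comap f _ x).mp (hle hx)
  have hKt : ∀ x ∈ cm H f ⊔ R, t * x * t⁻¹ ∈ cm H f ⊔ R := by
    have hle : cm H f ⊔ R ≤ (cm H f ⊔ R).comap (MulAut.conj t).toMonoidHom := by
      apply sup_le
      · unfold cm
        rw [Subgroup.closure_le]
        rintro x ⟨u, hu, rfl⟩
        rw [SetLike.mem_coe, f1_mem_comap]
        have hu' : t * u * t⁻¹ ∈ H := hAct.tH u hu
        have hw : f⁻¹ * (t * u * t⁻¹) * f ∈ H := hfinvH _ hu'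
        have h4 : t * (u⁻¹ * (f * u * f⁻¹)) * t⁻¹ =
            ((f⁻¹ * (t * u * t⁻¹) * f)⁻¹ * (f * (f⁻¹ * (t * u * t⁻¹) * f) * f⁻¹))⁻¹ := by
          have h5 : t * (u⁻¹ * (f * u * f⁻¹)) * t⁻¹ =
              (t * u * t⁻¹)⁻¹ * ((t * f * t⁻¹) * (t * u * t⁻¹) * (t * f * t⁻¹)⁻¹) := by group
          rw [h5, htf]
          group
        rw [h4]
        exact hcK ((cm H f).inv_mem (hgen _ hw))
      · intro x hx
        rw [f1_mem_comap]
        exact hRK (hMax.tR x hx)
    intro x hx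
    exact (f1_mem_comap t _ x).mp (hle hx)
  rcases hMax.max (cm H f ⊔ R) hRK hKH hKf hKt with hK | hK
  · exfalso
    obtain ⟨x₀, hx₀H, hx₀R⟩ := hMax.ne
    apply hx₀R
    -- every x ∈ H lies in R
    have hall : ∀ x ∈ H, x ∈ R := by
      intro x hx
      have hxg : x⁻¹ * (f * x * f⁻¹) ∈ R := by
        rw [← hK]
        exact hcK (hgen x hx)
      haveI : Finite (MulAut V) :=
        Finite.of_injective (fun e : MulAut V => (e : V → V)) DFunLike.coe_injective
      have hcop : (Nat.card R).Coprime 3 := by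
        have h6 : Nat.card R ∣ Nat.card H := Subgroup.card_dvd_of_le hMax.le
        have h7 : (Nat.card R).Coprime 6 := Nat.Coprime.coprime_dvd_left h6 hAct.cop
        exact Nat.Coprime.coprime_dvd_right (by norm_num) h7
      have hφ3 : (MulAut.conj f) ^ 3 = 1 := by
        rw [← map_pow, hf3, map_one]
      obtain ⟨k, hkR, hk⟩ := h1 (MulAut V) (MulAut.conj f) 3 R x Nat.prime_three hφ3
        inferInstance hcop (fun k hk => by rw [MulAut.conj_apply]; exact hMax.fR k hk)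
        (by rw [MulAut.conj_apply]; exact hxg)
      rw [MulAut.conj_apply] at hk
      have hxk : x * k ∈ R := hfix _ (H.mul_mem hx (hMax.le hkR)) hk
      have h8 : x = (x * k) * k⁻¹ := by group
      rw [h8]
      exact R.mul_mem hxk (R.inv_mem hkR)
    exact hall x₀ hx₀H
  · exact hK

end Cfsg.Agent.Lib.Helper29.S3F
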