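import Mathlib
import Cfsg.Agent.Lib.Helper72.S3Defs

/-! S4305 piece INV: a fixed-point-free involution inverts a finite group, which is then
commutative. -/

set_option autoImplicit false

universe u

namespace Cfsg.Agent.Lib.Helper29.S3F

open Cfsg.Agent.Lib.Helper72.S3F

theorem inv : InvStmt.{u} := by
  intro Γ _ H t hfin ht2 htH hfpf
  have htt : t * t = 1 := by rw [← pow_two]; exact ht2
  have htinv : t⁻¹ = t := inv_eq_of_mul_eq_one_left htt
  haveI := hfin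
  let γ : H → H := fun x =>
    ⟨(x : Γ)⁻¹ * (t * x * t⁻¹), H.mul_mem (H.inv_mem x.2) (htH x x.2)⟩
  have hinj : Function.Injective γ := by
    intro x y hxy
    have h1 : (x : Γ)⁻¹ * (t * x * t⁻¹) = (y : Γ)⁻¹ * (t * y * t⁻¹) := congrArg Subtype.val hxy
    have h3 : t * y * t⁻¹ = (y : Γ) * ((x : Γ)⁻¹ * (t * x * t⁻¹)) := by
      rw [h1]; group
    have h2 : t * ((y : Γ) * (x : Γ)⁻¹) * t⁻¹ = (y : Γ) * (x : Γ)⁻¹ := by
      calc t * ((y : Γ) * (x : Γ)⁻¹) * t⁻¹ = (t * y * t⁻¹) * (t * x * t⁻¹)⁻¹ := by group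
        _ = (y : Γ) * ((x : Γ)⁻¹ * (t * x * t⁻¹)) * (t * x * t⁻¹)⁻¹ := by rw [h3]
        _ = (y : Γ) * (x : Γ)⁻¹ := by group
    have h4 := hfpf _ (H.mul_mem y.2 (H.inv_mem x.2)) h2
    apply Subtype.ext
    exact (mul_inv_eq_one.mp h4).symm
  have hsurj : Function.Surjective γ := Finite.surjective_of_injective hinj
  have hinvert : ∀ x ∈ H, t * x * t⁻¹ = x⁻¹ := by
    intro x hx
    obtain ⟨y, hy⟩ := hsurj ⟨x, hx⟩
    have h1 : (y : Γ)⁻¹ * (t * y * t⁻¹) = x := congrArg Subtype.val hy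
    rw [← h1, htinv]
    have h5 : t * ((y : Γ)⁻¹ * (t * y * t)) * t = (t * (y : Γ)⁻¹ * t * y) * (t * t) := by
      group
    rw [h5, htt, mul_one, mul_inv_rev, mul_inv_rev, mul_inv_rev, inv_inv, htinv]
    group
  refine ⟨hinvert, ?_⟩
  intro x hx y hy
  have h1 := hinvert (x * y) (H.mul_mem hx hy)
  have h2 : t * (x * y) * t⁻¹ = (t * x * t⁻¹) * (t * y * t⁻¹) := by group
  rw [h2, hinvert x hx, hinvert y hy, mul_inv_rev] at h1
  have h3 := congrArg (fun z => z⁻¹) h1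
  simp only [mul_inv_rev, inv_inv] at h3
  exact h3.symm

end Cfsg.Agent.Lib.Helper29.S3F
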