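import Mathlib
import Cfsg.Prelude.Def_Blocks
import Cfsg.Prelude.Def_Local
import Cfsg.Agent.S0144

/-! S4501 piece P0: a nonabelian finite simple group has at least three prime divisors. -/

set_option autoImplicit false
open Cfsg
open scoped ComplexConjugate

namespace Cfsg.Agent.Lib.Helper30.S4501.P0

theorem two_primes {G : Type*} [Group G] [Finite G] [IsSimpleGroup G]
    (hna : ∃ x y : G, x * y ≠ y * x) (p q a b : ℕ) (hp : p.Prime) (hq : q.Prime)
    (h : Nat.card G = p ^ a * q ^ b) : False := by
  obtain ⟨x, y, hxy⟩ := hna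
  have hs : Group.IsSolvable G := Cfsg.Agent.S0144.result p q a b hp hq h
  exact hxy (IsSimpleGroup.comm_iff_isSolvable.mpr hs x y)

end Cfsg.Agent.Lib.Helper30.S4501.P0
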