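import Mathlib
import Cfsg.Prelude.Def_Blocks
import Cfsg.Prelude.Def_Local
import Cfsg.Agent.S0992
import Cfsg.Agent.S0948
import Cfsg.Agent.Lib.Helper29.S4501P0
import Cfsg.Agent.Lib.Helper79.Klein2
import Cfsg.Agent.Lib.Helper79.FSCount
import Cfsg.Agent.Lib.Helper83.Codeg
import Cfsg.Agent.Lib.Helper83.Linear
import Cfsg.Agent.Lib.Helper82.PQ
import Cfsg.Agent.Lib.Helper5.Klein

/-! S4501 piece K1: the principal 2-block data of a nonabelian simple group of order `4 g₀`,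
`g₀` odd. -/

set_option autoImplicit false
open Cfsg
open scoped ComplexConjugate
open scoped commutatorElement

namespace Cfsg.Agent.Lib.Helper30.S4501.K1

/-- a nontrivial irreducible character of a nonabelian simple group is not linear -/
theorem degree_ne_one {G : Type*} [Group G] [Finite G] [IsSimpleGroup G]
    (hna : ∃ x y : G, x * y ≠ y * x) (χ : Cfsg.IrrCharacter G)
    (hχ : (χ : G → ℂ) ≠ (fun _ => 1)) : Cfsg.charDegree (χ : G → ℂ) ≠ 1 := by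
  intro h
  have h1 : (χ : G → ℂ) 1 = 1 := (Cfsg.Agent.Lib.Helper83.irr_charDegree_eq_one_iff χ.2).mp h
  have hcomm : commutator G = ⊤ := by
    have hn : (commutator G).Normal := inferInstance
    rcases hn.eq_bot_or_eq_top with hb | ht
    · exfalso
      obtain ⟨x, y, hxy⟩ := hna
      have hc : ⁅x, y⁆ ∈ commutator G := Subgroup.commutator_mem_commutator
        (Subgroup.mem_top x) (Subgroup.mem_top y)
      rw [hb, Subgroup.mem_bot, commutatorElement_eq_one_iff_mul_comm] at hc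
      exact hxy hc
    · exact ht
  apply hχ
  funext g
  have hg : g ∈ commutator G := by rw [hcomm]; exact Subgroup.mem_top g
  exact Cfsg.Agent.Lib.Helper83.irr_linear_commutator χ.2 h1 hg

theorem klein_setup {G : Type*} [Group G] [Finite G] [IsSimpleGroup G]
    (hna : ∃ x y : G, x * y ≠ y * x) (g₀ : ℕ) (hg₀ : Odd g₀) (hG : Nat.card G = 4 * g₀) :
    ∃ M : Ideal Cfsg.AlgInt, Cfsg.IsPModular 2 M ∧
    ∃ (P : Sylow 2 G) (J : G) (ζ₂ ζ₃ ζ₄ : Cfsg.IrrCharacter G) (ε : ℤ),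
      J ∈ (P : Subgroup G) ∧ orderOf J = 2 ∧ (ε = 1 ∨ ε = -1) ∧
      (¬ ∃ N : Subgroup G, N.Normal ∧ Nat.card N = g₀) ∧
      Cfsg.principalBlock M G = {χ : Cfsg.IrrCharacter G |
        (χ : G → ℂ) = (fun _ => 1) ∨ χ = ζ₂ ∨ χ = ζ₃ ∨ χ = ζ₄} ∧
      ((ζ₂ : G → ℂ) ≠ (fun _ => 1) ∧ (ζ₃ : G → ℂ) ≠ (fun _ => 1) ∧ (ζ₄ : G → ℂ) ≠ (fun _ => 1) ∧
        ζ₂ ≠ ζ₃ ∧ ζ₂ ≠ ζ₄ ∧ ζ₃ ≠ ζ₄) ∧
      ((ζ₂ : G → ℂ) J = 1 ∧ (ζ₃ : G → ℂ) J = (ε : ℂ) ∧ (ζ₄ : G → ℂ) J = -1) ∧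
      Cfsg.charDegree (ζ₂ : G → ℂ) % 4 = 1 ∧
      (ε = 1 → Cfsg.charDegree (ζ₃ : G → ℂ) % 4 = 1) ∧
      (ε = -1 → Cfsg.charDegree (ζ₃ : G → ℂ) % 4 = 3) ∧
      Cfsg.charDegree (ζ₄ : G → ℂ) % 4 = 3 ∧
      ((1 : ℤ) + (Cfsg.charDegree (ζ₂ : G → ℂ) : ℤ) + ε * (Cfsg.charDegree (ζ₃ : G → ℂ) : ℤ) =
        (Cfsg.charDegree (ζ₄ : G → ℂ) : ℤ)) ∧
      Cfsg.charDegree (ζ₂ : G → ℂ) ∣ g₀ ∧ Cfsg.charDegree (ζ₃ : G → ℂ) ∣ g₀ ∧
      Cfsg.charDegree (ζ₄ : G → ℂ) ∣ g₀ ∧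
      Cfsg.charDegree (ζ₂ : G → ℂ) ≠ 1 ∧ Cfsg.charDegree (ζ₃ : G → ℂ) ≠ 1 ∧
      Cfsg.charDegree (ζ₄ : G → ℂ) ≠ 1 := by
  classical
  haveI : Fact (Nat.Prime 2) := ⟨Nat.prime_two⟩
  letI := Fintype.ofFinite G
  obtain ⟨k, hk⟩ := hg₀
  obtain ⟨M, hM⟩ := Cfsg.Agent.Lib.Helper82.exists_isPModular 2
  refine ⟨M, hM, ?_⟩
  have hg₀' : Odd g₀ := ⟨k, hk⟩
  -- the Sylow 2-subgroup
  have hnotcomm : ¬ IsMulCommutative G := by
    intro h
    obtain ⟨x, y, hxy⟩ := hna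
    exact hxy (h.is_comm.comm x y)
  have heven : Even (Nat.card G) := by
    rw [hG]
    exact ⟨2 * g₀, by ring⟩
  have h8 : ¬ 8 ∣ Nat.card G := by
    rw [hG, hk]
    omega
  obtain ⟨P⟩ : Nonempty (Sylow 2 G) := inferInstance
  have hKlein : IsKleinFour ↥(P : Subgroup G) :=
    (Cfsg.Agent.S0992.result hnotcomm heven h8 P).1
  -- no normal 2-complement
  have hnc : ¬ ∃ N : Subgroup G, N.Normal ∧ Nat.card N = g₀ := by
    rintro ⟨N, hN, hNc⟩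
    rcases hN.eq_bot_or_eq_top with h | h
    · rw [h, Subgroup.card_bot] at hNc
      rw [← hNc] at hG
      exact Cfsg.Agent.Lib.Helper30.S4501.P0.two_primes hna 2 2 2 0 Nat.prime_two Nat.prime_two
        (by rw [hG]; norm_num)
    · rw [h, Subgroup.card_top, hG] at hNc
      omega
  -- an involution
  obtain ⟨J, -, hJ, -, hJ1, -, -⟩ := Cfsg.Agent.Lib.Helper5.klein_exists P hKlein
  have hJ2 : orderOf J = 2 := Cfsg.Agent.Lib.Helper5.klein_orderOf P hKlein J hJ hJ1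
  -- all involutions are conjugate
  obtain ⟨J₂, hJ₂, hJ₂2, hJ₂ne, hc1, hc2⟩ :=
    Cfsg.Agent.Lib.Helper79.exists_fusion g₀ hg₀' hG hnc P hJ hJ2
  have hJ₂1 : J₂ ≠ 1 := by
    intro h
    rw [h, orderOf_one] at hJ₂2
    omega
  have hP : ∀ u ∈ (P : Subgroup G), u ≠ 1 → IsConj J u := by
    intro u hu hu1
    by_cases h1 : u = J
    · rw [h1]
    · by_cases h2 : u = J₂
      · rw [h2]; exact hc1
      · have := Cfsg.Agent.Lib.Helper5.klein_eq_mul P hKlein J J₂ u hJ hJ₂ hu hJ1 hJ₂1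
          (fun h => hJ₂ne h.symm) hu1 h1 h2
        rw [this]; exact hc2
  have hall : ∀ s : G, orderOf s = 2 → IsConj J s := by
    intro s hs
    have hpg : IsPGroup 2 (Subgroup.zpowers s) := by
      apply IsPGroup.of_card (n := 1)
      rw [Nat.card_zpowers, hs, pow_one]
    obtain ⟨g, hg⟩ := Cfsg.Agent.Lib.Helper5.sylow_conj_mem P s hpg
    have hne : g⁻¹ * s * g ≠ 1 := by
      intro h
      have : s = 1 := by
        have e : s = g * (g⁻¹ * s * g) * g⁻¹ := by group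
        rw [e, h]; group
      rw [this, orderOf_one] at hs
      omega
    have h1 : IsConj J (g⁻¹ * s * g) := hP _ hg hne
    have h2 : IsConj (g⁻¹ * s * g) s := by
      rw [isConj_iff]
      exact ⟨g, by group⟩
    exact h1.trans h2
  have hone : ∀ s t : G, orderOf s = 2 → orderOf t = 2 → IsConj s t :=
    fun s t hs ht => (hall s hs).symm.trans (hall t ht)
  -- the principal block
  obtain ⟨ζ₂, ζ₃, ζ₄, ε, hε, h2ne, h3ne, h23, h24, h34, hB, hinv, hd2, hd3, hd4, hrel⟩ :=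
    Cfsg.Agent.S0948.result M hM P hKlein hone
  obtain ⟨hv2, hv3, hv4⟩ := hinv J hJ2
  have h4ne : (ζ₄ : G → ℂ) ≠ (fun _ => 1) := by
    intro h
    rw [h] at hv4
    norm_num at hv4
  have hm2 : Cfsg.charDegree (ζ₂ : G → ℂ) % 4 = 1 := by omega
  have hm4 : Cfsg.charDegree (ζ₄ : G → ℂ) % 4 = 3 := by omega
  have hm3 : (ε = 1 → Cfsg.charDegree (ζ₃ : G → ℂ) % 4 = 1) ∧
      (ε = -1 → Cfsg.charDegree (ζ₃ : G → ℂ) % 4 = 3) := by
    constructor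
    · intro h
      rw [h] at hd3
      omega
    · intro h
      rw [h] at hd3
      omega
  have hrel1 : (1 : ℤ) + (Cfsg.charDegree (ζ₂ : G → ℂ) : ℤ) +
      ε * (Cfsg.charDegree (ζ₃ : G → ℂ) : ℤ) = (Cfsg.charDegree (ζ₄ : G → ℂ) : ℤ) := by
    have h := hrel 1 (by rw [orderOf_one]; exact odd_one)
    rw [Cfsg.Agent.Lib.Helper79.irr_one_eq_charDegree ζ₂,
      Cfsg.Agent.Lib.Helper79.irr_one_eq_charDegree ζ₃,
      Cfsg.Agent.Lib.Helper79.irr_one_eq_charDegree ζ₄] at h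
    have h' : (((1 : ℤ) + (Cfsg.charDegree (ζ₂ : G → ℂ) : ℤ) +
      ε * (Cfsg.charDegree (ζ₃ : G → ℂ) : ℤ) : ℤ) : ℂ) =
        (((Cfsg.charDegree (ζ₄ : G → ℂ) : ℤ) : ℤ) : ℂ) := by
      push_cast
      linear_combination h
    exact_mod_cast h'
  have hdvd : ∀ χ : Cfsg.IrrCharacter G, Odd (Cfsg.charDegree (χ : G → ℂ)) →
      Cfsg.charDegree (χ : G → ℂ) ∣ g₀ := by
    intro χ hodd
    have h1 := Cfsg.Agent.Lib.Helper83.irr_degree_dvd_card χ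
    rw [hG] at h1
    have hco : Nat.Coprime (Cfsg.charDegree (χ : G → ℂ)) 4 := by
      have h4 : (4 : ℕ) = 2 ^ 2 := by norm_num
      rw [h4]
      exact Nat.Coprime.pow_right 2 (Nat.Coprime.symm (Nat.coprime_two_left.mpr hodd))
    exact hco.dvd_of_dvd_mul_left h1
  have ho2 : Odd (Cfsg.charDegree (ζ₂ : G → ℂ)) := by
    rw [Nat.odd_iff]; omega
  have ho4 : Odd (Cfsg.charDegree (ζ₄ : G → ℂ)) := by
    rw [Nat.odd_iff]; omega
  have ho3 : Odd (Cfsg.charDegree (ζ₃ : G → ℂ)) := by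
    rw [Nat.odd_iff]
    rcases hε with h | h
    · have := hm3.1 h; omega
    · have := hm3.2 h; omega
  exact ⟨P, J, ζ₂, ζ₃, ζ₄, ε, hJ, hJ2, hε, hnc, hB, ⟨h2ne, h3ne, h4ne, h23, h24, h34⟩,
    ⟨hv2, hv3, hv4⟩, hm2, hm3.1, hm3.2, hm4, hrel1, hdvd ζ₂ ho2, hdvd ζ₃ ho3, hdvd ζ₄ ho4,
    degree_ne_one hna ζ₂ h2ne, degree_ne_one hna ζ₃ h3ne, degree_ne_one hna ζ₄ h4ne⟩

end Cfsg.Agent.Lib.Helper30.S4501.K1
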