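import Mathlib
import Cfsg.Prelude.Def_GeometricClasses
import Cfsg.Agent.Lib.Helper71.SLP0

/-!
# SLC piece C6ab

A finite `r`-group all of whose characteristic abelian subgroups are cyclic and whose
centre has order equal to the exponent of the group has nilpotency class at most two.
-/

set_option autoImplicit false
open Matrix Cfsg.Geo Cfsg.Agent.Lib.Helper71.SLP

namespace Cfsg.Agent.Lib.Helper29.SLCC6ab

variable {n : ℕ} {F : Type*} [Field F] [Fintype F]

open scoped commutatorElement

/-- For `v` in the second centre, conjugation by `g` multiplies `v` by a central element. -/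
theorem c6ab_conj_eq {G : Type*} [Group G] {v : G} (hv : v ∈ Subgroup.upperCentralSeries G 2) (g : G) :
    ∃ z ∈ Subgroup.center G, g * v * g⁻¹ = z * v := by
  have h1 : ⁅v, g⁆ ∈ Subgroup.upperCentralSeries G 1 := (Subgroup.mem_upperCentralSeries_succ_iff).1 hv g
  rw [Subgroup.upperCentralSeries_one, commutatorElement_def] at h1
  refine ⟨(v * g * v⁻¹ * g⁻¹)⁻¹, inv_mem h1, ?_⟩
  group

/-- For `v` in the second centre, conjugating by `x * y` or by `y * x` gives the same. -/
theorem c6ab_conj_comm {G : Type*} [Group G] {v : G} (hv : v ∈ Subgroup.upperCentralSeries G 2)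
    (x y : G) : x * y * v * (x * y)⁻¹ = y * x * v * (y * x)⁻¹ := by
  obtain ⟨zx, hzx, hx⟩ := c6ab_conj_eq hv x
  obtain ⟨zy, hzy, hy⟩ := c6ab_conj_eq hv y
  have hzxc : ∀ g : G, g * zx = zx * g := fun g => (Subgroup.mem_center_iff.1 hzx g)
  have hzyc : ∀ g : G, g * zy = zy * g := fun g => (Subgroup.mem_center_iff.1 hzy g)
  have e1 : x * y * v * (x * y)⁻¹ = zy * (zx * v) := by
    calc x * y * v * (x * y)⁻¹ = x * (y * v * y⁻¹) * x⁻¹ := by group
      _ = x * (zy * v) * x⁻¹ := by rw [hy]
      _ = (x * zy) * v * x⁻¹ := by group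
      _ = zy * (x * v * x⁻¹) := by rw [hzyc x]; group
      _ = zy * (zx * v) := by rw [hx]
  have e2 : y * x * v * (y * x)⁻¹ = zx * (zy * v) := by
    calc y * x * v * (y * x)⁻¹ = y * (x * v * x⁻¹) * y⁻¹ := by group
      _ = y * (zx * v) * y⁻¹ := by rw [hx]
      _ = (y * zx) * v * y⁻¹ := by group
      _ = zx * (y * v * y⁻¹) := by rw [hzxc y]; group
      _ = zx * (zy * v) := by rw [hy]
  rw [e1, e2, ← mul_assoc, ← mul_assoc, hzxc zy]

/-- Every commutator centralises the second centre. -/
theorem c6ab_comm_centralizes {G : Type*} [Group G] (x y : G) :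
    x * y * x⁻¹ * y⁻¹ ∈ Subgroup.centralizer (Subgroup.upperCentralSeries G 2 : Set G) := by
  rw [Subgroup.mem_centralizer_iff]
  intro u hu
  have hu' : u ∈ Subgroup.upperCentralSeries G 2 := hu
  have hnorm : (Subgroup.upperCentralSeries G 2).Normal := inferInstance
  have hv : (y * x)⁻¹ * u * (y * x) ∈ Subgroup.upperCentralSeries G 2 := by
    have := hnorm.conj_mem u hu' (y * x)⁻¹
    simpa using this
  have h := c6ab_conj_comm hv x y
  have h2 : y * x * ((y * x)⁻¹ * u * (y * x)) * (y * x)⁻¹ = u := by group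
  rw [h2] at h
  -- h : x * y * ((y * x)⁻¹ * u * (y * x)) * (x * y)⁻¹ = u
  have h3 : x * y * ((y * x)⁻¹ * u * (y * x)) * (x * y)⁻¹
      = (x * y * x⁻¹ * y⁻¹) * u * (x * y * x⁻¹ * y⁻¹)⁻¹ := by group
  rw [h3] at h
  -- c * u * c⁻¹ = u
  calc u * (x * y * x⁻¹ * y⁻¹)
      = (x * y * x⁻¹ * y⁻¹ * u * (x * y * x⁻¹ * y⁻¹)⁻¹) * (x * y * x⁻¹ * y⁻¹) := by rw [h]
    _ = x * y * x⁻¹ * y⁻¹ * u := by group

theorem C6ab {G : Type*} [Group G] [Finite G] (r : ℕ) (hr : r.Prime) (hG : IsPGroup r G)
    (hcyc : ∀ A : Subgroup G, A.Characteristic → IsMulCommutative A → IsCyclic A)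
    (hexp : Nat.card (Subgroup.center G) = Monoid.exponent G) :
    ∀ x y : G, x * y * x⁻¹ * y⁻¹ ∈ Subgroup.center G := by
  classical
  haveI : Fact r.Prime := ⟨hr⟩
  set Z2 : Subgroup G := Subgroup.upperCentralSeries G 2 with hZ2
  set A : Subgroup G := Z2 ⊓ Subgroup.centralizer (Z2 : Set G) with hA
  have hAchar : A.Characteristic := inferInstance
  have hAcomm : IsMulCommutative A := by
    refine ⟨⟨fun a b => ?_⟩⟩
    apply Subtype.ext
    have ha : (a : G) ∈ Subgroup.centralizer (Z2 : Set G) := (Subgroup.mem_inf.1 a.2).2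
    have hb : (b : G) ∈ Z2 := (Subgroup.mem_inf.1 b.2).1
    have := (Subgroup.mem_centralizer_iff.1 ha) (b : G) hb
    simpa using this.symm
  have hAcyc : IsCyclic A := hcyc A hAchar hAcomm
  have hZA : Subgroup.center G ≤ A := by
    refine le_inf ?_ (Subgroup.center_le_centralizer _)
    rw [← Subgroup.upperCentralSeries_one]
    exact Subgroup.upperCentralSeries_mono G (by norm_num)
  have hcard : Nat.card A ≤ Nat.card (Subgroup.center G) := by
    obtain ⟨g, hg⟩ := hAcyc.exists_generator
    have h1 : orderOf g = Nat.card A := orderOf_eq_card_of_forall_mem_zpowers hg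
    have h2 : orderOf (g : G) = orderOf g := Subgroup.orderOf_coe g
    have h3 : orderOf (g : G) ∣ Monoid.exponent G := Monoid.order_dvd_exponent _
    have h4 : 0 < Monoid.exponent G := Monoid.exponent_pos_of_exists (Nat.card G) Nat.card_pos
      (fun g => by rw [← orderOf_dvd_iff_pow_eq_one]; exact orderOf_dvd_natCard g)
    rw [hexp, ← h1, ← h2]
    exact Nat.le_of_dvd h4 h3
  have hAZ : Subgroup.center G = A := Subgroup.eq_of_le_of_card_ge hZA hcard
  -- Z_3 ≤ Z_2
  have h32 : Subgroup.upperCentralSeries G 3 ≤ Z2 := by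
    intro w hw
    rw [hZ2]
    refine (Subgroup.mem_upperCentralSeries_succ_iff (n := 1)).2 (fun x => ?_)
    rw [Subgroup.upperCentralSeries_one, hAZ, hA]
    refine Subgroup.mem_inf.2 ⟨(Subgroup.mem_upperCentralSeries_succ_iff (n := 2)).1 hw x, ?_⟩
    rw [commutatorElement_def]
    exact c6ab_comm_centralizes w x
  have hall : ∀ k, Subgroup.upperCentralSeries G k ≤ Z2 := by
    intro k
    induction k with
    | zero => rw [Subgroup.upperCentralSeries_zero]; exact bot_le
    | succ k ih =>
      intro w hw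
      apply h32
      refine (Subgroup.mem_upperCentralSeries_succ_iff (n := 2)).2 (fun x => ?_)
      exact ih ((Subgroup.mem_upperCentralSeries_succ_iff (n := k)).1 hw x)
  have hnil : Group.IsNilpotent G := hG.isNilpotent
  obtain ⟨k, hk⟩ := hnil.nilpotent
  have htop : Z2 = ⊤ := top_le_iff.1 (hk ▸ hall k)
  intro x y
  have hx : x ∈ Subgroup.upperCentralSeries G 2 := by rw [← hZ2, htop]; exact Subgroup.mem_top x
  have := (Subgroup.mem_upperCentralSeries_succ_iff (n := 1)).1 hx y
  rw [Subgroup.upperCentralSeries_one, commutatorElement_def] at this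
  exact this

end Cfsg.Agent.Lib.Helper29.SLCC6ab
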