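import Mathlib
import Cfsg.Prelude.Def_GeometricClasses
import Cfsg.Agent.Lib.Helper71.SLP0
import Cfsg.Agent.Lib.Helper83.ASB8BURN

/-!
# SLC piece C6dim

An absolutely irreducible subgroup `R` of `GL (Fin n) F` (with `0 < n`) all of whose
commutators are central satisfies `n ^ 2 * |Z(R)| = |R|`: coset representatives of the
centre form a basis of the matrix algebra.

(The hypothesis `0 < n` is necessary: for `n = 0` the group is trivial and the statement
would read `0 = 1`.)
-/

set_option autoImplicit false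
open Matrix Cfsg.Geo Cfsg.Agent.Lib.Helper71.SLP

namespace Cfsg.Agent.Lib.Helper29.SLCC6dim

variable {n : ℕ} {F : Type*} [Field F] [Fintype F]

/-- The matrix of an element of a subgroup of `GL`. -/
def c6mat (R : Subgroup (GL (Fin n) F)) (r : R) : Matrix (Fin n) (Fin n) F :=
  ((r : GL (Fin n) F) : Matrix (Fin n) (Fin n) F)

theorem c6mat_mul (R : Subgroup (GL (Fin n) F)) (a b : R) :
    c6mat R (a * b) = c6mat R a * c6mat R b := by
  simp [c6mat]

theorem c6mat_one (R : Subgroup (GL (Fin n) F)) : c6mat R 1 = 1 := by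
  simp [c6mat]

theorem c6mat_mul_inv (R : Subgroup (GL (Fin n) F)) (a : R) :
    c6mat R a * c6mat R a⁻¹ = 1 := by
  rw [← c6mat_mul, mul_inv_cancel, c6mat_one]

theorem c6mat_inv_mul (R : Subgroup (GL (Fin n) F)) (a : R) :
    c6mat R a⁻¹ * c6mat R a = 1 := by
  rw [← c6mat_mul, inv_mul_cancel, c6mat_one]

theorem c6mat_injective (R : Subgroup (GL (Fin n) F)) : Function.Injective (c6mat R) := by
  intro a b h
  exact Subtype.ext (Units.ext h)

theorem c6mat_ne_zero (hn : 0 < n) (R : Subgroup (GL (Fin n) F)) (a : R) : c6mat R a ≠ 0 := by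
  intro h
  have h1 := c6mat_mul_inv R a
  rw [h, Matrix.zero_mul] at h1
  have := congrFun (congrFun h1 ⟨0, hn⟩) ⟨0, hn⟩
  simp at this

theorem c6_central_scalar (R : Subgroup (GL (Fin n) F))
    (habs : ActsAbsolutelyIrreducibly (matrixSet R)) (z : R) (hz : z ∈ Subgroup.center R) :
    ∃ c : F, c6mat R z = c • (1 : Matrix (Fin n) (Fin n) F) := by
  apply habs.2
  rintro s ⟨g, hg, rfl⟩
  have h := Subgroup.mem_center_iff.1 hz ⟨g, hg⟩
  have h2 := congrArg (c6mat R) h
  rw [c6mat_mul, c6mat_mul] at h2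
  exact h2.symm

theorem c6_comm_scalar (R : Subgroup (GL (Fin n) F))
    (habs : ActsAbsolutelyIrreducibly (matrixSet R))
    (hab : ∀ x y : R, x * y * x⁻¹ * y⁻¹ ∈ Subgroup.center R) (x q : R) :
    ∃ c : F, c6mat R x * c6mat R q = c • (c6mat R q * c6mat R x) := by
  obtain ⟨c, hc⟩ := c6_central_scalar R habs _ (hab x q)
  refine ⟨c, ?_⟩
  have h : x * q = (x * q * x⁻¹ * q⁻¹) * (q * x) := by group
  calc c6mat R x * c6mat R q = c6mat R (x * q) := (c6mat_mul R x q).symm
    _ = c6mat R ((x * q * x⁻¹ * q⁻¹) * (q * x)) := by rw [← h]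
    _ = c6mat R (x * q * x⁻¹ * q⁻¹) * c6mat R (q * x) := c6mat_mul R _ _
    _ = c • (c6mat R q * c6mat R x) := by
        rw [hc, Matrix.smul_mul, Matrix.one_mul, c6mat_mul]

theorem C6dim (hn : 0 < n) (R : Subgroup (GL (Fin n) F))
    (habs : ActsAbsolutelyIrreducibly (matrixSet R))
    (hab : ∀ x y : R, x * y * x⁻¹ * y⁻¹ ∈ Subgroup.center R) :
    n ^ 2 * Nat.card (Subgroup.center R) = Nat.card R := by
  classical
  choose μ hμ using c6_comm_scalar R habs hab
  have hμ0 : ∀ x q, μ x q ≠ 0 := by
    intro x q h0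
    have h := hμ x q
    rw [h0, zero_smul, ← c6mat_mul] at h
    exact c6mat_ne_zero hn R _ h
  have hconj : ∀ x q : R, c6mat R x * c6mat R q * c6mat R x⁻¹ = μ x q • c6mat R q := by
    intro x q
    rw [hμ x q, Matrix.smul_mul, Matrix.mul_assoc, c6mat_mul_inv, Matrix.mul_one]
  have hinj : ∀ a b : R, (∀ x, μ x a = μ x b) → b⁻¹ * a ∈ Subgroup.center R := by
    intro a b hab'
    rw [Subgroup.mem_center_iff]
    intro x
    apply c6mat_injective R
    rw [c6mat_mul, c6mat_mul, c6mat_mul, c6mat_mul]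
    have hA := hμ x a
    have hB := hμ x b
    rw [← hab' x] at hB
    have hB' : c6mat R b⁻¹ * c6mat R x = μ x a • (c6mat R x * c6mat R b⁻¹) := by
      calc c6mat R b⁻¹ * c6mat R x
          = c6mat R b⁻¹ * c6mat R x * (c6mat R b * c6mat R b⁻¹) := by
            rw [c6mat_mul_inv, Matrix.mul_one]
        _ = c6mat R b⁻¹ * (c6mat R x * c6mat R b) * c6mat R b⁻¹ := by
            simp only [Matrix.mul_assoc]
        _ = μ x a • (c6mat R b⁻¹ * c6mat R b * c6mat R x * c6mat R b⁻¹) := by
            rw [hB]; simp only [Matrix.mul_smul, Matrix.smul_mul, Matrix.mul_assoc]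
        _ = μ x a • (c6mat R x * c6mat R b⁻¹) := by
            rw [c6mat_inv_mul, Matrix.one_mul]
    apply smul_right_injective _ (hμ0 x a)
    show μ x a • (c6mat R x * (c6mat R b⁻¹ * c6mat R a))
      = μ x a • (c6mat R b⁻¹ * c6mat R a * c6mat R x)
    calc μ x a • (c6mat R x * (c6mat R b⁻¹ * c6mat R a))
        = (μ x a • (c6mat R x * c6mat R b⁻¹)) * c6mat R a := by
          rw [Matrix.smul_mul, Matrix.mul_assoc]
      _ = c6mat R b⁻¹ * (c6mat R x * c6mat R a) := by rw [← hB', Matrix.mul_assoc]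
      _ = μ x a • (c6mat R b⁻¹ * c6mat R a * c6mat R x) := by
          rw [hA, Matrix.mul_smul, Matrix.mul_assoc]
  -- linear independence of the coset representatives
  have hli' : ∀ s : Finset (↥R ⧸ Subgroup.center ↥R), ∀ c : (↥R ⧸ Subgroup.center ↥R) → F,
      ∑ q ∈ s, c q • c6mat R q.out = 0 → ∀ q ∈ s, c q = 0 := by
    intro s
    induction s using Finset.induction_on with
    | empty => intro c _ i hi; simp at hi
    | insert q₀ s' hq₀ ih =>
      intro c hrel
      have hkey : ∀ x : R, ∀ q ∈ s', c q * (μ x q.out - μ x q₀.out) = 0 := by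
        intro x
        have h1 : ∑ q ∈ insert q₀ s', (c q * μ x q.out) • c6mat R q.out = 0 := by
          have h0 : c6mat R x * (∑ q ∈ insert q₀ s', c q • c6mat R q.out) * c6mat R x⁻¹
              = 0 := by
            rw [hrel, Matrix.mul_zero, Matrix.zero_mul]
          rw [Finset.mul_sum, Finset.sum_mul] at h0
          rw [← h0]
          refine Finset.sum_congr rfl (fun q _ => ?_)
          rw [Matrix.mul_smul, Matrix.smul_mul, hconj x q.out, smul_smul]
        have h2 : ∑ q ∈ insert q₀ s', (c q * μ x q₀.out) • c6mat R q.out = 0 := by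
          have h20 : ∀ q : ↥R ⧸ Subgroup.center ↥R, (c q * μ x q₀.out) • c6mat R q.out
              = μ x q₀.out • (c q • c6mat R q.out) := by
            intro q; rw [smul_smul, mul_comm]
          simp_rw [h20]
          rw [← Finset.smul_sum, hrel, smul_zero]
        have h3 : ∑ q ∈ insert q₀ s', (c q * (μ x q.out - μ x q₀.out)) • c6mat R q.out
            = 0 := by
          have h30 : ∀ q : ↥R ⧸ Subgroup.center ↥R,
              (c q * (μ x q.out - μ x q₀.out)) • c6mat R q.out
              = (c q * μ x q.out) • c6mat R q.out - (c q * μ x q₀.out) • c6mat R q.out := by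
            intro q; rw [mul_sub, sub_smul]
          simp_rw [h30]
          rw [Finset.sum_sub_distrib, h1, h2, sub_zero]
        rw [Finset.sum_insert hq₀, sub_self, mul_zero, zero_smul, zero_add] at h3
        exact ih _ h3
      have hs' : ∀ q ∈ s', c q = 0 := by
        intro q hq
        by_contra hne
        have hall : ∀ x, μ x q.out = μ x q₀.out := by
          intro x
          have := hkey x q hq
          rcases mul_eq_zero.1 this with h | h
          · exact absurd h hne
          · exact sub_eq_zero.1 h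
        have hmem := hinj q.out q₀.out hall
        have hqq : q₀ = q := by
          rw [← QuotientGroup.out_eq' q₀, ← QuotientGroup.out_eq' q]
          exact QuotientGroup.eq.2 hmem
        exact hq₀ (hqq ▸ hq)
      intro i hi
      rcases Finset.mem_insert.1 hi with hi' | hi'
      · rw [Finset.sum_insert hq₀,
          Finset.sum_eq_zero (fun q hq => by rw [hs' q hq, zero_smul]), add_zero] at hrel
        rw [hi']
        rcases smul_eq_zero.1 hrel with h | h
        · exact h
        · exact absurd h (c6mat_ne_zero hn R _)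
      · exact hs' i hi'
  have hli : LinearIndependent F (fun q : ↥R ⧸ Subgroup.center ↥R => c6mat R q.out) :=
    linearIndependent_iff'.2 hli'
  -- spanning
  have hsp : ⊤ ≤ Submodule.span F
      (Set.range (fun q : ↥R ⧸ Subgroup.center ↥R => c6mat R q.out)) := by
    rw [← Cfsg.Agent.Lib.Helper83.ASB8BURN.burnside R habs]
    apply Submodule.span_le.2
    rintro s ⟨g, hg, rfl⟩
    obtain ⟨o, ho⟩ : ∃ o : R, o = (QuotientGroup.mk (⟨g, hg⟩ : R) : ↥R ⧸ Subgroup.center ↥R).out :=
      ⟨_, rfl⟩
    have hmem : o⁻¹ * (⟨g, hg⟩ : R) ∈ Subgroup.center ↥R := by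
      apply QuotientGroup.eq.1
      rw [ho]
      exact QuotientGroup.out_eq' _
    obtain ⟨c, hc⟩ := c6_central_scalar R habs _ hmem
    have hr2 : c6mat R (⟨g, hg⟩ : R) = c • c6mat R o := by
      calc c6mat R (⟨g, hg⟩ : R) = c6mat R (o * (o⁻¹ * (⟨g, hg⟩ : R))) := by
            rw [mul_inv_cancel_left]
        _ = c6mat R o * c6mat R (o⁻¹ * (⟨g, hg⟩ : R)) := c6mat_mul R _ _
        _ = c • c6mat R o := by rw [hc, Matrix.mul_smul, Matrix.mul_one]
    show c6mat R (⟨g, hg⟩ : R) ∈ _
    rw [hr2, ho]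
    exact Submodule.smul_mem _ _ (Submodule.subset_span ⟨_, rfl⟩)
  have hcardQ : Nat.card (↥R ⧸ Subgroup.center ↥R) = n * n := by
    have h1 := Module.finrank_eq_nat_card_basis (Module.Basis.mk hli hsp)
    rw [← h1, Module.finrank_matrix]
    simp
  rw [Subgroup.card_eq_card_quotient_mul_card_subgroup (Subgroup.center ↥R), hcardQ, sq]

end Cfsg.Agent.Lib.Helper29.SLCC6dim
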