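import Mathlib
import Cfsg.Prelude.Def_GeometricClasses
import Cfsg.Agent.Lib.Helper71.SLP0

/-! Maximal subgroups of `SL_n(F)` (S5793, S5808, S5853), piece FR4: over the field with four
elements a monomial group preserves the hermitian form `∑ xᵢ x̄ᵢ` (in suitable coordinates). -/

set_option autoImplicit false

namespace Cfsg.Agent.Lib.Helper29.SLPFR4

open Matrix Cfsg.Geo Cfsg.Agent.Lib.Helper71.SLP

variable {n : ℕ} {F : Type*} [Field F] [Fintype F]

theorem pow_four (hq : Fintype.card F = 4) (x : F) : x ^ 4 = x := by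
  have h := FiniteField.pow_card x
  rwa [hq] at h

theorem two_eq_zero (hq : Fintype.card F = 4) : (2 : F) = 0 := by
  have h := Nat.cast_card_eq_zero F
  rw [hq] at h
  have h' : (2 : F) * 2 = 0 := by
    have e : ((4 : ℕ) : F) = 2 * 2 := by norm_num
    rw [← e]
    exact h
  exact mul_self_eq_zero.mp h'

theorem pow_three (hq : Fintype.card F = 4) {c : F} (hc : c ≠ 0) : c ^ 3 = 1 := by
  have h := pow_four hq c
  have h' : c * c ^ 3 = c * 1 := by
    rw [mul_one, ← pow_succ', h]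
  exact mul_left_cancel₀ hc h'

/-- the Frobenius automorphism of the field with four elements -/
def frob4 (hq : Fintype.card F = 4) : F ≃+* F where
  toFun x := x ^ 2
  invFun x := x ^ 2
  left_inv x := by
    show (x ^ 2) ^ 2 = x
    rw [← pow_mul]
    exact pow_four hq x
  right_inv x := by
    show (x ^ 2) ^ 2 = x
    rw [← pow_mul]
    exact pow_four hq x
  map_mul' x y := mul_pow x y 2
  map_add' x y := by
    have e : (x + y) ^ 2 = x ^ 2 + y ^ 2 + 2 * (x * y) := by ring
    rw [e, two_eq_zero hq, zero_mul, add_zero]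

theorem frob4_apply (hq : Fintype.card F = 4) (x : F) : frob4 hq x = x ^ 2 := rfl

theorem frob4_ne_refl (hq : Fintype.card F = 4) : frob4 hq ≠ RingEquiv.refl F := by
  classical
  intro h
  have hx : ∀ x : F, x = 0 ∨ x = 1 := by
    intro x
    have h1 : frob4 hq x = x := by rw [h]; rfl
    rw [frob4_apply] at h1
    have h2 : x * (x - 1) = 0 := by
      have e : x * (x - 1) = x ^ 2 - x := by ring
      rw [e, h1, sub_self]
    rcases mul_eq_zero.mp h2 with h3 | h3
    · exact Or.inl h3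
    · exact Or.inr (sub_eq_zero.mp h3)
  have hsub : (Finset.univ : Finset F) ⊆ {0, 1} := by
    intro x _
    rcases hx x with h1 | h1
    · rw [h1]; simp
    · rw [h1]; simp
  have hcard := Finset.card_le_card hsub
  rw [Finset.card_univ, hq] at hcard
  have h2 : ({0, 1} : Finset F).card ≤ 2 := Finset.card_le_two
  omega

omit [Fintype F] in
theorem mono_mulVec (σ : Equiv.Perm (Fin n)) (c y : Fin n → F) (i : Fin n) :
    ((Matrix.of fun i j => if i = σ j then c j else 0 : Matrix (Fin n) (Fin n) F) *ᵥ y) i =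
      c (σ.symm i) * y (σ.symm i) := by
  rw [Matrix.mulVec, dotProduct, Finset.sum_eq_single (σ.symm i)]
  · simp
  · intro j _ hj
    have hne : i ≠ σ j := by
      intro h
      apply hj
      rw [h]
      simp
    simp [hne]
  · intro h
    exact absurd (Finset.mem_univ _) h

/-- FR4 -/
theorem FR4 (hq : Fintype.card F = 4) (P : GL (Fin n) F) (G : Subgroup (GL (Fin n) F))
    (hG : ∀ g ∈ G, ∃ (σ : Equiv.Perm (Fin n)) (c : Fin n → F), (∀ j, c j ≠ 0) ∧
      (P⁻¹ : GL (Fin n) F).1 * g.1 * P.1 = Matrix.of fun i j => if i = σ j then c j else 0) :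
    ∃ (σ : F ≃+* F) (f : (Fin n → F) → (Fin n → F) → F), IsUnitaryForm σ f ∧
      G ≤ similarityGroup f := by
  classical
  have hPP : (P⁻¹ : GL (Fin n) F).1 * P.1 = 1 := by
    rw [← Units.val_mul, inv_mul_cancel, Units.val_one]
  have hPP' : P.1 * (P⁻¹ : GL (Fin n) F).1 = 1 := by
    rw [← Units.val_mul, mul_inv_cancel, Units.val_one]
  have hτinv : ∀ a : F, frob4 hq (frob4 hq a) = a := by
    intro a
    rw [frob4_apply, frob4_apply, ← pow_mul]
    exact pow_four hq a
  refine ⟨frob4 hq, fun u v => ∑ i, ((P⁻¹ : GL (Fin n) F).1 *ᵥ u) i *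
    frob4 hq (((P⁻¹ : GL (Fin n) F).1 *ᵥ v) i), ?_, ?_⟩
  · refine
      { ne_refl := frob4_ne_refl hq
        involutive := hτinv
        add_left := ?_
        smul_left := ?_
        herm := ?_
        nondegenerate := ?_ }
    · intro x y v
      show ∑ i, ((P⁻¹ : GL (Fin n) F).1 *ᵥ (x + y)) i * _ = _
      rw [Matrix.mulVec_add, ← Finset.sum_add_distrib]
      apply Finset.sum_congr rfl
      intro i _
      rw [Pi.add_apply, add_mul]
    · intro c x v
      show ∑ i, ((P⁻¹ : GL (Fin n) F).1 *ᵥ (c • x)) i * _ = _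
      rw [Matrix.mulVec_smul, Finset.mul_sum]
      apply Finset.sum_congr rfl
      intro i _
      rw [Pi.smul_apply, smul_eq_mul, mul_assoc]
    · intro v w
      show ∑ i, _ = frob4 hq (∑ i, _)
      rw [map_sum]
      apply Finset.sum_congr rfl
      intro i _
      rw [map_mul, hτinv, mul_comm]
    · intro v hv
      have hy : (P⁻¹ : GL (Fin n) F).1 *ᵥ v ≠ 0 := by
        intro h
        apply hv
        have e : v = P.1 *ᵥ ((P⁻¹ : GL (Fin n) F).1 *ᵥ v) := by
          rw [Matrix.mulVec_mulVec, hPP', Matrix.one_mulVec]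
        rw [e, h, Matrix.mulVec_zero]
      obtain ⟨i, hi⟩ : ∃ i, ((P⁻¹ : GL (Fin n) F).1 *ᵥ v) i ≠ 0 := by
        by_contra hcon
        push Not at hcon
        exact hy (funext hcon)
      have hx : (P⁻¹ : GL (Fin n) F).1 *ᵥ (P.1 *ᵥ (Pi.single i (1 : F))) = Pi.single i 1 := by
        rw [Matrix.mulVec_mulVec, hPP, Matrix.one_mulVec]
      constructor
      · refine ⟨P.1 *ᵥ (Pi.single i (1 : F)), ?_⟩
        show ∑ j, ((P⁻¹ : GL (Fin n) F).1 *ᵥ (P.1 *ᵥ (Pi.single i (1 : F)))) j * _ ≠ 0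
        rw [hx, Finset.sum_eq_single i]
        · rw [Pi.single_eq_same, one_mul, frob4_apply]
          exact pow_ne_zero 2 hi
        · intro j _ hj
          rw [Pi.single_eq_of_ne hj, zero_mul]
        · intro h
          exact absurd (Finset.mem_univ _) h
      · refine ⟨P.1 *ᵥ (Pi.single i (1 : F)), ?_⟩
        show ∑ j, _ * frob4 hq (((P⁻¹ : GL (Fin n) F).1 *ᵥ (P.1 *ᵥ (Pi.single i (1 : F)))) j) ≠ 0
        rw [hx, Finset.sum_eq_single i]
        · rw [Pi.single_eq_same, map_one, mul_one]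
          exact hi
        · intro j _ hj
          rw [Pi.single_eq_of_ne hj, map_zero, mul_zero]
        · intro h
          exact absurd (Finset.mem_univ _) h
  · intro g hg
    obtain ⟨σ, c, hc, hM⟩ := hG g hg
    refine ⟨1, fun u v => ?_⟩
    have key : ∀ w : Fin n → F, (P⁻¹ : GL (Fin n) F).1 *ᵥ (g.1 *ᵥ w) =
        (Matrix.of fun i j => if i = σ j then c j else 0 : Matrix (Fin n) (Fin n) F) *ᵥ
          ((P⁻¹ : GL (Fin n) F).1 *ᵥ w) := by
      intro w
      rw [← hM, Matrix.mulVec_mulVec, Matrix.mulVec_mulVec, Matrix.mul_assoc,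
        Matrix.mul_assoc, hPP', Matrix.mul_one]
    show ∑ i, ((P⁻¹ : GL (Fin n) F).1 *ᵥ (g.1 *ᵥ u)) i *
        frob4 hq (((P⁻¹ : GL (Fin n) F).1 *ᵥ (g.1 *ᵥ v)) i) =
      ((1 : Fˣ) : F) * ∑ i, ((P⁻¹ : GL (Fin n) F).1 *ᵥ u) i *
        frob4 hq (((P⁻¹ : GL (Fin n) F).1 *ᵥ v) i)
    rw [key u, key v, Units.val_one, one_mul]
    rw [← Equiv.sum_comp σ.symm (fun j => ((P⁻¹ : GL (Fin n) F).1 *ᵥ u) j *
      frob4 hq (((P⁻¹ : GL (Fin n) F).1 *ᵥ v) j))]
    apply Finset.sum_congr rfl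
    intro i _
    rw [mono_mulVec, mono_mulVec, map_mul, frob4_apply (x := c (σ.symm i))]
    have h3 := pow_three hq (hc (σ.symm i))
    have e : c (σ.symm i) * ((P⁻¹ : GL (Fin n) F).1 *ᵥ u) (σ.symm i) *
        (c (σ.symm i) ^ 2 * frob4 hq (((P⁻¹ : GL (Fin n) F).1 *ᵥ v) (σ.symm i))) =
        c (σ.symm i) ^ 3 * (((P⁻¹ : GL (Fin n) F).1 *ᵥ u) (σ.symm i) *
          frob4 hq (((P⁻¹ : GL (Fin n) F).1 *ᵥ v) (σ.symm i))) := by ring
    rw [e, h3, one_mul]

end Cfsg.Agent.Lib.Helper29.SLPFR4
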