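import Mathlib
import Cfsg.Prelude.Def_GeometricClasses
import Cfsg.Prelude.Def_LieClassical
import Cfsg.Agent.Lib.Helper28.OMPO1a

/-!
# Project SP12 (helper71, S5868), piece HALF

A group of isometries of a symplectic form stabilising a non-degenerate subspace `W` of half the
dimension stabilises the non-degenerate decomposition `W ⊕ W^⊥`.
-/

set_option autoImplicit false

namespace Cfsg.Agent.Lib.Helper29.SP12HALF

open Matrix Cfsg.Geo
open scoped Kronecker

variable {n : ℕ} {F : Type*} [Field F] [Fintype F]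

omit [Fintype F] in
/-- an invariant subspace is mapped onto itself -/
theorem half_map_eq (H : Subgroup (GL (Fin n) F)) (U : Submodule F (Fin n → F))
    (hU : ∀ g ∈ H, ∀ v ∈ U, (g : Matrix (Fin n) (Fin n) F) *ᵥ v ∈ U) (g : GL (Fin n) F)
    (hg : g ∈ H) : U.map (Matrix.toLin' (g : Matrix (Fin n) (Fin n) F)) = U := by
  ext v
  rw [Submodule.mem_map]
  constructor
  · rintro ⟨y, hy, rfl⟩
    rw [Matrix.toLin'_apply]
    exact hU g hg y hy
  · intro hv
    refine ⟨((g⁻¹ : GL (Fin n) F) : Matrix (Fin n) (Fin n) F) *ᵥ v,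
      hU g⁻¹ (H.inv_mem hg) v hv, ?_⟩
    rw [Matrix.toLin'_apply, Matrix.mulVec_mulVec, ← Units.val_mul, mul_inv_cancel,
      Units.val_one, Matrix.one_mulVec]

/-- HALF: a group of isometries stabilising a non-degenerate subspace `W` of half the dimension
stabilises the non-degenerate decomposition `W ⊕ W^⊥`. -/
theorem HALF (f : (Fin n → F) → (Fin n → F) → F) (hf : IsSymplecticForm f)
    (H : Subgroup (GL (Fin n) F)) (hfix : FixesForm (matrixSet H) f)
    (W : Submodule F (Fin n → F)) (m : ℕ) (hm : 0 < m) (hn : n = 2 * m)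
    (hdim : Module.finrank F W = m) (hnd : IsNondegenerateOn f W)
    (hle : H ≤ subspaceStabilizer W) :
    ∃ D : Fin 2 → Submodule F (Fin n → F), IsNondegenerateMDecomposition f m D ∧
      H ≤ decompositionStabilizer D := by
  classical
  have hb := hf.bilinear
  have hb0 : ∀ w, f w 0 = 0 := by
    intro w
    have h3 := hb.smul_right 0 w 0
    rwa [zero_smul, zero_mul] at h3
  obtain ⟨Wp, hWp⟩ : ∃ Wp : Submodule F (Fin n → F),
      ∀ v, v ∈ Wp ↔ ∀ w ∈ W, f w v = 0 :=
    ⟨{ carrier := {v | ∀ w ∈ W, f w v = 0}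
       add_mem' := by
         intro a c ha hc w hw
         rw [hb.add_right, ha w hw, hc w hw, add_zero]
       zero_mem' := fun w _ => hb0 w
       smul_mem' := by
         intro c x hx w hw
         rw [hb.smul_right, hx w hw, mul_zero] }, fun v => Iff.rfl⟩
  -- stability
  have hgW : ∀ g ∈ H, ∀ v ∈ W, (g : Matrix (Fin n) (Fin n) F) *ᵥ v ∈ W := by
    intro g hg v hv
    have h : ∀ v, v ∈ W ↔ (g : Matrix (Fin n) (Fin n) F) *ᵥ v ∈ W := hle hg
    exact (h v).1 hv
  have hgWp : ∀ g ∈ H, ∀ v ∈ Wp, (g : Matrix (Fin n) (Fin n) F) *ᵥ v ∈ Wp := by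
    intro g hg v hv
    rw [hWp]
    intro w hw
    have h1 : ((g⁻¹ : GL (Fin n) F) : Matrix (Fin n) (Fin n) F) *ᵥ w ∈ W :=
      hgW g⁻¹ (H.inv_mem hg) w hw
    have h2 : (g : Matrix (Fin n) (Fin n) F) *ᵥ
        (((g⁻¹ : GL (Fin n) F) : Matrix (Fin n) (Fin n) F) *ᵥ w) = w := by
      rw [Matrix.mulVec_mulVec, ← Units.val_mul, mul_inv_cancel, Units.val_one,
        Matrix.one_mulVec]
    have h3 := hfix (g : Matrix (Fin n) (Fin n) F) ⟨g, hg, rfl⟩
      (((g⁻¹ : GL (Fin n) F) : Matrix (Fin n) (Fin n) F) *ᵥ w) v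
    rw [h2] at h3
    rw [h3]
    exact (hWp v).1 hv _ h1
  -- `W ⊓ W^⊥ = ⊥`
  have hR : W ⊓ Wp = ⊥ := by
    rw [eq_bot_iff]
    intro w hw
    rw [Submodule.mem_bot]
    by_contra hw0
    obtain ⟨⟨x, hx, hxw⟩, -⟩ := hnd w hw.1 hw0
    exact hxw ((hWp w).1 hw.2 x hx)
  have hdimp := Cfsg.Agent.Lib.Helper28.OMPO1a.O1a_finrank_perp f hb W Wp hWp
  have hsup := Submodule.finrank_sup_add_finrank_inf_eq W Wp
  rw [hR, finrank_bot, add_zero] at hsup
  have hlen : Module.finrank F ↥(W ⊔ Wp) ≤ n := by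
    have h3 := Submodule.finrank_le (W ⊔ Wp)
    rwa [Module.finrank_fin_fun] at h3
  have htop : W ⊔ Wp = ⊤ := by
    apply Submodule.eq_top_of_finrank_eq
    rw [Module.finrank_fin_fun]
    omega
  have hWpdim : Module.finrank F Wp = m := by omega
  have hWpnd : IsNondegenerateOn f Wp := by
    intro v hv hv0
    obtain ⟨⟨y, hy⟩, -⟩ := hf.nondegenerate v hv0
    have hymem : y ∈ W ⊔ Wp := by
      rw [htop]
      exact Submodule.mem_top
    obtain ⟨w, hw, x, hx, rfl⟩ := Submodule.mem_sup.1 hymem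
    rw [hb.add_left, (hWp v).1 hv w hw, zero_add] at hy
    exact ⟨⟨x, hx, hy⟩, ⟨x, hx, by rw [hf.skew]; exact neg_ne_zero.mpr hy⟩⟩
  refine ⟨![W, Wp], ⟨⟨le_refl 2, hm, ?_, ?_, ?_⟩, ?_, ?_⟩, ?_⟩
  · intro i
    fin_cases i
    · exact hdim
    · exact hWpdim
  · rw [iSupIndep_pair (i := (0 : Fin 2)) (j := (1 : Fin 2)) (by decide)
      (by intro k; fin_cases k <;> simp)]
    exact disjoint_iff.mpr hR
  · apply le_antisymm le_top
    rw [← htop]
    exact sup_le (le_iSup ![W, Wp] 0) (le_iSup ![W, Wp] 1)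
  · intro i
    fin_cases i
    · exact hnd
    · exact hWpnd
  · intro i j hij
    fin_cases i <;> fin_cases j
    · exact absurd rfl hij
    · intro u hu v hv
      exact (hWp v).1 hv u hu
    · intro u hu v hv
      rw [hf.skew]
      rw [(hWp u).1 hu v hv, neg_zero]
    · exact absurd rfl hij
  · intro g hg
    refine ⟨1, fun i => ?_⟩
    fin_cases i
    · exact half_map_eq H W hgW g hg
    · exact half_map_eq H Wp hgWp g hg

end Cfsg.Agent.Lib.Helper29.SP12HALF
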