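import Mathlib
import Cfsg.Agent.Lib.Helper52.SP8EBDefs

/-!
# SP8-EB (S5823, architect helper52), piece ABS1 (helper29)

The span of the matrices of `R` contains every transported one-factor matrix.
-/

set_option autoImplicit false

namespace Cfsg.Agent.Lib.Helper52.SP8EB

open Matrix Cfsg.Geo Cfsg.Agent.Lib.Helper71.Asch

variable {n : ℕ} {F : Type*} [Field F] [Fintype F]

/-- ABS1. -/
theorem ABS1 (e : Fin n ≃ (Fin 3 → Fin 2)) (P : GL (Fin n) F) (hsp : HQspan F) (hinv : HQinv F)
    (hg : HGlof e P) : HSpanIota e P (matrixSet (Rsub e P)) := by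
  intro i A
  obtain ⟨c, q, hq, hA⟩ := hsp A
  rw [hA, iota_sum, tw_sum]
  refine Submodule.sum_mem _ (fun t _ => ?_)
  rw [iota_smul, tw_smul]
  refine Submodule.smul_mem _ _ (Submodule.subset_span ?_)
  obtain ⟨y, -, hy, -⟩ := hinv (q t) (hq t)
  have hone : IsQ (1 : Matrix (Fin 2) (Fin 2) F) := ⟨Matrix.det_one, Or.inl rfl⟩
  obtain ⟨g, hg1, -⟩ := hg (Function.update (fun _ => (1 : Matrix (Fin 2) (Fin 2) F)) i (q t))
    (Function.update (fun _ => (1 : Matrix (Fin 2) (Fin 2) F)) i y) (by
      intro j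
      by_cases hj : j = i
      · subst hj; rw [Function.update_self, Function.update_self]; exact hy
      · rw [Function.update_of_ne hj, Function.update_of_ne hj]; exact mul_one 1)
  refine ⟨g, Subgroup.subset_closure ⟨_, ?_, hg1⟩, ?_⟩
  · intro j
    by_cases hj : j = i
    · subst hj; rw [Function.update_self]; exact hq t
    · rw [Function.update_of_ne hj]; exact hone
  · show g.1 = _
    rw [hg1, iota_eq_pt]

end Cfsg.Agent.Lib.Helper52.SP8EB
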