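import Mathlib
import Cfsg.Agent.Lib.Helper52.SP8EBDefs

/-!
# SP8-EB (S5823, architect helper52), piece NSCAL (helper29)

`R = Q8 ∘ Q8 ∘ Q8` is not contained in the scalars.
-/

set_option autoImplicit false

namespace Cfsg.Agent.Lib.Helper52.SP8EB

open Matrix Cfsg.Geo Cfsg.Agent.Lib.Helper71.Asch

variable {n : ℕ} {F : Type*} [Field F] [Fintype F]

/-- NSCAL. -/
theorem NSCAL (e : Fin n ≃ (Fin 3 → Fin 2)) (P : GL (Fin n) F) (hg : HGlof e P) :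
    ¬ Rsub e P ≤ scalars (Fin n) F := by
  intro hle
  have hcd : ∀ i, (![!![0, 1; -1, 0], 1, 1] : Fin 3 → Matrix (Fin 2) (Fin 2) F) i *
      (![-!![0, 1; -1, 0], 1, 1] : Fin 3 → Matrix (Fin 2) (Fin 2) F) i = 1 := by
    intro i
    fin_cases i
    · show (!![0, 1; -1, 0] : Matrix (Fin 2) (Fin 2) F) * -!![0, 1; -1, 0] = 1
      ext a b
      fin_cases a <;> fin_cases b <;> simp [Matrix.mul_apply, Fin.sum_univ_two]
    · show (1 : Matrix (Fin 2) (Fin 2) F) * 1 = 1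
      exact mul_one 1
    · show (1 : Matrix (Fin 2) (Fin 2) F) * 1 = 1
      exact mul_one 1
  obtain ⟨x, hx, -⟩ := hg _ _ hcd
  have hQ : ∀ i, IsQ ((![!![0, 1; -1, 0], 1, 1] : Fin 3 → Matrix (Fin 2) (Fin 2) F) i) := by
    intro i
    fin_cases i
    · show IsQ (!![0, 1; -1, 0] : Matrix (Fin 2) (Fin 2) F)
      refine ⟨?_, Or.inr (Or.inr ?_)⟩
      · rw [Matrix.det_fin_two_of]; ring
      · rw [Matrix.trace_fin_two_of]; ring
    · show IsQ (1 : Matrix (Fin 2) (Fin 2) F)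
      exact ⟨Matrix.det_one, Or.inl rfl⟩
    · show IsQ (1 : Matrix (Fin 2) (Fin 2) F)
      exact ⟨Matrix.det_one, Or.inl rfl⟩
  have hxR : x ∈ Rsub e P := Subgroup.subset_closure ⟨_, hQ, hx⟩
  obtain ⟨c, hc⟩ := (mem_scalars_iff x).mp (hle hxR)
  have h1 : tw e P (pt (![!![0, 1; -1, 0], 1, 1] : Fin 3 → Matrix (Fin 2) (Fin 2) F)) =
      tw e P ((c : F) • (1 : Matrix (Fin 3 → Fin 2) (Fin 3 → Fin 2) F)) := by
    rw [tw_smul, tw_one, ← hx, hc]
  have h2 := tw_injective e P h1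
  have h3 := congrFun (congrFun h2 (fun _ => 0)) (fun _ => 0)
  rw [pt_apply, Fin.prod_univ_three] at h3
  have e0 : (![!![0, 1; -1, 0], 1, 1] : Fin 3 → Matrix (Fin 2) (Fin 2) F) 0 0 0 = 0 := rfl
  have h4 : ((c : F) • (1 : Matrix (Fin 3 → Fin 2) (Fin 3 → Fin 2) F)) (fun _ => 0) (fun _ => 0)
      = (c : F) := by
    rw [Matrix.smul_apply, Matrix.one_apply_eq, smul_eq_mul, mul_one]
  rw [h4] at h3
  have h5 : (c : F) = 0 := by
    rw [← h3]
    show (![!![0, 1; -1, 0], 1, 1] : Fin 3 → Matrix (Fin 2) (Fin 2) F) 0 0 0 * _ * _ = 0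
    rw [e0, zero_mul, zero_mul]
  exact c.ne_zero h5

end Cfsg.Agent.Lib.Helper52.SP8EB
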