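import Mathlib
import Cfsg.Prelude.Def_GeometricClasses
import Cfsg.Prelude.Def_LieClassical
import Cfsg.Agent.Lib.Helper71.Asch0
import Cfsg.Agent.Lib.Helper29.SPPTens
import Cfsg.Agent.Lib.Helper60.OqDIAGFORM

/-!
# Project SPP (helper71), piece T33 (helper29)

Over the field with three elements a group of isometries inside `Sp_2 ⊗ O_3` stabilises a
non-degenerate decomposition into three planes: the symmetric form on `F_3^3` has, for one sign
`ε`, exactly six vectors of norm `ε`, forming an orthogonal frame up to sign.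
-/

set_option autoImplicit false

namespace Cfsg.Agent.Lib.Helper29.SPPT33

open Matrix Cfsg.Geo Cfsg.Agent.Lib.Helper71.Asch
open Cfsg.Agent.Lib.Helper29.SPPTens
open scoped Kronecker

/-- the frame of a diagonal ternary form over `ZMod 3` -/
theorem t33_zmod_frame : ∀ a : Fin 3 → ZMod 3, (∀ i, a i ≠ 0) →
    ∃ (ε : ZMod 3) (c : Fin 3 → Fin 3 → ZMod 3), ε ≠ 0 ∧
      (∀ s t : Fin 3, a 0 * (c s 0 * c t 0) + a 1 * (c s 1 * c t 1) + a 2 * (c s 2 * c t 2) =
        if s = t then ε else 0) ∧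
      (∀ i j : Fin 3, c 0 i * c 0 j * a j + c 1 i * c 1 j * a j + c 2 i * c 2 j * a j =
        if i = j then ε else 0) ∧
      (∀ y0 y1 y2 : ZMod 3, a 0 * (y0 * y0) + a 1 * (y1 * y1) + a 2 * (y2 * y2) = ε →
        ∃ s : Fin 3, (y0 = c s 0 ∧ y1 = c s 1 ∧ y2 = c s 2) ∨
          (y0 = - c s 0 ∧ y1 = - c s 1 ∧ y2 = - c s 2)) := by
  intro a ha
  have hz : ∀ z : ZMod 3, z ≠ 0 → z = 1 ∨ z = 2 := by decide
  have h0 := hz _ (ha 0)
  have h1 := hz _ (ha 1)
  have h2 := hz _ (ha 2)
  have hav : a = ![a 0, a 1, a 2] := by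
    funext i
    fin_cases i <;> rfl
  rcases h0 with h0 | h0 <;> rcases h1 with h1 | h1 <;> rcases h2 with h2 | h2 <;>
    rw [hav, h0, h1, h2]
  · exact ⟨1, ![![1, 0, 0], ![0, 1, 0], ![0, 0, 1]], by decide, by decide, by decide, by decide⟩
  · exact ⟨2, ![![0, 0, 1], ![1, 1, 0], ![1, 2, 0]], by decide, by decide, by decide, by decide⟩
  · exact ⟨2, ![![0, 1, 0], ![1, 0, 1], ![1, 0, 2]], by decide, by decide, by decide, by decide⟩
  · exact ⟨1, ![![1, 0, 0], ![0, 1, 1], ![0, 1, 2]], by decide, by decide, by decide, by decide⟩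
  · exact ⟨2, ![![1, 0, 0], ![0, 1, 1], ![0, 1, 2]], by decide, by decide, by decide, by decide⟩
  · exact ⟨1, ![![0, 1, 0], ![1, 0, 1], ![1, 0, 2]], by decide, by decide, by decide, by decide⟩
  · exact ⟨1, ![![0, 0, 1], ![1, 1, 0], ![1, 2, 0]], by decide, by decide, by decide, by decide⟩
  · exact ⟨2, ![![1, 0, 0], ![0, 1, 0], ![0, 0, 1]], by decide, by decide, by decide, by decide⟩

variable {n : ℕ} {F : Type*} [Field F] [Fintype F]

/-- the frame of a diagonal ternary form over a field with three elements -/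
theorem t33_frame (hq : Fintype.card F = 3) (a : Fin 3 → F) (ha : ∀ i, a i ≠ 0) :
    ∃ (ε : F) (c : Fin 3 → Fin 3 → F), ε ≠ 0 ∧
      (∀ s t, ∑ i, a i * (c s i * c t i) = if s = t then ε else 0) ∧
      (∀ i j, ∑ s, c s i * c s j * a j = if i = j then ε else 0) ∧
      (∀ y : Fin 3 → F, ∑ i, a i * (y i * y i) = ε → ∃ s, y = c s ∨ y = -c s) := by
  obtain ⟨φ⟩ : Nonempty (ZMod 3 ≃+* F) := ⟨ZMod.ringEquivOfPrime F Nat.prime_three hq⟩
  obtain ⟨ε', c', hε', hO, hK, hS⟩ := t33_zmod_frame (fun i => φ.symm (a i))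
    (fun i h => ha i (by simpa using h))
  refine ⟨φ ε', fun s i => φ (c' s i), ?_, ?_, ?_, ?_⟩
  · simpa using hε'
  · intro s t
    rw [Fin.sum_univ_three]
    have h1 := congrArg φ (hO s t)
    simp only [map_add, map_mul, RingEquiv.apply_symm_apply] at h1
    rw [h1]
    split_ifs <;> simp
  · intro i j
    rw [Fin.sum_univ_three]
    have h1 := congrArg φ (hK i j)
    simp only [map_add, map_mul, RingEquiv.apply_symm_apply] at h1
    rw [h1]
    split_ifs <;> simp
  · intro y hy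
    rw [Fin.sum_univ_three] at hy
    have h1 := congrArg φ.symm hy
    simp only [map_add, map_mul, RingEquiv.symm_apply_apply] at h1
    obtain ⟨s, hs⟩ := hS (φ.symm (y 0)) (φ.symm (y 1)) (φ.symm (y 2)) h1
    refine ⟨s, ?_⟩
    rcases hs with ⟨e0, e1, e2⟩ | ⟨e0, e1, e2⟩
    · left
      funext i
      fin_cases i
      · simpa using congrArg φ e0
      · simpa using congrArg φ e1
      · simpa using congrArg φ e2
    · right
      funext i
      fin_cases i
      · simpa using congrArg φ e0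
      · simpa using congrArg φ e1
      · simpa using congrArg φ e2

/-- `2 ≠ 0` in a field with three elements -/
theorem t33_two_ne (hq : Fintype.card F = 3) : (2 : F) ≠ 0 := by
  obtain ⟨φ⟩ : Nonempty (ZMod 3 ≃+* F) := ⟨ZMod.ringEquivOfPrime F Nat.prime_three hq⟩
  intro h
  have h1 : φ (2 : ZMod 3) = 0 := by
    rw [map_ofNat]
    exact h
  have h2 : (2 : ZMod 3) = 0 := by simpa using h1
  exact absurd h2 (by decide)

omit [Fintype F] in
/-- a bilinear form is given by its Gram matrix -/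
theorem t33_gram_dot {k : ℕ} (b : (Fin k → F) → (Fin k → F) → F) (hb : IsBilinearForm b)
    (u v : Fin k → F) : b u v = u ⬝ᵥ (gramMatrix b *ᵥ v) := by
  let B : (Fin k → F) →ₗ[F] (Fin k → F) →ₗ[F] F :=
    LinearMap.mk₂ F b hb.add_left hb.smul_left hb.add_right hb.smul_right
  have h1 : gramMatrix b = LinearMap.toMatrix₂' F B := by
    ext i j
    rw [LinearMap.toMatrix₂'_apply]
    rfl
  rw [h1, ← Matrix.toLinearMap₂'_apply', Matrix.toLinearMap₂'_toMatrix']
  rfl

/-- a similarity of a non-degenerate symmetric form on `F_3^3` is an isometry -/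
theorem t33_lam_one (hq : Fintype.card F = 3) (f₂ : (Fin 3 → F) → (Fin 3 → F) → F)
    (h2 : IsSymmetricForm f₂) (b : GL (Fin 3) F) (lam : F) (hlam : lam ≠ 0)
    (hb : ∀ v v' : Fin 3 → F, f₂ (b.1 *ᵥ v) (b.1 *ᵥ v') = lam * f₂ v v') : lam = 1 := by
  classical
  have hG := t33_gram_dot f₂ h2.bilinear
  have hdetG : (gramMatrix f₂).det ≠ 0 := by
    intro h0
    obtain ⟨v, hv, hv0⟩ := Matrix.exists_mulVec_eq_zero_iff.mpr h0
    obtain ⟨x, hx⟩ := (h2.nondegenerate v hv).1
    apply hx
    rw [hG, hv0, dotProduct_zero]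
  have hx2 : ∀ x : F, x ≠ 0 → x * x = 1 := by
    intro x hx
    have h3 := FiniteField.pow_card_sub_one_eq_one x hx
    rw [hq] at h3
    rw [← h3]
    ring
  have hmat : b.1ᵀ * gramMatrix f₂ * b.1 = lam • gramMatrix f₂ := by
    ext i j
    have h3 := hb (Pi.single i 1) (Pi.single j 1)
    rw [hG, hG] at h3
    have h4 : (b.1 *ᵥ Pi.single i 1) ⬝ᵥ (gramMatrix f₂ *ᵥ (b.1 *ᵥ Pi.single j 1)) =
        (Pi.single i 1 : Fin 3 → F) ⬝ᵥ ((b.1ᵀ * gramMatrix f₂ * b.1) *ᵥ Pi.single j 1) := by
      rw [← Matrix.mulVec_mulVec, ← Matrix.mulVec_mulVec,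
        Matrix.dotProduct_mulVec (Pi.single i 1) b.1ᵀ, Matrix.vecMul_transpose]
    rw [h4] at h3
    simpa [Matrix.mulVec_single_one, single_one_dotProduct] using h3
  have hdet := congrArg Matrix.det hmat
  rw [Matrix.det_mul, Matrix.det_mul, Matrix.det_transpose, Matrix.det_smul, Fintype.card_fin]
    at hdet
  have hdb : b.1.det ≠ 0 := by
    have h3 : b.1.det * (b⁻¹ : GL (Fin 3) F).1.det = 1 := by
      rw [← Matrix.det_mul, ← Units.val_mul, mul_inv_cancel, Units.val_one, Matrix.det_one]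
    intro h0
    rw [h0, zero_mul] at h3
    exact zero_ne_one h3
  have h5 : lam ^ 3 = 1 := by
    have h6 : (b.1.det * b.1.det) * (gramMatrix f₂).det = lam ^ 3 * (gramMatrix f₂).det := by
      linear_combination hdet
    rw [hx2 _ hdb] at h6
    exact (mul_right_cancel₀ hdetG h6).symm
  have h7 := hx2 lam hlam
  calc lam = lam * (lam * lam) := by rw [h7, mul_one]
    _ = lam ^ 3 := by ring
    _ = 1 := h5

/-- T33: over the field with three elements a group of isometries inside `Sp_2 ⊗ O_3` stabilises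
a non-degenerate decomposition into three planes. -/
theorem T33 (hq : Fintype.card F = 3) (f : (Fin n → F) → (Fin n → F) → F)
    (hf : IsSymplecticForm f) (H : Subgroup (GL (Fin n) F)) (hfix : FixesForm (matrixSet H) f)
    (e : Fin n ≃ Fin 2 × Fin 3) (P : GL (Fin n) F) (f₁ : (Fin 2 → F) → (Fin 2 → F) → F)
    (f₂ : (Fin 3 → F) → (Fin 3 → F) → F) (h1 : IsSymplecticForm f₁) (h2 : IsSymmetricForm f₂)
    (ht : IsTensorFormStructure id f f₁ f₂ e P) (hH : H ≤ tensorProductSubgroup 2 3 e P) :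
    ∃ D : Fin 3 → Submodule F (Fin n → F), IsNondegenerateMDecomposition f 2 D ∧
      H ≤ decompositionStabilizer D := by
  classical
  have h2F : (2 : F) ≠ 0 := t33_two_ne hq
  have hb1 := h1.bilinear
  have hb2 := h2.bilinear
  have hsymm := h2.symm
  have hbf := hf.bilinear
  -- the quadratic form of `f₂` and its diagonalisation
  obtain ⟨Q, hQdef⟩ : ∃ Q : (Fin 3 → F) → F, ∀ v, Q v = f₂ v v := ⟨fun v => f₂ v v, fun _ => rfl⟩
  have hpolar : ∀ v w, QuadraticMap.polar Q v w = 2 * f₂ v w := by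
    intro v w
    unfold QuadraticMap.polar
    rw [hQdef, hQdef, hQdef, hb2.add_left, hb2.add_right, hb2.add_right, hsymm w v]
    ring
  have hQ : IsNondegenerateQuadraticForm Q :=
    { smul := fun c v => by
        rw [hQdef, hQdef, hb2.smul_left, hb2.smul_right]
        ring
      polar_bilinear :=
        { add_left := fun x y v => by
            rw [hpolar, hpolar, hpolar, hb2.add_left]
            ring
          smul_left := fun c x v => by
            rw [hpolar, hpolar, hb2.smul_left]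
            ring
          add_right := fun v x y => by
            rw [hpolar, hpolar, hpolar, hb2.add_right]
            ring
          smul_right := fun c v x => by
            rw [hpolar, hpolar, hb2.smul_right]
            ring }
      nondegenerate := fun v hv => by
        obtain ⟨⟨x, hx⟩, ⟨y, hy⟩⟩ := h2.nondegenerate v hv
        exact ⟨⟨x, by rw [hpolar]; exact mul_ne_zero h2F hx⟩,
          ⟨y, by rw [hpolar]; exact mul_ne_zero h2F hy⟩⟩ }
  obtain ⟨L, a, ha, hL⟩ := Cfsg.Agent.Lib.Helper60.Oq.exists_diag_form h2F 3 Q hQ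
  have hdiag : ∀ v, f₂ v v = ∑ i, a i * (L v i * L v i) := by
    intro v
    have h3 := hL v
    rw [one_mul, hQdef] at h3
    rw [← h3]
    apply Finset.sum_congr rfl
    intro i _
    ring
  have hdiag2 : ∀ v w, f₂ v w = ∑ i, a i * (L v i * L w i) := by
    intro v w
    have e1 := hdiag (v + w)
    rw [hb2.add_left, hb2.add_right, hb2.add_right, hsymm w v, hdiag v, hdiag w] at e1
    have e2 : ∑ i, a i * (L (v + w) i * L (v + w) i) = ∑ i, a i * (L v i * L v i) +
        2 * ∑ i, a i * (L v i * L w i) + ∑ i, a i * (L w i * L w i) := by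
      rw [Finset.mul_sum, ← Finset.sum_add_distrib, ← Finset.sum_add_distrib]
      apply Finset.sum_congr rfl
      intro i _
      rw [map_add, Pi.add_apply]
      ring
    rw [e2] at e1
    have e3 : 2 * f₂ v w = 2 * ∑ i, a i * (L v i * L w i) := by linear_combination e1
    exact mul_left_cancel₀ h2F e3
  -- the frame
  obtain ⟨ε, c, hε, hO, hK, hS⟩ := t33_frame hq a ha
  obtain ⟨u, hLu⟩ : ∃ u : Fin 3 → (Fin 3 → F), ∀ s, L (u s) = c s :=
    ⟨fun s => L.symm (c s), fun s => L.apply_symm_apply (c s)⟩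
  have hU1 : ∀ s t, f₂ (u s) (u t) = if s = t then ε else 0 := by
    intro s t
    rw [hdiag2, hLu, hLu]
    exact hO s t
  have hU2 : ∀ v, f₂ v v = ε → ∃ s, v = u s ∨ v = -u s := by
    intro v hv
    rw [hdiag] at hv
    obtain ⟨s, hs⟩ := hS (L v) hv
    refine ⟨s, ?_⟩
    rcases hs with hs | hs
    · left
      apply L.injective
      rw [hLu]
      exact hs
    · right
      apply L.injective
      rw [map_neg, hLu]
      exact hs
  have hE : ∀ v : Fin 3 → F, v = ∑ s, (f₂ v (u s) / ε) • u s := by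
    intro v
    apply L.injective
    rw [map_sum]
    funext i
    rw [Finset.sum_apply]
    simp only [map_smul, hLu, Pi.smul_apply, smul_eq_mul, hdiag2]
    have h3 : ∀ s, (∑ j, a j * (L v j * c s j)) / ε * c s i =
        (∑ j, (c s i * c s j * a j) * L v j) / ε := by
      intro s
      rw [div_mul_eq_mul_div, Finset.sum_mul]
      congr 1
      apply Finset.sum_congr rfl
      intro j _
      ring
    simp only [h3]
    rw [← Finset.sum_div, Finset.sum_comm]
    simp only [← Finset.sum_mul, hK]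
    rw [eq_div_iff hε]
    simp [mul_comm]
  -- the planes
  obtain ⟨c₀, hc₀, hform⟩ := ht
  have hf0l : ∀ x, f 0 x = 0 := by
    intro x
    have h3 := hbf.smul_left 0 0 x
    rw [zero_smul, zero_mul] at h3
    exact h3
  have hf0r : ∀ x, f x 0 = 0 := by
    intro x
    have h3 := hbf.smul_right 0 x 0
    rw [zero_smul, zero_mul] at h3
    exact h3
  let ι : Fin 3 → (Fin 2 → F) →ₗ[F] (Fin n → F) := fun s =>
    { toFun := fun w => tT e P (ptens w (u s))
      map_add' := fun w w' => by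
        rw [← map_add]
        congr 1
        funext p
        simp [ptens, add_mul]
      map_smul' := fun t w => by
        rw [RingHom.id_apply, ← map_smul]
        congr 1
        funext p
        simp [ptens, mul_assoc] }
  have hι : ∀ s w, ι s w = P.1 *ᵥ (ptens w (u s) ∘ e) := fun s w => rfl
  have hD1 : ∀ s t w w', f (ι s w) (ι t w') = c₀ * (f₁ w w' * (if s = t then ε else 0)) := by
    intro s t w w'
    rw [hι, hι, hform, formOfGram_ptens f₁ f₂ hb1 hb2, hU1]
  have hιinj : ∀ s, Function.Injective (ι s) := by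
    intro s
    rw [injective_iff_map_eq_zero]
    intro w hw
    by_contra hw0
    obtain ⟨w', hw'⟩ := (h1.nondegenerate w hw0).2
    have h3 := hD1 s s w w'
    rw [hw, if_pos rfl, hf0l] at h3
    exact mul_ne_zero hc₀ (mul_ne_zero hw' hε) h3.symm
  obtain ⟨D, hDdef⟩ : ∃ D : Fin 3 → Submodule F (Fin n → F), ∀ s, D s = LinearMap.range (ι s) :=
    ⟨fun s => LinearMap.range (ι s), fun _ => rfl⟩
  have hmemD : ∀ s x, x ∈ D s ↔ ∃ w, ι s w = x := by
    intro s x
    rw [hDdef, LinearMap.mem_range]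
  have hnd : ∀ s, IsNondegenerateOn f (D s) := by
    intro s x hx hx0
    obtain ⟨w₀, rfl⟩ := (hmemD s x).1 hx
    have hw₀ : w₀ ≠ 0 := by
      rintro rfl
      exact hx0 (map_zero _)
    obtain ⟨⟨x₀, hx₀⟩, ⟨x₁, hx₁⟩⟩ := h1.nondegenerate w₀ hw₀
    refine ⟨⟨ι s x₀, (hmemD s _).2 ⟨x₀, rfl⟩, ?_⟩, ⟨ι s x₁, (hmemD s _).2 ⟨x₁, rfl⟩, ?_⟩⟩
    · rw [hD1, if_pos rfl]
      exact mul_ne_zero hc₀ (mul_ne_zero hx₀ hε)
    · rw [hD1, if_pos rfl]
      exact mul_ne_zero hc₀ (mul_ne_zero hx₁ hε)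
  have horth : ∀ s t, s ≠ t → AreOrthogonalFor f (D s) (D t) := by
    intro s t hst x hx y hy
    obtain ⟨w, rfl⟩ := (hmemD s x).1 hx
    obtain ⟨w', rfl⟩ := (hmemD t y).1 hy
    rw [hD1, if_neg hst]
    ring
  have hindep : iSupIndep D := by
    intro s
    rw [Submodule.disjoint_def]
    intro x hx hx'
    by_contra hx0
    obtain ⟨⟨y, hy, hyx⟩, -⟩ := hnd s x hx hx0
    apply hyx
    let K : Submodule F (Fin n → F) :=
      { carrier := {x | ∀ y ∈ D s, f y x = 0}
        add_mem' := fun {x x'} hx hx' y hy => by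
          rw [hbf.add_right, hx y hy, hx' y hy, add_zero]
        zero_mem' := fun y _ => hf0r y
        smul_mem' := fun c x hx y hy => by
          rw [hbf.smul_right, hx y hy, mul_zero] }
    have hle : (⨆ (j) (_ : j ≠ s), D j) ≤ K := by
      apply iSup₂_le
      intro t hts z hz y hy
      exact horth s t (Ne.symm hts) y hy z hz
    exact hle hx' y hy
  have htop : iSup D = ⊤ := by
    rw [eq_top_iff]
    intro v _
    obtain ⟨x, rfl⟩ := tT_surjective e P v
    have hx : x = ∑ s, ptens (fun i => f₂ (fun j => x (i, j)) (u s) / ε) (u s) := by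
      funext p
      obtain ⟨i, j⟩ := p
      have h3 := congrFun (hE (fun j => x (i, j))) j
      rw [Finset.sum_apply] at h3 ⊢
      simpa [ptens] using h3
    rw [hx, map_sum]
    apply Submodule.sum_mem
    intro s _
    exact Submodule.mem_iSup_of_mem s ((hmemD s _).2 ⟨_, rfl⟩)
  have hfr : ∀ s, Module.finrank F (D s) = 2 := by
    intro s
    rw [hDdef, LinearMap.finrank_range_of_inj (hιinj s), Module.finrank_fin_fun]
  refine ⟨D, ⟨⟨by norm_num, by norm_num, hfr, hindep, htop⟩, hnd, horth⟩, ?_⟩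
  -- the stabiliser
  intro h hh
  obtain ⟨a', b, lam, hab, hlam, hb⟩ := tens_factor f H hfix (by norm_num) (by norm_num) e P
    f₁ f₂ h1.bilinear h1.nondegenerate h2.bilinear h2.nondegenerate ⟨c₀, hc₀, hform⟩ hH h hh
  have hlam1 : lam = 1 := t33_lam_one hq f₂ h2 b lam hlam hb
  rw [hlam1] at hb
  simp only [one_mul] at hb
  have hex : ∀ s, ∃ (t : Fin 3) (δ : F), δ ≠ 0 ∧ b.1 *ᵥ u s = δ • u t := by
    intro s
    obtain ⟨t, ht⟩ := hU2 (b.1 *ᵥ u s) (by rw [hb, hU1, if_pos rfl])
    rcases ht with ht | ht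
    · exact ⟨t, 1, one_ne_zero, by rw [ht, one_smul]⟩
    · exact ⟨t, -1, neg_ne_zero.mpr one_ne_zero, by rw [ht, neg_smul, one_smul]⟩
  choose σ δ hδ0 hδ using hex
  have hσinj : Function.Injective σ := by
    intro s s' hss
    by_contra hne
    have h3 := hb (u s) (u s')
    rw [hU1, if_neg hne, hδ s, hδ s', hb2.smul_left, hb2.smul_right, hss, hU1, if_pos rfl] at h3
    exact mul_ne_zero (hδ0 s) (mul_ne_zero (hδ0 s') hε) h3
  have hact : ∀ s w, h.1 *ᵥ ι s w = ι (σ s) (δ s • (a'.1 *ᵥ w)) := by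
    intro s w
    rw [hι, hι, hab, tmat_mulVec, kron_mulVec_ptens, hδ s]
    congr 2
    funext p
    simp [ptens]
    ring
  refine ⟨Equiv.ofBijective σ (Finite.injective_iff_bijective.mp hσinj), fun s => ?_⟩
  rw [Equiv.ofBijective_apply]
  apply le_antisymm
  · rintro _ ⟨x, hx, rfl⟩
    obtain ⟨w, rfl⟩ := (hmemD s x).1 hx
    rw [Matrix.toLin'_apply, hact]
    exact (hmemD _ _).2 ⟨_, rfl⟩
  · intro y hy
    obtain ⟨w', rfl⟩ := (hmemD _ y).1 hy
    refine ⟨ι s ((a'⁻¹ : GL (Fin 2) F).1 *ᵥ ((δ s)⁻¹ • w')), (hmemD s _).2 ⟨_, rfl⟩, ?_⟩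
    rw [Matrix.toLin'_apply, hact, Matrix.mulVec_mulVec, ← Units.val_mul, mul_inv_cancel,
      Units.val_one, Matrix.one_mulVec, smul_smul, mul_inv_cancel₀ (hδ0 s), one_smul]

end Cfsg.Agent.Lib.Helper29.SPPT33
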