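import Mathlib
import Cfsg.Prelude.Def_GeometricClasses
import Cfsg.Prelude.Def_LieClassical
import Cfsg.Agent.Lib.Helper71.Asch0
import Cfsg.Agent.Lib.Helper71.Asch5
import Cfsg.Agent.Lib.Helper71.AschMain
import Cfsg.Agent.Lib.Helper65.ASF
import Cfsg.Agent.Lib.Helper65.ASSN

/-!
# SUP piece U5

The symplectic-type branch in odd prime dimension: assembly of the landed pieces of the linear
engine (SA, SB, SC, SE, SF, SR, SLmain, SM, ASSN).
-/

set_option autoImplicit false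

namespace Cfsg.Agent.Lib.Helper29.SUPU5

open Matrix Cfsg.Geo Cfsg.Agent.Lib.Helper71.Asch
open Cfsg.Agent.Lib.Helper82.ASSA (SA)
open Cfsg.Agent.Lib.Helper28.ASSB (SB)
open Cfsg.Agent.Lib.Helper66.ASSC (SC)
open Cfsg.Agent.Lib.Helper65.ASSE (SE)
open Cfsg.Agent.Lib.Helper12.ASSF (SF SR)
open Cfsg.Agent.Lib.Helper75.ASSM (SM)
open Cfsg.Agent.Lib.Helper71.AschMain (SLmain)

variable {n : ℕ} {F : Type*} [Field F] [Fintype F] {q : ℕ}

/-- In prime dimension `n` the prime `r` of the symplectic-type branch is `n`. -/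
theorem U5_r_eq (hn : n.Prime) (H L : Subgroup (GL (Fin n) F)) (h : SymT H L) (r : ℕ)
    (hr : r.Prime) (hp : ∀ x ∈ L, ∃ j : ℕ, x ^ (r ^ j) = 1) : r = n := by
  classical
  obtain ⟨x, hxL, y, hyL, hne⟩ := Cfsg.Agent.Lib.Helper65.ASF.not_abelian h
  obtain ⟨c, hc⟩ : ∃ c : GL (Fin n) F, c = x * y * x⁻¹ * y⁻¹ := ⟨_, rfl⟩
  have hcs : c ∈ scalars (Fin n) F := by
    rw [hc]; exact Cfsg.Agent.Lib.Helper65.ASF.comm_mem_scalars h hxL hyL
  have hcL : c ∈ L := by
    rw [hc]
    exact L.mul_mem (L.mul_mem (L.mul_mem hxL hyL) (L.inv_mem hxL)) (L.inv_mem hyL)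
  have hc1 : c ≠ 1 := by
    intro h1
    apply hne
    rw [hc] at h1
    calc x * y = (x * y * x⁻¹ * y⁻¹) * (y * x) := by group
      _ = y * x := by rw [h1, one_mul]
  obtain ⟨ζ, hζ⟩ := (mem_scalars_iff c).1 hcs
  have hn0 : 0 < n := hn.pos
  -- ζ ≠ 1
  have hζ1 : (ζ : F) ≠ 1 := by
    intro h1
    apply hc1
    apply Units.ext
    rw [hζ, h1, one_smul, Units.val_one]
  -- ζ ^ n = 1 by determinants
  have hdet : (c : Matrix (Fin n) (Fin n) F).det = 1 := by
    rw [hc, Units.val_mul, Units.val_mul, Units.val_mul, Matrix.det_mul, Matrix.det_mul,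
      Matrix.det_mul]
    have hx1 : (x : Matrix (Fin n) (Fin n) F).det * ((x⁻¹ : GL (Fin n) F) : Matrix (Fin n) (Fin n) F).det = 1 := by
      rw [← Matrix.det_mul, ← Units.val_mul, mul_inv_cancel, Units.val_one, Matrix.det_one]
    have hy1 : (y : Matrix (Fin n) (Fin n) F).det * ((y⁻¹ : GL (Fin n) F) : Matrix (Fin n) (Fin n) F).det = 1 := by
      rw [← Matrix.det_mul, ← Units.val_mul, mul_inv_cancel, Units.val_one, Matrix.det_one]
    linear_combination ((y : Matrix (Fin n) (Fin n) F).det * ((y⁻¹ : GL (Fin n) F) : Matrix (Fin n) (Fin n) F).det) * hx1 + hy1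
  have hζn : (ζ : F) ^ n = 1 := by
    rw [hζ, Matrix.det_smul, Matrix.det_one, mul_one, Fintype.card_fin] at hdet
    exact hdet
  -- ζ ^ (r ^ j) = 1
  obtain ⟨j, hj⟩ := hp c hcL
  have hζr : (ζ : F) ^ (r ^ j) = 1 := by
    have h1 := congrArg (fun g : GL (Fin n) F => (g : Matrix (Fin n) (Fin n) F)) hj
    simp only [Units.val_pow_eq_pow_val, Units.val_one] at h1
    rw [hζ, smul_pow, one_pow] at h1
    have h2 := congrFun (congrFun h1 ⟨0, hn0⟩) ⟨0, hn0⟩
    simpa using h2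
  by_contra hrn
  have hcop : Nat.Coprime n (r ^ j) :=
    Nat.Coprime.pow_right j ((Nat.coprime_primes hn hr).2 (fun h => hrn h.symm))
  have h3 : (ζ : F) ^ Nat.gcd n (r ^ j) = 1 := pow_gcd_eq_one.2 ⟨hζn, hζr⟩
  rw [Nat.Coprime.gcd_eq_one hcop, pow_one] at h3
  exact hζ1 h3

/-- U5: the symplectic-type branch in odd prime dimension (no form involved). -/
theorem U5 (hn : n.Prime) (hn3 : 3 ≤ n) (H L : Subgroup (GL (Fin n) F)) (h : SymT H L) :
    (∃ F₁ : Subfield F, F₁ ≠ ⊤ ∧ RealisableOver F₁ (matrixSet L)) ∨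
    (∃ p e : ℕ, IsSymplecticTypeGroup n L ∧ n ≠ p ∧ IsMinimalFieldFor n p e F ∧
      Nat.card L = n ^ 3 ∧ Nat.card (Subgroup.center L) = n) := by
  classical
  obtain ⟨r, hr, hx⟩ := SA H L h
  have hp := SC H L h r hr hx
  have hrn : r = n := U5_r_eq hn H L h r hr hp
  subst hrn
  have hr0 := SB (by omega) H L h r hr hx
  have hexp := SE (by omega) H L h r hr hx hp
  have hodd : Odd r := hr.odd_of_ne_two (by omega)
  have hg : Nat.gcd 2 r = 1 := Nat.coprime_two_left.mpr hodd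
  have hz : Nat.card ↥(L ⊓ scalars (Fin r) F) = r := by
    rcases SF (by omega) H L h r hr hexp with ⟨-, hz⟩ | ⟨hr2, -⟩
    · exact hz
    · omega
  have hroot : ∃ ζ : F, IsPrimitiveRoot ζ r := by
    have h1 := SR (by omega) L
    rw [hz] at h1
    exact h1
  have hexpz : ∀ x ∈ L, x ^ r = 1 := by
    intro x hxL
    have h1 := hexp x hxL
    rw [hg, mul_one] at h1
    exact h1
  obtain ⟨hreal, hcard⟩ := SLmain (by omega) H L h r hr hx r hexpz hr0 hroot
  rcases SM r hroot hr.pos with ⟨F₁, hF₁, hF₁z⟩ | ⟨p, e, hmin⟩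
  · left
    exact ⟨F₁, hF₁, hreal F₁ hF₁z⟩
  · right
    haveI : Fact r.Prime := ⟨hr⟩
    have hpG : IsPGroup r ↥L := Cfsg.Agent.Lib.Helper65.ASSN.isPGroup_L L r hr hexp
    have hexpo : Monoid.exponent ↥L = r * Nat.gcd 2 r := by
      have hdvd : Monoid.exponent ↥L ∣ r * Nat.gcd 2 r := by
        apply Monoid.exponent_dvd_of_forall_pow_eq_one
        intro x
        apply Subtype.ext
        exact hexp x.1 x.2
      have hne1 : Monoid.exponent ↥L ≠ 1 := by
        intro h1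
        rw [Monoid.exp_eq_one_iff] at h1
        obtain ⟨x, hx', y, hy, hne⟩ := Cfsg.Agent.Lib.Helper65.ASF.not_abelian h
        apply hne
        have h2 : (⟨x, hx'⟩ : ↥L) = ⟨y, hy⟩ := Subsingleton.elim _ _
        have h3 : x = y := congrArg Subtype.val h2
        rw [h3]
      rw [hg, mul_one] at hdvd ⊢
      rcases (Nat.dvd_prime hr).1 hdvd with h1 | h1
      · exact absurd h1 hne1
      · exact h1
    have hsymp : IsSymplecticTypeGroup r L :=
      { prime := hr
        pGroup := hpG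
        cyclic_of_characteristic := fun A hA hAc =>
          Cfsg.Agent.Lib.Helper65.ASSN.cyclic_of_char H L h A hA hAc
        exponent_eq := hexpo }
    have hrp : r ≠ p := by
      intro hrp
      haveI := hmin.2.1
      apply hr0
      rw [hrp]
      exact CharP.cast_eq_zero F p
    refine ⟨p, e, hsymp, hrp, hmin, ?_, ?_⟩
    · rw [hcard, hz]
      ring
    · rw [Cfsg.Agent.Lib.Helper65.ASSN.card_center H L h, hz]

end Cfsg.Agent.Lib.Helper29.SUPU5
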