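import Mathlib
import Cfsg.Prelude.Def_GeometricClasses
import Cfsg.Prelude.Def_LieClassical
import Cfsg.Agent.Lib.Helper71.Asch0
import Cfsg.Agent.Lib.Helper57.ASCOREA
import Cfsg.Agent.Lib.Helper82.ASCOREB
import Cfsg.Agent.Lib.Helper46.ASB3s
import Cfsg.Agent.Lib.Helper73.SLPC2
import Cfsg.Agent.Lib.Helper16.SLPC3

/-!
# SUP piece U6

In prime dimension an absolutely irreducible group is not a central product of `k ≥ 2`
non-scalar subgroups.
-/

set_option autoImplicit false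

namespace Cfsg.Agent.Lib.Helper29.SUPU6

open Matrix Cfsg.Geo Cfsg.Agent.Lib.Helper71.Asch
open Cfsg.Agent.Lib.Helper57.ASCOREA (coreA)
open Cfsg.Agent.Lib.Helper82.ASCOREB (coreB)
open Cfsg.Agent.Lib.Helper46.ASB3s (B3s B3a)
open Cfsg.Agent.Lib.Helper73.SLPC2 (C2)
open Cfsg.Agent.Lib.Helper16.SLPC3 (C3)

variable {n : ℕ} {F : Type*} [Field F] [Fintype F] {q : ℕ}

/-- An element commuting with an absolutely irreducible group is scalar. -/
theorem U6_scalar_of_comm (N : Subgroup (GL (Fin n) F))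
    (hN : ActsAbsolutelyIrreducibly (matrixSet N)) (y : GL (Fin n) F)
    (hy : ∀ x ∈ N, y * x = x * y) : y ∈ scalars (Fin n) F := by
  have h1 : ∀ s ∈ matrixSet N, y.1 * s = s * y.1 := by
    rintro _ ⟨x, hx, rfl⟩
    have h2 := congrArg Units.val (hy x hx)
    simpa [Units.val_mul] using h2
  obtain ⟨c, hcx⟩ := hN.2 y.1 h1
  rw [mem_scalars_iff]
  by_cases hc0 : c = 0
  · refine ⟨1, ?_⟩
    have h0 : y.1 = 0 := by rw [hcx, hc0, zero_smul]
    have h10 : (1 : Matrix (Fin n) (Fin n) F) = 0 := by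
      have h3 := y.mul_inv
      rw [h0, zero_mul] at h3
      exact h3.symm
    rw [h0, Units.val_one, one_smul, h10]
  · exact ⟨Units.mk0 c hc0, hcx⟩

/-- A field subalgebra of degree `n` of the `n × n` matrices is its own commutant. -/
theorem U6_comm_mem (hn : 1 ≤ n) (K : Subalgebra F (Matrix (Fin n) (Fin n) F))
    (hK : IsFieldSubalgebra n K) (X : Matrix (Fin n) (Fin n) F)
    (hX : ∀ z ∈ K, z * X = X * z) : X ∈ K := by
  classical
  obtain ⟨v₀, hv₀⟩ : ∃ v₀ : Fin n → F, v₀ ≠ 0 := ⟨fun _ => 1, fun h => by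
    have h1 := congrFun h ⟨0, hn⟩
    simp at h1⟩
  obtain ⟨φ, hφ⟩ : ∃ φ : ↥K →ₗ[F] (Fin n → F), ∀ k : ↥K, φ k = k.1 *ᵥ v₀ :=
    ⟨{ toFun := fun k => k.1 *ᵥ v₀
       map_add' := fun a b => by
         show (a.1 + b.1) *ᵥ v₀ = a.1 *ᵥ v₀ + b.1 *ᵥ v₀
         rw [Matrix.add_mulVec]
       map_smul' := fun c a => by
         show (c • a.1) *ᵥ v₀ = c • (a.1 *ᵥ v₀)
         rw [Matrix.smul_mulVec] }, fun k => rfl⟩
  have hinj : Function.Injective φ := by
    rw [← LinearMap.ker_eq_bot, LinearMap.ker_eq_bot']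
    intro k hk
    by_contra hk0
    have hk1 : (k : Matrix (Fin n) (Fin n) F) ≠ 0 := fun h => hk0 (Subtype.ext h)
    obtain ⟨y, hyK, hy⟩ := hK.inv k.1 k.2 hk1
    have hyk : y * k.1 = 1 := by rw [hK.comm y hyK k.1 k.2]; exact hy
    apply hv₀
    calc v₀ = (1 : Matrix (Fin n) (Fin n) F) *ᵥ v₀ := (Matrix.one_mulVec v₀).symm
      _ = (y * k.1) *ᵥ v₀ := by rw [hyk]
      _ = y *ᵥ (k.1 *ᵥ v₀) := (Matrix.mulVec_mulVec v₀ y k.1).symm
      _ = y *ᵥ 0 := by rw [← hφ, hk]
      _ = 0 := Matrix.mulVec_zero y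
  have hfin : Module.finrank F ↥K = Module.finrank F (Fin n → F) := by
    rw [hK.finrank_eq, Module.finrank_fin_fun]
  have hsurj : Function.Surjective φ :=
    (LinearMap.injective_iff_surjective_of_finrank_eq_finrank hfin).1 hinj
  obtain ⟨k₀, hk₀⟩ := hsurj (X *ᵥ v₀)
  have hXk : X = k₀.1 := by
    apply Matrix.toLin'.injective
    apply LinearMap.ext
    intro w
    obtain ⟨k, hk⟩ := hsurj w
    rw [Matrix.toLin'_apply, Matrix.toLin'_apply, ← hk, hφ]
    calc X *ᵥ (k.1 *ᵥ v₀) = (X * k.1) *ᵥ v₀ := Matrix.mulVec_mulVec _ _ _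
      _ = (k.1 * X) *ᵥ v₀ := by rw [hX k.1 k.2]
      _ = k.1 *ᵥ (X *ᵥ v₀) := (Matrix.mulVec_mulVec _ _ _).symm
      _ = k.1 *ᵥ (k₀.1 *ᵥ v₀) := by rw [← hk₀, hφ]
      _ = (k.1 * k₀.1) *ᵥ v₀ := Matrix.mulVec_mulVec _ _ _
      _ = (k₀.1 * k.1) *ᵥ v₀ := by rw [hK.comm k.1 k.2 k₀.1 k₀.2]
      _ = k₀.1 *ᵥ (k.1 *ᵥ v₀) := (Matrix.mulVec_mulVec _ _ _).symm
  rw [hXk]
  exact k₀.2

/-- U6: in prime dimension an absolutely irreducible group is not a central product of `k ≥ 2`
non-scalar subgroups. -/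
theorem U6 (hn : n.Prime) (L : Subgroup (GL (Fin n) F))
    (hLa : ActsAbsolutelyIrreducibly (matrixSet L)) (k : ℕ)
    (Ps : Fin k → Subgroup (GL (Fin n) F)) (hk : 2 ≤ k)
    (hns : ∀ i, ¬ Ps i ≤ scalars (Fin n) F)
    (hcomm : ∀ i j, i ≠ j → ∀ x ∈ Ps i, ∀ y ∈ Ps j, x * y = y * x)
    (hsup : L = ⨆ i, Ps i) : False := by
  classical
  have hn1 : 1 ≤ n := hn.pos
  obtain ⟨i0, hi0⟩ : ∃ i0 : Fin k, i0 = ⟨0, by omega⟩ := ⟨_, rfl⟩
  obtain ⟨i1, hi1⟩ : ∃ i1 : Fin k, i1 = ⟨1, by omega⟩ := ⟨_, rfl⟩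
  have h01 : i1 ≠ i0 := by
    rw [hi0, hi1]
    intro h
    have h2 := congrArg Fin.val h
    simp at h2
  have hPL : ∀ i, Ps i ≤ L := fun i => hsup ▸ le_iSup Ps i
  have hind : ∀ (C : GL (Fin n) F → Prop), (∀ i, ∀ x ∈ Ps i, C x) → C 1 →
      (∀ x y, C x → C y → C (x * y)) → ∀ g ∈ L, C g := by
    intro C hmem hone hmul g hg
    rw [hsup] at hg
    exact Subgroup.iSup_induction Ps (C := C) hg hmem hone hmul
  have hNrm : Nrm L (Ps i0) := by
    intro h hh
    refine hind (fun h => ∀ x ∈ Ps i0, h * x * h⁻¹ ∈ Ps i0) ?_ ?_ ?_ h hh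
    · intro j g hg x hx
      by_cases hj : j = i0
      · have hg' : g ∈ Ps i0 := hj ▸ hg
        exact (Ps i0).mul_mem ((Ps i0).mul_mem hg' hx) ((Ps i0).inv_mem hg')
      · have h2 := hcomm j i0 hj g hg x hx
        rw [h2, mul_inv_cancel_right]
        exact hx
    · intro x hx
      simpa using hx
    · intro a b ha hb x hx
      have h2 : a * b * x * (a * b)⁻¹ = a * (b * x * b⁻¹) * a⁻¹ := by group
      rw [h2]
      exact ha _ (hb x hx)
  rcases coreA hn1 L (Ps i0) hLa.1 (hPL i0) hNrm with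
    ⟨t, m, D, hD, -, hiso, hinv⟩ | ⟨d, k', e, P, R, hR, h1, h2⟩
  · -- decomposition case
    obtain ⟨j0, hj0⟩ : ∃ j0 : Fin t, j0 = ⟨0, by have := hD.two_le; omega⟩ := ⟨_, rfl⟩
    have hLinv : ∀ g ∈ L, (D j0).map (Matrix.toLin' g.1) ≤ D j0 := by
      refine hind (fun g => (D j0).map (Matrix.toLin' g.1) ≤ D j0) ?_ ?_ ?_
      · intro j g hg
        by_cases hj : j = i0
        · exact hinv j0 g (hj ▸ hg)
        · apply hiso j0 g.1
          intro x hx
          have h3 := congrArg Units.val (hcomm j i0 hj g hg x hx)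
          simpa [Units.val_mul] using h3
      · show (D j0).map (Matrix.toLin' ((1 : GL (Fin n) F) : Matrix (Fin n) (Fin n) F)) ≤ D j0
        rw [Units.val_one, Matrix.toLin'_one, Submodule.map_id]
      · intro a b ha hb
        show (D j0).map (Matrix.toLin' ((a * b : GL (Fin n) F) : Matrix (Fin n) (Fin n) F)) ≤ D j0
        rw [Units.val_mul, Matrix.toLin'_mul, Submodule.map_comp]
        exact (Submodule.map_mono hb).trans ha
    have hW : D j0 = ⊥ ∨ D j0 = ⊤ := by
      apply hLa.1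
      rintro _ ⟨g, hg, rfl⟩
      exact hLinv g hg
    have hfr := hD.finrank_eq j0
    have htm := C2 D hD
    have ht2 := hD.two_le
    have hmpos := hD.pos
    rcases hW with hW | hW
    · rw [hW, finrank_bot] at hfr
      omega
    · rw [hW, finrank_top, Module.finrank_fin_fun] at hfr
      have h3 : 2 * m ≤ t * m := Nat.mul_le_mul_right m ht2
      omega
  · -- homogeneous case
    have hcard : n = d * k' := by
      have h3 := Fintype.card_congr e
      simpa using h3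
    rcases (Nat.dvd_prime hn).1 (Dvd.intro k' hcard.symm) with hd | hd
    · subst hd
      exact hns i0 (B3s e P R (Ps i0) h1)
    · have hk1 : k' = 1 := by
        rw [hd] at hcard
        have h3 : n * k' = n * 1 := by rw [mul_one]; exact hcard.symm
        exact Nat.eq_of_mul_eq_mul_left hn.pos h3
      subst hk1
      by_cases hRa : ActsAbsolutelyIrreducibly (matrixSet R)
      · have hP0a := B3a e P R (Ps i0) hRa h2
        apply hns i1
        intro y hy
        exact U6_scalar_of_comm (Ps i0) hP0a y (fun x hx => hcomm i1 i0 h01 y hy x hx)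
      · obtain ⟨r, K, hr, hK, -, hKc⟩ :=
          coreB hn1 L (Ps i0) (hPL i0) hNrm e P R hR h1 h2 hRa
        have hrn : r = n := (Nat.prime_dvd_prime_iff_eq hr hn).1 (C3 hn1 r K hK)
        rw [hrn] at hK
        have hmemK : ∀ j, j ≠ i0 → ∀ y ∈ Ps j, y.1 ∈ K := by
          intro j hj y hy
          apply U6_comm_mem hn1 K hK
          intro z hz
          apply (hKc z hz).2
          intro x hx
          have h3 := congrArg Units.val (hcomm j i0 hj y hy x hx)
          simpa [Units.val_mul] using h3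
        apply hns i1
        intro y hy
        apply U6_scalar_of_comm L hLa y
        refine hind (fun g => y * g = g * y) ?_ ?_ ?_
        · intro j g hg
          by_cases hj : j = i0
          · exact hcomm i1 i0 h01 y hy g (hj ▸ hg)
          · apply Units.ext
            rw [Units.val_mul, Units.val_mul]
            exact hK.comm _ (hmemK i1 h01 y hy) _ (hmemK j hj g hg)
        · show y * 1 = 1 * y
          rw [mul_one, one_mul]
        · intro a b ha hb
          show y * (a * b) = a * b * y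
          rw [← mul_assoc, ha, mul_assoc, hb, mul_assoc]

end Cfsg.Agent.Lib.Helper29.SUPU6
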