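import Cfsg.Agent.Lib.Helper26.TwF4Defs
import Cfsg.Agent.Lib.Helper24.RkSigB

/-!
# Project TF4 (helper26), piece UPPER (helper29): the crude count of the fixed points of the
twisting endomorphism from the normal form of a fixed element.
-/

set_option autoImplicit false

namespace Cfsg.Agent.Lib.Helper26.TF4

open Cfsg.Lie Matrix Cfsg.Agent.Lib.Helper24

theorem card_fix_le {K : Type*} [Field K] [Finite K] (A : ASig K chevF4 hF4) :
    Nat.card ↥(sigFix A.sig) ≤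
      Nat.card ↥(sigFix A.sig ⊓ chevF4.posUnipotent K) ^ 2 *
        Nat.card ↥(chevF4.monomialSubgroup K) := by
  classical
  have key : ∀ g : ↥(sigFix A.sig),
      ∃ t : ↥(sigFix A.sig ⊓ chevF4.posUnipotent K) × ↥(chevF4.monomialSubgroup K) ×
          ↥(sigFix A.sig ⊓ chevF4.posUnipotent K),
        (g : GL chevF4.Idx K) =
          (t.1 : GL chevF4.Idx K) * (t.2.1 : GL chevF4.Idx K) * (t.2.2 : GL chevF4.Idx K) := by
    intro g
    obtain ⟨hg, hfix⟩ := (mem_sigFix A.sig g.1).1 g.2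
    obtain ⟨u₁, m, u, hu₁, hm, hu, hσ₁, hσm, hσu, e⟩ := A.fixed_bruhat ⟨g.1, hg⟩ hfix
    have h1 : (u₁ : GL chevF4.Idx K) ∈ sigFix A.sig ⊓ chevF4.posUnipotent K :=
      Subgroup.mem_inf.2 ⟨(mem_sigFix A.sig _).2 ⟨u₁.2, hσ₁⟩, hu₁⟩
    have h2 : (u : GL chevF4.Idx K) ∈ sigFix A.sig ⊓ chevF4.posUnipotent K :=
      Subgroup.mem_inf.2 ⟨(mem_sigFix A.sig _).2 ⟨u.2, hσu⟩, rk_uNeg_le chevF4 _ hu⟩
    refine ⟨(⟨(u₁ : GL chevF4.Idx K), h1⟩, ⟨(m : GL chevF4.Idx K), hm⟩,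
      ⟨(u : GL chevF4.Idx K), h2⟩), ?_⟩
    exact congrArg Subtype.val e
  choose Φ hΦ using key
  have hinj : Function.Injective Φ := by
    intro g g' hgg
    apply Subtype.ext
    rw [hΦ g, hΦ g', hgg]
  haveI : Finite (GL chevF4.Idx K) := inferInstance
  calc Nat.card ↥(sigFix A.sig)
      ≤ Nat.card (↥(sigFix A.sig ⊓ chevF4.posUnipotent K) × ↥(chevF4.monomialSubgroup K) ×
          ↥(sigFix A.sig ⊓ chevF4.posUnipotent K)) := Nat.card_le_card_of_injective Φ hinj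
    _ = Nat.card ↥(sigFix A.sig ⊓ chevF4.posUnipotent K) ^ 2 *
        Nat.card ↥(chevF4.monomialSubgroup K) := by
      rw [Nat.card_prod, Nat.card_prod]
      ring

end Cfsg.Agent.Lib.Helper26.TF4
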