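import Mathlib

/-! TG-MOD piece FLD: a finite field of characteristic `p` generated (as a ring) by a primitive
`m`-th root of unity has `p ^ ord_m(p)` elements. -/

set_option autoImplicit false

namespace Cfsg.Agent.Lib.Helper29.TGM

theorem fld_pow_fix {F : Type*} [Field F] (p : ℕ) [Fact p.Prime] [CharP F p]
    (r : ℕ) (w : F) (hw : w ^ (p ^ r) = w)
    (hgen : ∀ x : F, x ∈ Subring.closure ({w} : Set F)) (x : F) : x ^ (p ^ r) = x := by
  have hle : Subring.closure ({w} : Set F) ≤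
      (RingHom.eqLocus (iterateFrobenius F p r) (RingHom.id F)) := by
    rw [Subring.closure_le]
    intro y hy
    rw [Set.mem_singleton_iff] at hy
    subst hy
    show iterateFrobenius F p r y = RingHom.id F y
    rw [iterateFrobenius_def]
    simpa using hw
  have := hle (hgen x)
  have h2 : iterateFrobenius F p r x = RingHom.id F x := this
  rw [iterateFrobenius_def] at h2
  simpa using h2

theorem fld_card {F : Type*} [Field F] [Finite F] (p : ℕ) [Fact p.Prime] [CharP F p]
    (m : ℕ) (hm0 : 0 < m) (hpm : ¬ p ∣ m) (w : F) (hw : IsPrimitiveRoot w m)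
    (hgen : ∀ x : F, x ∈ Subring.closure ({w} : Set F)) :
    Nat.card F = p ^ orderOf ((p : ZMod m)) := by
  classical
  haveI : NeZero m := ⟨hm0.ne'⟩
  letI : Fintype F := Fintype.ofFinite F
  have hp : p.Prime := Fact.out
  obtain ⟨n, -, hn⟩ := FiniteField.card F p
  rw [Nat.card_eq_fintype_card, hn]
  have hcop : Nat.Coprime p m := (Nat.Prime.coprime_iff_not_dvd hp).mpr hpm
  set r := orderOf ((p : ZMod m)) with hr
  have hrpos : 0 < r := by
    have h1 : ((ZMod.unitOfCoprime p hcop : (ZMod m)ˣ) : ZMod m) = (p : ZMod m) :=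
      ZMod.coe_unitOfCoprime p hcop
    have h2 : orderOf ((ZMod.unitOfCoprime p hcop : (ZMod m)ˣ) : ZMod m)
        = orderOf (ZMod.unitOfCoprime p hcop) := orderOf_units
    rw [hr, ← h1, h2]
    exact orderOf_pos _
  have hw0 : w ≠ 0 := hw.ne_zero hm0.ne'
  -- r ∣ n
  have hrn : r ∣ (n : ℕ) := by
    have h1 : w ^ (Fintype.card F - 1) = 1 := FiniteField.pow_card_sub_one_eq_one w hw0
    have h2 : m ∣ Fintype.card F - 1 := hw.dvd_of_pow_eq_one _ h1
    rw [hn] at h2
    have h3 : ((p ^ (n : ℕ) - 1 : ℕ) : ZMod m) = 0 := (ZMod.natCast_eq_zero_iff _ _).mpr h2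
    have hpos : 1 ≤ p ^ (n : ℕ) := Nat.one_le_pow _ _ hp.pos
    rw [Nat.cast_sub hpos] at h3
    push_cast at h3
    have h4 : (p : ZMod m) ^ (n : ℕ) = 1 := sub_eq_zero.mp h3
    exact orderOf_dvd_of_pow_eq_one h4
  -- n ≤ r
  have hnr : (n : ℕ) ≤ r := by
    have h1 : (p : ZMod m) ^ r = 1 := pow_orderOf_eq_one _
    have hpos : 1 ≤ p ^ r := Nat.one_le_pow _ _ hp.pos
    have h2 : ((p ^ r - 1 : ℕ) : ZMod m) = 0 := by
      rw [Nat.cast_sub hpos]; push_cast; rw [h1]; simp
    have h3 : m ∣ p ^ r - 1 := (ZMod.natCast_eq_zero_iff _ _).mp h2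
    have h4 : w ^ (p ^ r - 1) = 1 := by
      obtain ⟨k, hk⟩ := h3
      rw [hk, pow_mul, hw.pow_eq_one, one_pow]
    have h5 : w ^ (p ^ r) = w := by
      have : p ^ r = (p ^ r - 1) + 1 := by omega
      rw [this, pow_succ, h4, one_mul]
    have hall : ∀ x : F, x ^ (p ^ r) = x := fld_pow_fix p r w h5 hgen
    -- a generator of the unit group
    obtain ⟨g, hg⟩ := IsCyclic.exists_generator (α := Fˣ)
    have hord : orderOf g = Fintype.card Fˣ := by
      rw [← Nat.card_eq_fintype_card]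
      exact orderOf_eq_card_of_forall_mem_zpowers hg
    rw [Fintype.card_units, hn] at hord
    have h6 : (g : F) ^ (p ^ r) = (g : F) := hall g
    have h7 : g ^ (p ^ r - 1) = 1 := by
      apply Units.ext
      rw [Units.val_pow_eq_pow_val, Units.val_one]
      have hg0 : (g : F) ≠ 0 := g.ne_zero
      have : (g : F) ^ (p ^ r - 1) * (g : F) = 1 * (g : F) := by
        rw [← pow_succ, one_mul]
        have : p ^ r - 1 + 1 = p ^ r := by omega
        rw [this, h6]
      exact mul_right_cancel₀ hg0 this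
    have h8 : p ^ (n : ℕ) - 1 ∣ p ^ r - 1 := by
      rw [← hord]; exact orderOf_dvd_of_pow_eq_one h7
    have h9 : 0 < p ^ r - 1 := by
      have : p ^ 1 ≤ p ^ r := Nat.pow_le_pow_right hp.pos hrpos
      have h2 := hp.two_le
      simp at this
      omega
    have h10 : p ^ (n : ℕ) - 1 ≤ p ^ r - 1 := Nat.le_of_dvd h9 h8
    have h11 : p ^ (n : ℕ) ≤ p ^ r := by
      have := Nat.one_le_pow (n : ℕ) p hp.pos
      omega
    exact (Nat.pow_le_pow_iff_right hp.one_lt).mp h11
  have hnpos : 0 < (n : ℕ) := n.pos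
  have hrle : r ≤ (n : ℕ) := Nat.le_of_dvd hnpos hrn
  have : (n : ℕ) = r := le_antisymm hnr hrle
  rw [this]

end Cfsg.Agent.Lib.Helper29.TGM
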