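import Mathlib
import Cfsg.Prelude.Def_GeometricClasses
import Cfsg.Agent.Lib.Helper97.Transv
import Cfsg.Agent.Lib.Helper97.TransvM
import Cfsg.Agent.Lib.Helper71.TP0
import Cfsg.Agent.Lib.Helper71.TP1
import Cfsg.Agent.Lib.Helper87.TPFLAGW

/-! S5637 piece RMS: `RM M α w ψ` is stable under scaling `α`. -/

set_option autoImplicit false

namespace Cfsg.Agent.Lib.Helper29.TPRMS

open Matrix Cfsg.Agent.Lib.Helper71.TP Cfsg.Agent.Lib.Helper97
open Cfsg.Agent.Lib.Helper87.TPFLAGW (exists_flagW)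
open scoped Kronecker

variable {a b : ℕ} {F : Type*} [Field F]

/-- the diagonal entries `(1, c⁻¹, c, 1, …, 1)` -/
def dvec (hb : 3 ≤ b) (c : F) : Fin b → F :=
  Function.update (Function.update (fun _ => (1 : F)) (⟨1, by omega⟩ : Fin b) c⁻¹)
    (⟨2, by omega⟩ : Fin b) c

theorem dvec_zero (hb : 3 ≤ b) (c : F) : dvec hb c (⟨0, by omega⟩ : Fin b) = 1 := by
  unfold dvec
  rw [Function.update_of_ne (by simp [Fin.ext_iff]), Function.update_of_ne (by simp [Fin.ext_iff])]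

theorem dvec_one (hb : 3 ≤ b) (c : F) : dvec hb c (⟨1, by omega⟩ : Fin b) = c⁻¹ := by
  unfold dvec
  rw [Function.update_of_ne (by simp [Fin.ext_iff]), Function.update_self]

theorem dvec_ne_zero (hb : 3 ≤ b) (c : F) (hc : c ≠ 0) (j : Fin b) : dvec hb c j ≠ 0 := by
  unfold dvec
  by_cases h2 : j = (⟨2, by omega⟩ : Fin b)
  · rw [h2, Function.update_self]; exact hc
  · rw [Function.update_of_ne h2]
    by_cases h1 : j = (⟨1, by omega⟩ : Fin b)
    · rw [h1, Function.update_self]; exact inv_ne_zero hc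
    · rw [Function.update_of_ne h1]; exact one_ne_zero

theorem dvec_prod (hb : 3 ≤ b) (c : F) (hc : c ≠ 0) : ∏ j, dvec hb c j = 1 := by
  classical
  unfold dvec
  rw [Finset.prod_update_of_mem (Finset.mem_univ _)]
  have h12 : (⟨1, by omega⟩ : Fin b) ∈ Finset.univ \ {(⟨2, by omega⟩ : Fin b)} := by
    simp [Fin.ext_iff]
  rw [Finset.prod_update_of_mem h12]
  simp only [Finset.prod_const_one, mul_one]
  exact mul_inv_cancel₀ hc

/-- the diagonal element of `GL` -/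
noncomputable def dG (hb : 3 ≤ b) (c : F) (hc : c ≠ 0) : GL (Fin b) F where
  val := Matrix.diagonal (dvec hb c)
  inv := Matrix.diagonal (fun j => (dvec hb c j)⁻¹)
  val_inv := by
    rw [Matrix.diagonal_mul_diagonal, ← Matrix.diagonal_one]
    congr 1
    funext j
    exact mul_inv_cancel₀ (dvec_ne_zero hb c hc j)
  inv_val := by
    rw [Matrix.diagonal_mul_diagonal, ← Matrix.diagonal_one]
    congr 1
    funext j
    exact inv_mul_cancel₀ (dvec_ne_zero hb c hc j)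

/-- RMS -/
theorem RM_smul (hb : 3 ≤ b) (M : Subgroup (GL (Fin a × Fin b) F)) (hNM : NN a b F ≤ M)
    {α : Matrix (Fin a) (Fin a) F} {w ψ : Fin b → F} (hw : w ≠ 0) (hψ : ψ ≠ 0)
    (h : ψ ⬝ᵥ w = 0) (c : F) (h1 : RM M α w ψ) : RM M (c • α) w ψ := by
  classical
  by_cases hc : c = 0
  · rw [hc, zero_smul]
    exact RM_zero M w ψ
  obtain ⟨B, hBdet, hBw, hBψ⟩ := exists_flagW hb w ψ hw hψ h
  set γ : GL (Fin b) F := B * dG hb c hc * B⁻¹ with hγ
  have hBinv : (B⁻¹ : GL (Fin b) F).1 * B.1 = 1 := by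
    rw [← Units.val_mul, inv_mul_cancel, Units.val_one]
  have hBinv' : B.1 * (B⁻¹ : GL (Fin b) F).1 = 1 := by
    rw [← Units.val_mul, mul_inv_cancel, Units.val_one]
  have hdetγ : γ.1.det = 1 := by
    rw [hγ, Units.val_mul, Units.val_mul, Matrix.det_mul, Matrix.det_mul]
    have h2 : (dG hb c hc).1.det = 1 := by
      show (Matrix.diagonal (dvec hb c)).det = 1
      rw [Matrix.det_diagonal, dvec_prod hb c hc]
    have h3 : (B⁻¹ : GL (Fin b) F).1.det = 1 := by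
      have := congrArg Matrix.det hBinv
      rw [Matrix.det_mul, hBdet, mul_one, Matrix.det_one] at this
      exact this
    rw [hBdet, h2, h3]
    simp
  -- γ fixes w
  have hγw : γ.1 *ᵥ w = w := by
    have h4 : (B⁻¹ : GL (Fin b) F).1 *ᵥ w = Pi.single (⟨0, by omega⟩ : Fin b) (1 : F) := by
      rw [← hBw, Matrix.mulVec_mulVec, hBinv, Matrix.one_mulVec]
    rw [hγ, Units.val_mul, Units.val_mul, ← Matrix.mulVec_mulVec, ← Matrix.mulVec_mulVec, h4]
    have h5 : (dG hb c hc).1 *ᵥ Pi.single (⟨0, by omega⟩ : Fin b) (1 : F) =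
        Pi.single (⟨0, by omega⟩ : Fin b) (1 : F) := by
      show Matrix.diagonal (dvec hb c) *ᵥ _ = _
      rw [Matrix.diagonal_mulVec_single, dvec_zero, one_mul]
    rw [h5, hBw]
  -- ψ γ⁻¹ = c ψ
  have hγψ : ψ ᵥ* (γ⁻¹ : GL (Fin b) F).1 = c • ψ := by
    have h6 : (γ⁻¹ : GL (Fin b) F) = B * (dG hb c hc)⁻¹ * B⁻¹ := by
      rw [hγ]; group
    have h7 : ψ = Pi.single (⟨1, by omega⟩ : Fin b) (1 : F) ᵥ* (B⁻¹ : GL (Fin b) F).1 := by
      rw [← hBψ, Matrix.vecMul_vecMul, hBinv', Matrix.vecMul_one]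
    rw [h6, Units.val_mul, Units.val_mul, ← Matrix.vecMul_vecMul, ← Matrix.vecMul_vecMul, hBψ]
    have h8 : Pi.single (⟨1, by omega⟩ : Fin b) (1 : F) ᵥ* ((dG hb c hc)⁻¹ : GL (Fin b) F).1 =
        c • Pi.single (⟨1, by omega⟩ : Fin b) (1 : F) := by
      show _ ᵥ* Matrix.diagonal (fun j => (dvec hb c j)⁻¹) = _
      rw [Matrix.single_vecMul_diagonal, dvec_one, inv_inv, one_mul, ← Pi.single_smul, smul_eq_mul,
        mul_one]
    rw [h8, Matrix.smul_vecMul, ← h7]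
  have hdet : (1 : GL (Fin a) F).1.det ^ b * γ.1.det ^ a = 1 := by
    rw [hdetγ]; simp
  have h9 := RM_conj M hNM (1 : GL (Fin a) F) γ hdet h1
  rw [hγw, hγψ] at h9
  have h10 : (1 : GL (Fin a) F).1 * α * ((1 : GL (Fin a) F)⁻¹ : GL (Fin a) F).1 = α := by
    simp
  rw [h10] at h9
  intro t ht
  apply h9
  rw [ht, kv_smul, kv_smul_right]

end Cfsg.Agent.Lib.Helper29.TPRMS
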