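import Mathlib

/-! S1624 (project U33) piece ISO: a homomorphism whose range contains a subgroup at least as large
as the source is an isomorphism onto that subgroup. -/

namespace Cfsg.Agent.Lib.Helper29.U33ISO

theorem equiv_of_le_range {H K : Type*} [Group H] [Finite H] [Group K] [Finite K]
    (ρ : H →* K) (L : Subgroup K) (hL : L ≤ ρ.range) (hcard : Nat.card H ≤ Nat.card L) :
    Nonempty (H ≃* L) := by
  have h1 : Nat.card ρ.range ≤ Nat.card H :=
    Nat.card_le_card_of_surjective ρ.rangeRestrict ρ.rangeRestrict_surjective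
  have h2 : Nat.card L ≤ Nat.card ρ.range := Subgroup.card_le_of_le hL
  have heq : L = ρ.range := Subgroup.eq_of_le_of_card_ge hL (by omega)
  subst heq
  have hbij : Function.Bijective ρ.rangeRestrict :=
    (Nat.bijective_iff_surjective_and_card _).mpr ⟨ρ.rangeRestrict_surjective, by omega⟩
  exact ⟨MulEquiv.ofBijective ρ.rangeRestrict hbij⟩

end Cfsg.Agent.Lib.Helper29.U33ISO
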