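import Cfsg.Agent.Lib.Helper22.W2Defs
import Cfsg.Agent.Lib.Helper83.Linear
import Cfsg.Agent.Lib.Helper68.BFPDEC
import Cfsg.Agent.Lib.Helper33.TIFour

/-!
# Project W2 (S4707, architect helper22), piece FCNAT (helper29)

The Fourier coefficient `fc p w z χ u` of a character `χ` along an element `z` of order `p`
is a natural number (the multiplicity of the `u`-th linear character).
-/

set_option autoImplicit false

namespace Cfsg.Agent.Lib.Helper29.W2

open Cfsg Cfsg.Agent.Lib.Helper83 Cfsg.Agent.Lib.Helper22.W2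
open scoped ComplexConjugate

universe u

variable {G : Type u} [Group G] [Fintype G]

/-- PIECE FCNAT -/
theorem fc_nat (p : ℕ) [Fact p.Prime] (w : ℂ) (hw : IsPrimitiveRoot w p) (z : G)
    (hz : orderOf z = p) (χ : G → ℂ) (hχ : IsCharacter G χ) (u : ZMod p) :
    ∃ n : ℕ, fc p w z χ u = (n : ℂ) := by
  have hp := (Fact.out : p.Prime)
  have hw1 : w ^ p = 1 := hw.pow_eq_one
  have hp0 : (p : ℂ) ≠ 0 := by exact_mod_cast hp.ne_zero
  have hzp : z ^ p = 1 := by rw [← hz]; exact pow_orderOf_eq_one z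
  obtain ⟨a, ha⟩ := Cfsg.Agent.Lib.Helper68.BFT.pdec p w hw χ hχ z hzp
  refine ⟨a u, ?_⟩
  unfold fc
  have h1 : ∀ t : ZMod p, conj (w ^ (u * t).val) * χ (z ^ t.val) =
      ∑ u' : ZMod p, (a u' : ℂ) * w ^ ((u' - u) * t).val := by
    intro t
    rw [ha t, Finset.mul_sum]
    apply Finset.sum_congr rfl
    intro u' _
    rw [Cfsg.Agent.Lib.Helper33.TI.conj_pow_val p w hw1]
    have h : w ^ ((u' - u) * t).val = w ^ (-(u * t)).val * w ^ (u' * t).val := by
      rw [← Cfsg.Agent.Lib.Helper33.TI.pow_val_add p w hw1]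
      congr 2
      ring
    rw [h]
    ring
  rw [Finset.sum_congr rfl (fun t _ => h1 t), Finset.sum_comm]
  have h2 : ∀ u' : ZMod p, ∑ t : ZMod p, (a u' : ℂ) * w ^ ((u' - u) * t).val =
      if u' = u then (a u : ℂ) * p else 0 := by
    intro u'
    rw [← Finset.mul_sum, Cfsg.Agent.Lib.Helper33.TI.sum_pow_val p w hw]
    by_cases h : u' = u
    · rw [if_pos h, if_pos (by rw [h, sub_self]), h]
    · rw [if_neg h, if_neg (by rw [sub_eq_zero]; exact h), mul_zero]
  rw [Finset.sum_congr rfl (fun u' _ => h2 u')]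
  rw [Finset.sum_ite_eq' Finset.univ u, if_pos (Finset.mem_univ u)]
  field_simp

end Cfsg.Agent.Lib.Helper29.W2
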